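import Cfsg.Agent.Lib.helper27.CentSearch

set_option autoImplicit false

namespace Cfsg.Agent.Lib.helper27

open Cfsg Cfsg.Agent.Lib.helper28
open scoped Pointwise

/-! The involutions commuting with an element of order 3 with six fixed points have fixed
points. -/

/-- Packed tables of the powers. -/
def cA3Pk : ℕ → ℕ
  | 0 => 984818244535754528103549039458486304
  | 1 => 976606353188534673349048998396264513
  | _ => 972876580985834619574089616508158978

/-- The value at index `v` of the table of the `k`-th power. -/
def cA3V (k v : ℕ) : ℕ := Nat.land (Nat.shiftRight (cA3Pk k) (Nat.mul 5 v)) 31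

/-- Base points of the search. -/
def cA3B : List ℕ := [3, 4, 0, 7, 6, 9, 11, 13, 5, 14, 17, 23]

/-- Origins of the entries of the table. -/
def cA3Src : List (ℕ × ℕ) := [(2, 0), (2, 1), (2, 2), (0, 0), (1, 0), (8, 0), (4, 0), (3, 0), (4, 1), (5, 0), (3, 2), (6, 0), (3, 1), (7, 0), (9, 0), (6, 1), (7, 2), (10, 0), (5, 2), (5, 1), (4, 2), (6, 2), (7, 1), (11, 0)]

/-- Levels of the search. -/
def cA3Levels : List SLevel :=
  [(true, 16777215, [0], []),
   (true, 16777215, [0], []),
   (false, 16777215, [0, 1, 2], []),
   (false, 16777215, [0, 1, 2], [41397955844717355763714]),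
   (false, 16777215, [0, 1, 2], []),
   (false, 16777215, [0, 1, 2], [43687695109766729695266]),
   (false, 16777215, [0, 1, 2], [44869474591168673155106]),
   (false, 16777215, [0, 1, 2], [83828998040793816008706]),
   (true, 16777215, [0], [8271099415243333371938]),
   (true, 16777215, [0], [10702575960067732965378]),
   (true, 16777215, [0], [11812839369008414195714]),
   (true, 16777215, [0], [12993500796619561437186])]

/-- Mask of the fixed points. -/
def cA3FY : ℕ := 8536120

theorem cA3V_ok :
    allLt (fun k => allLt (fun v => (powTab tA3 k).getD v 0 == cA3V k v) 24) 3 = true := by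
  decide +kernel

theorem cA3_spec : specLevels tA3 cA3B 3 cA3Levels 0 [] = true := by decide +kernel

theorem cA3_src : srcOK tA3 cA3B 3 cA3Src = true := by decide +kernel

/-- The final test: an involution in the group has a fixed point. -/
def cA3P (l : List ℕ) : Bool := !(sqOne l) || (!(fixMask l == 0) || !(tabOK l))

theorem cA3_FY : allLt (fun v => Nat.testBit cA3FY v == Nat.beq (cA3V 1 v) v) 24 = true := by
  decide +kernel

theorem cA3_full : cA3Levels.all (fun L => L.2.1 == 16777215) = true := by decide +kernel

theorem cA3_srch : srchN cA3V cA3FY cA3Src cA3P cA3Levels 0 0 0 = true := by decide +kernel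

/-- An involution of the group of the code commuting with the element of order 3 with six fixed
points has a fixed point. -/
theorem inv_cent_A3 {c : Equiv.Perm GolayPt} (hcM : c ∈ M24) (hc : c * uA3 = uA3 * c)
    (hsq : c * c = 1) : ∃ p, c p = p := by
  have h := srch_sound uA3_table uA3_table hcM hc cA3V 3 cA3V_ok cA3FY cA3_FY cA3B cA3Src
    cA3Levels cA3_spec cA3_src (mask_full cA3_full) cA3P cA3_srch
  unfold cA3P at h
  rw [sqOne_of_sq (isTable_tblOf c) hsq, tabOK_of_mem_M24 hcM (isTable_tblOf c)] at h
  simp only [Bool.not_true, Bool.false_or, Bool.or_false, Bool.not_eq_true',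
    beq_eq_false_iff_ne] at h
  by_contra hno
  push Not at hno
  apply h
  have h1 : helper28.setOf (fixMask (tblOf c)) = ∅ := by
    rw [setOf_fixMask (isTable_tblOf c), Finset.filter_eq_empty_iff]
    intro p _
    exact hno p
  have h2 := maskS_setOf (m := fixMask (tblOf c)) (by unfold fixMask; exact bitsToNat_lt _ _)
  rw [h1] at h2
  rw [← h2]
  exact maskS_eq_zero.mpr rfl

end Cfsg.Agent.Lib.helper27
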