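import Cfsg.Agent.Lib.helper27.Leech2
import Cfsg.Agent.Lib.helper28.GolayTrans
import Cfsg.Agent.S0432
import Cfsg.Prelude.Def_Spor_Conway

set_option autoImplicit false

namespace Cfsg.Agent.Lib.helper27

open Cfsg
open Cfsg.Agent.Lib.helper28

/-! Elements of the automorphism group of the rank-24 lattice: sign changes, coordinate permutations,
negation; the centre. -/

/-- The sign change on a code word, as a permutation of the lattice. -/
def signPerm (c : Finset GolayPt) (hc : c ∈ GC) : Equiv.Perm leechLattice where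
  toFun v := ⟨fun i => if i ∈ c then -v.1 i else v.1 i, signChange_mem_leechLattice v.2 hc⟩
  invFun v := ⟨fun i => if i ∈ c then -v.1 i else v.1 i, signChange_mem_leechLattice v.2 hc⟩
  left_inv v := by
    apply Subtype.ext
    funext i
    show (if i ∈ c then -(if i ∈ c then -v.1 i else v.1 i) else (if i ∈ c then -v.1 i else v.1 i))
      = v.1 i
    split_ifs <;> simp
  right_inv v := by
    apply Subtype.ext
    funext i
    show (if i ∈ c then -(if i ∈ c then -v.1 i else v.1 i) else (if i ∈ c then -v.1 i else v.1 i))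
      = v.1 i
    split_ifs <;> simp

theorem signPerm_apply (c : Finset GolayPt) (hc : c ∈ GC) (v : leechLattice) (i : GolayPt) :
    ((signPerm c hc v : leechLattice) : GolayPt → ℤ) i = if i ∈ c then -v.1 i else v.1 i := rfl

theorem signPerm_mem (c : Finset GolayPt) (hc : c ∈ GC) : signPerm c hc ∈ Co0 := by
  refine ⟨fun v w => ?_, fun v => ?_⟩
  · apply Subtype.ext
    funext i
    show (if i ∈ c then -(v.1 i + w.1 i) else (v.1 i + w.1 i)) =
      (if i ∈ c then -v.1 i else v.1 i) + (if i ∈ c then -w.1 i else w.1 i)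
    split_ifs <;> ring
  · unfold sqNorm
    apply Finset.sum_congr rfl
    intro i _
    rw [signPerm_apply]
    split_ifs <;> ring

/-- A coordinate permutation from the group of the code, as a permutation of the lattice. -/
def coordPerm (σ : Equiv.Perm GolayPt) (hσ : σ ∈ M24) : Equiv.Perm leechLattice where
  toFun v := ⟨fun i => v.1 (σ i), Cfsg.Agent.S0432.result σ hσ v.1 v.2⟩
  invFun v := ⟨fun i => v.1 (σ⁻¹ i), Cfsg.Agent.S0432.result σ⁻¹ (inv_mem hσ) v.1 v.2⟩
  left_inv v := by
    apply Subtype.ext
    funext i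
    show v.1 (σ (σ⁻¹ i)) = v.1 i
    simp
  right_inv v := by
    apply Subtype.ext
    funext i
    show v.1 (σ⁻¹ (σ i)) = v.1 i
    simp

theorem coordPerm_apply (σ : Equiv.Perm GolayPt) (hσ : σ ∈ M24) (v : leechLattice) (i : GolayPt) :
    ((coordPerm σ hσ v : leechLattice) : GolayPt → ℤ) i = v.1 (σ i) := rfl

theorem coordPerm_mem (σ : Equiv.Perm GolayPt) (hσ : σ ∈ M24) : coordPerm σ hσ ∈ Co0 := by
  refine ⟨fun v w => ?_, fun v => ?_⟩
  · apply Subtype.ext
    funext i
    rfl
  · unfold sqNorm
    exact Equiv.sum_comp σ (fun i => v.1 i ^ 2)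

/-- Negation, as a permutation of the lattice. -/
def negPerm : Equiv.Perm leechLattice := Equiv.neg leechLattice

theorem negPerm_apply (v : leechLattice) : negPerm v = -v := rfl

theorem negPerm_mem : negPerm ∈ Co0 := by
  refine ⟨fun v w => ?_, fun v => ?_⟩
  · rw [negPerm_apply, negPerm_apply, negPerm_apply, neg_add]
  · rw [negPerm_apply]
    unfold sqNorm
    apply Finset.sum_congr rfl
    intro i _
    show (-(v.1 i)) ^ 2 = v.1 i ^ 2
    ring

/-- Elements of `Co0` are additive. -/
def toAddHom (g : Equiv.Perm leechLattice) (hg : g ∈ Co0) : leechLattice →+ leechLattice where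
  toFun := g
  map_zero' := by
    have h := hg.1 0 0
    rw [add_zero] at h
    exact left_eq_add.mp h
  map_add' := hg.1

theorem toAddHom_apply (g : Equiv.Perm leechLattice) (hg : g ∈ Co0) (v : leechLattice) :
    toAddHom g hg v = g v := rfl

/-- `8 e_i` as a lattice vector. -/
def bVec (i : GolayPt) : leechLattice :=
  ⟨fun k => if k = i then 8 else 0, (mem_leechLattice_iff _).mpr
    (Spor.mem_leechSet_of_const_mod_four _ 0 0 (by decide)
      (fun k => by
        show (if k = i then (8 : ℤ) else 0) ≡ 0 [ZMOD 4]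
        split_ifs <;> decide)
      (by rw [Finset.sum_ite_eq' Finset.univ i (fun _ => (8 : ℤ))]; simp))⟩

theorem bVec_apply (i k : GolayPt) : (bVec i).1 k = if k = i then 8 else 0 := rfl

theorem sqNorm_bVec (i : GolayPt) : sqNorm (bVec i).1 = 64 := by
  unfold sqNorm
  have h : ∀ k, (bVec i).1 k ^ 2 = if k = i then 64 else 0 := by
    intro k
    rw [bVec_apply]
    split_ifs <;> norm_num
  rw [Finset.sum_congr rfl (fun k _ => h k), Finset.sum_ite_eq' Finset.univ i (fun _ => (64 : ℤ))]
  simp

/-- Any two points are separated by a code word. -/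
theorem exists_sep (i j : GolayPt) (hij : i ≠ j) : ∃ c ∈ GC, ¬ (i ∈ c ↔ j ∈ c) := by
  have key : ∀ a < 24, ∀ b < 24, a ≠ b → ∃ m ∈ basisMasks, m.testBit a ≠ m.testBit b := by
    decide +kernel
  obtain ⟨m, hm, hne⟩ := key (idx i) (idx_lt i) (idx j) (idx_lt j) (fun h => hij (idx_injective h))
  refine ⟨setOf m, ⟨wordOf m, wordOf_basis_mem m hm, support₂_wordOf m⟩, ?_⟩
  rw [mem_setOf, mem_setOf]
  intro h
  exact hne (Bool.eq_iff_iff.mpr h)

/-- Coordinate evaluation on the lattice. -/
def evalHom (j : GolayPt) : leechLattice →+ ℤ where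
  toFun v := v.1 j
  map_zero' := rfl
  map_add' _ _ := rfl

theorem evalHom_apply (j : GolayPt) (v : leechLattice) : evalHom j v = v.1 j := rfl

theorem eight_smul_eq (v : leechLattice) : (8 : ℤ) • v = ∑ i, (v.1 i) • bVec i := by
  apply Subtype.ext
  funext j
  have hL : ((8 : ℤ) • v : leechLattice).1 j = evalHom j ((8 : ℤ) • v) := rfl
  have hR : ((∑ i, (v.1 i) • bVec i : leechLattice)).1 j =
      evalHom j (∑ i, (v.1 i) • bVec i) := rfl
  rw [hL, hR, map_zsmul, map_sum]
  simp only [map_zsmul, evalHom_apply, bVec_apply, smul_eq_mul, mul_ite, mul_zero]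
  rw [Finset.sum_ite_eq Finset.univ j]
  simp only [Finset.mem_univ, if_true]
  ring

/-- A central element of `Co0` is the identity or negation. -/
theorem central_cases (g : Equiv.Perm leechLattice) (hg : g ∈ Co0)
    (hc : ∀ h ∈ Co0, ∀ v, h (g v) = g (h v)) : g = 1 ∨ g = negPerm := by
  have hsupp : ∀ i j, j ≠ i → (g (bVec i)).1 j = 0 := by
    intro i j hji
    obtain ⟨c, hcC, hsep⟩ := exists_sep i j (Ne.symm hji)
    have hcomm := hc (signPerm c hcC) (signPerm_mem c hcC) (bVec i)
    by_cases hi : i ∈ c
    · have hjc : j ∉ c := fun h => hsep ⟨fun _ => h, fun _ => hi⟩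
      have hb : signPerm c hcC (bVec i) = -(bVec i) := by
        apply Subtype.ext
        funext k
        show (if k ∈ c then -(bVec i).1 k else (bVec i).1 k) = -((bVec i).1 k)
        rw [bVec_apply]
        by_cases hk : k = i
        · subst hk; rw [if_pos hi]
        · rw [if_neg hk]; simp
      rw [hb, ← toAddHom_apply g hg (-(bVec i)), map_neg, toAddHom_apply] at hcomm
      have hj := congrArg (fun w : leechLattice => w.1 j) hcomm
      have e1 : (signPerm c hcC (g (bVec i))).1 j = (g (bVec i)).1 j := by
        rw [signPerm_apply, if_neg hjc]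
      have e2 : (-(g (bVec i)) : leechLattice).1 j = -((g (bVec i)).1 j) := rfl
      have hj' : (signPerm c hcC (g (bVec i))).1 j = (-(g (bVec i)) : leechLattice).1 j := hj
      rw [e1, e2] at hj'
      omega
    · have hjc : j ∈ c := by
        by_contra h
        exact hsep ⟨fun h' => absurd h' hi, fun h' => absurd h' h⟩
      have hb : signPerm c hcC (bVec i) = bVec i := by
        apply Subtype.ext
        funext k
        show (if k ∈ c then -(bVec i).1 k else (bVec i).1 k) = (bVec i).1 k
        rw [bVec_apply]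
        by_cases hk : k = i
        · subst hk; rw [if_neg hi]
        · rw [if_neg hk]; simp
      rw [hb] at hcomm
      have hj : (signPerm c hcC (g (bVec i))).1 j = (g (bVec i)).1 j :=
        congrArg (fun w : leechLattice => w.1 j) hcomm
      rw [signPerm_apply, if_pos hjc] at hj
      omega
  have hdiag : ∀ i, (g (bVec i)).1 i = 8 ∨ (g (bVec i)).1 i = -8 := by
    intro i
    have hn := hg.2 (bVec i)
    rw [sqNorm_bVec] at hn
    unfold sqNorm at hn
    rw [Finset.sum_eq_single i (fun j _ hji => by rw [hsupp i j hji]; norm_num)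
      (fun h => absurd (Finset.mem_univ i) h)] at hn
    have h8 : ((g (bVec i)).1 i - 8) * ((g (bVec i)).1 i + 8) = 0 := by linear_combination hn
    rcases mul_eq_zero.mp h8 with h | h
    · left; omega
    · right; omega
  have hform : ∀ (v : leechLattice) (j : GolayPt),
      8 * (g v).1 j = v.1 j * (g (bVec j)).1 j := by
    intro v j
    have h1 := congrArg (toAddHom g hg) (eight_smul_eq v)
    rw [map_zsmul, map_sum] at h1
    have h2 := congrArg (evalHom j) h1
    rw [map_zsmul, map_sum] at h2
    simp only [map_zsmul, toAddHom_apply, evalHom_apply, smul_eq_mul] at h2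
    rw [h2, Finset.sum_eq_single j (fun i _ hij => by rw [hsupp i j (Ne.symm hij)]; ring)
      (fun h => absurd (Finset.mem_univ j) h)]
  have hconst : ∀ i j, (g (bVec i)).1 i = (g (bVec j)).1 j := by
    intro i j
    obtain ⟨σ, hσ, hσj⟩ := exists_mem_M24_apply j i
    have hcomm := hc (coordPerm σ hσ) (coordPerm_mem σ hσ) (bVec i)
    have hb : coordPerm σ hσ (bVec i) = bVec j := by
      apply Subtype.ext
      funext k
      show (bVec i).1 (σ k) = (bVec j).1 k
      rw [bVec_apply, bVec_apply]
      by_cases hk : k = j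
      · subst hk; rw [if_pos hσj, if_pos rfl]
      · rw [if_neg hk, if_neg]
        intro h
        apply hk
        apply σ.injective
        rw [h, hσj]
    rw [hb] at hcomm
    have hj : (coordPerm σ hσ (g (bVec i))).1 j = (g (bVec j)).1 j :=
      congrArg (fun w : leechLattice => w.1 j) hcomm
    rw [coordPerm_apply, hσj] at hj
    exact hj
  rcases hdiag none with h8 | h8
  · left
    apply Equiv.ext
    intro v
    apply Subtype.ext
    funext j
    have h := hform v j
    rw [← hconst none j, h8] at h
    show (g v).1 j = v.1 j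
    omega
  · right
    apply Equiv.ext
    intro v
    apply Subtype.ext
    funext j
    have h := hform v j
    rw [← hconst none j, h8] at h
    show (g v).1 j = -(v.1 j)
    omega

/-- The centre of the automorphism group of the lattice has order 2. -/
theorem card_center_Co0 : Nat.card (Subgroup.center Co0) = 2 := by
  obtain ⟨negEl, hnegEl⟩ : ∃ n : Co0, n = ⟨negPerm, negPerm_mem⟩ := ⟨_, rfl⟩
  have hnegc : negEl ∈ Subgroup.center Co0 := by
    rw [Subgroup.mem_center_iff]
    intro h
    apply Subtype.ext
    apply Equiv.ext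
    intro v
    rw [hnegEl]
    show h.1 (negPerm v) = negPerm (h.1 v)
    rw [negPerm_apply, negPerm_apply, ← toAddHom_apply h.1 h.2, map_neg]
    rfl
  have hne : negEl ≠ 1 := by
    intro h
    have h1 : (negEl.1 (bVec none)).1 none = ((1 : Co0).1 (bVec none)).1 none := by rw [h]
    rw [hnegEl] at h1
    have e1 : (negPerm (bVec none)).1 none = -8 := rfl
    have e2 : ((1 : Co0).1 (bVec none)).1 none = 8 := rfl
    have h1' : (negPerm (bVec none)).1 none = ((1 : Co0).1 (bVec none)).1 none := h1
    rw [e1, e2] at h1'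
    omega
  rw [Nat.card_eq_two_iff' (1 : Subgroup.center Co0)]
  refine ⟨⟨negEl, hnegc⟩, fun h => hne (congrArg Subtype.val h), ?_⟩
  rintro ⟨z, hz⟩ hz1
  apply Subtype.ext
  show z = negEl
  rw [Subgroup.mem_center_iff] at hz
  have hcomm : ∀ h ∈ Co0, ∀ v, h (z.1 v) = z.1 (h v) := by
    intro h hh v
    have h2 := congrArg (fun f : Co0 => f.1 v) (hz ⟨h, hh⟩)
    exact h2
  rcases central_cases z.1 z.2 hcomm with h | h
  · exfalso
    apply hz1
    apply Subtype.ext
    apply Subtype.ext
    exact h
  · rw [hnegEl]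
    apply Subtype.ext
    exact h

end Cfsg.Agent.Lib.helper27
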