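import Cfsg.Agent.Lib.helper27.GolayDual
import Cfsg.Agent.Lib.helper28.GolayStab

set_option autoImplicit false

namespace Cfsg.Agent.Lib.helper27

open Cfsg
open Cfsg.Agent.Lib.helper28
open scoped Pointwise

/-! Stabilisers of code words fix no non-zero vector of the space of words modulo the code. -/

/-- The check: for every non-zero coset representative `m` (a mask below `2 ^ 12`), one of the
tables moves `m` to a word not congruent to `m` modulo the code. -/
def fixCheck (L : List (List ℕ)) : Bool :=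
  allLt (fun m => m == 0 || L.any (fun l => !isCW (preMask l m ^^^ m))) 4096

theorem sub_eq_add_word (x y : GolayPt → ZMod 2) : x - y = x + y := by
  funext p
  exact CharTwo.sub_eq_add (x p) (y p)

theorem maskW_act {g : Equiv.Perm GolayPt} {l : List ℕ} (hl : IsTable g l)
    (w : GolayPt → ZMod 2) :
    maskW (fun p => w ((g⁻¹ : Equiv.Perm GolayPt).symm p)) = preMask l (maskW w) := by
  rw [maskW_eq_maskS, support₂_act, maskS_inv_smul hl, ← maskW_eq_maskS]

theorem stab_moves (m0 : ℕ) (L : List (List ℕ)) (hL : L.all (tabIn [m0]) = true)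
    (hc : fixCheck L = true) (w : GolayPt → ZMod 2) (hw : w ∉ golayCode) :
    ∃ σ ∈ M24, σ • setOf m0 = setOf m0 ∧ (fun p => w (σ.symm p)) - w ∉ golayCode := by
  have hM : maskW w < 2 ^ 24 := maskW_lt w
  have hn : maskW w >>> 12 < 4096 := by
    rw [Nat.shiftRight_eq_div_pow]; omega
  have hclt : cw (maskW w >>> 12) < 2 ^ 24 := cw_lt hn
  have hmlt : maskW w ^^^ cw (maskW w >>> 12) < 4096 := by
    have h0 : (maskW w ^^^ cw (maskW w >>> 12)) >>> 12 = 0 := by
      rw [Nat.shiftRight_xor_distrib, cw_shift hn, Nat.xor_self]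
    rw [Nat.shiftRight_eq_div_pow] at h0
    have := Nat.div_add_mod (maskW w ^^^ cw (maskW w >>> 12)) (2 ^ 12)
    have := Nat.mod_lt (maskW w ^^^ cw (maskW w >>> 12)) (show 0 < 2 ^ 12 by norm_num)
    rw [h0] at *
    omega
  have hm0 : maskW w ^^^ cw (maskW w >>> 12) ≠ 0 := by
    intro h
    apply hw
    rw [mem_golayCode_iff]
    have : maskW w = cw (maskW w >>> 12) := Nat.xor_eq_zero_iff.mp h
    rw [this]
    exact isCW_cw hn
  have h1 := allLt_spec hc _ hmlt
  rw [Bool.or_eq_true, beq_iff_eq] at h1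
  rcases h1 with h1 | h1
  · exact absurd h1 hm0
  obtain ⟨l, hlL, hl⟩ := List.any_eq_true.mp h1
  have hin := List.all_eq_true.mp hL l hlL
  obtain ⟨g, hg, hgl⟩ := tabIn_spec hin
  have hok : tabOK l = true := by
    unfold tabIn at hin
    simp only [Bool.and_eq_true] at hin
    exact hin.1.2
  refine ⟨g⁻¹, M24.inv_mem hg.1, ?_, ?_⟩
  · have := hg.2 m0 (List.mem_singleton.mpr rfl)
    rw [inv_smul_eq_iff, this]
  · intro hmem
    rw [sub_eq_add_word, mem_golayCode_iff, maskW_add, maskW_act hgl] at hmem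
    have h2 : isCW (preMask l (cw (maskW w >>> 12)) ^^^ cw (maskW w >>> 12)) = true :=
      isCW_xor (preMask_lt _ _) hclt (isCW_preMask_cw hok _) (isCW_cw hn)
    have h3 := isCW_xor (Nat.xor_lt_two_pow (preMask_lt l _) hM)
      (Nat.xor_lt_two_pow (preMask_lt l _) hclt) hmem h2
    have e : preMask l (maskW w) ^^^ maskW w ^^^
        (preMask l (cw (maskW w >>> 12)) ^^^ cw (maskW w >>> 12)) =
        preMask l (maskW w ^^^ cw (maskW w >>> 12)) ^^^ (maskW w ^^^ cw (maskW w >>> 12)) := by
      rw [preMask_xor]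
      simp only [Nat.xor_assoc, Nat.xor_left_comm, Nat.xor_comm]
    rw [e] at h3
    rw [h3] at hl
    exact absurd hl (by decide)

/-- Tables of two elements of the stabiliser of the octad with mask 5279. -/
def octL : List (List ℕ) :=
  [[2, 3, 4, 7, 1, 19, 17, 12, 9, 14, 10, 8, 0, 6, 16, 13, 18, 5, 21, 22, 20, 11, 15, 23],
   [0, 7, 2, 3, 4, 17, 5, 1, 14, 18, 12, 8, 10, 15, 21, 19, 9, 22, 23, 20, 13, 11, 6, 16]]

/-- Tables of two elements of the stabiliser of the dodecad with mask 340831. -/
def dodL : List (List ℕ) :=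
  [[4, 6, 2, 12, 1, 20, 13, 11, 9, 8, 19, 7, 16, 18, 10, 5, 3, 17, 0, 14, 21, 22, 23, 15],
   [9, 1, 6, 3, 4, 21, 18, 19, 16, 13, 7, 5, 8, 0, 14, 15, 12, 20, 2, 10, 22, 11, 17, 23]]

theorem octL_in : octL.all (tabIn [5279]) = true := by decide +kernel

theorem dodL_in : dodL.all (tabIn [340831]) = true := by decide +kernel

theorem octL_check : fixCheck octL = true := by decide +kernel

theorem dodL_check : fixCheck dodL = true := by decide +kernel

/-- The property that the stabiliser of a set moves every word outside the code modulo the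
code. -/
def Moves (s : Finset GolayPt) : Prop :=
  ∀ w : GolayPt → ZMod 2, w ∉ golayCode →
    ∃ σ ∈ M24, σ • s = s ∧ (fun p => w (σ.symm p)) - w ∉ golayCode

theorem moves_oct : Moves (setOf 5279) := stab_moves 5279 octL octL_in octL_check

theorem moves_dod : Moves (setOf 340831) := stab_moves 340831 dodL dodL_in dodL_check

theorem Moves.smul {s : Finset GolayPt} (h : Moves s) {g : Equiv.Perm GolayPt} (hg : g ∈ M24) :
    Moves (g • s) := by
  intro w hw
  have hw' : (fun p => w (g p)) ∉ golayCode := by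
    intro hmem
    apply hw
    have := golayCode_invariant g hg _ hmem
    have e : (fun p => (fun p => w (g p)) (g.symm p)) = w := by
      funext p
      show w (g (g.symm p)) = w p
      rw [Equiv.apply_symm_apply]
    rwa [e] at this
  obtain ⟨σ, hσ, hσs, hσw⟩ := h _ hw'
  refine ⟨g * σ * g⁻¹, M24.mul_mem (M24.mul_mem hg hσ) (M24.inv_mem hg), ?_, ?_⟩
  · rw [mul_smul, mul_smul, inv_smul_smul, hσs]
  · intro hmem
    apply hσw
    have := golayCode_invariant g⁻¹ (M24.inv_mem hg) _ hmem
    have e : (fun p => ((fun p => w ((g * σ * g⁻¹).symm p)) - w) ((g⁻¹ : Equiv.Perm GolayPt).symm p))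
        = (fun p => (fun p => w (g p)) (σ.symm p)) - fun p => w (g p) := by
      funext p
      show w ((g * σ * g⁻¹)⁻¹ (g p)) - w (g p) = w (g (σ⁻¹ p)) - w (g p)
      rw [mul_inv_rev, mul_inv_rev, inv_inv, Equiv.Perm.mul_apply, Equiv.Perm.mul_apply]
      have e1 : g⁻¹ (g p) = p := Equiv.symm_apply_apply g p
      rw [e1]
    rwa [e] at this

theorem Moves.compl {s : Finset GolayPt} (h : Moves s) : Moves sᶜ := by
  intro w hw
  obtain ⟨σ, hσ, hσs, hσw⟩ := h w hw
  exact ⟨σ, hσ, by rw [smul_compl, hσs], hσw⟩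

theorem moves_empty : Moves ∅ := by
  intro w hw
  obtain ⟨σ, hσ, -, hσw⟩ := moves_oct w hw
  exact ⟨σ, hσ, Finset.smul_finset_empty σ, hσw⟩

theorem moves_univ : Moves Finset.univ := by
  have := moves_empty.compl
  rwa [Finset.compl_empty] at this

theorem oct5279_mem : setOf 5279 ∈ octads :=
  setOf_basis_mem_octads (by decide)

theorem moves_support {u : GolayPt → ZMod 2} (hu : u ∈ golayCode) : Moves (support₂ u) := by
  have hs : support₂ u ∈ supports (golayCode : Set (GolayPt → ZMod 2)) := ⟨u, hu, rfl⟩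
  rcases card_of_mem_supports hs with h | h | h | h | h
  · rw [Finset.card_eq_zero.mp h]
    exact moves_empty
  · obtain ⟨g, hg, hgs⟩ := exists_smul_octad_eq oct5279_mem (show support₂ u ∈ octads from ⟨hs, h⟩)
    rw [← hgs]
    exact moves_oct.smul hg
  · obtain ⟨g, hg, hgs⟩ := exists_smul_d0_eq (show support₂ u ∈ dodecads from ⟨hs, h⟩)
    rw [← hgs]
    exact Moves.smul (s := setOf d0) moves_dod hg
  · have hc : (support₂ u)ᶜ ∈ octads := by
      refine ⟨compl_mem_supports hs, ?_⟩
      rw [Finset.card_compl, h, card_golayPt24]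
    obtain ⟨g, hg, hgs⟩ := exists_smul_octad_eq oct5279_mem hc
    have := (moves_oct.smul hg).compl
    rwa [hgs, compl_compl] at this
  · have hu' : support₂ u = Finset.univ := by
      apply Finset.eq_univ_of_card
      rw [h]; decide
    rw [hu']
    exact moves_univ

/-- The stabiliser of a code word fixes no non-zero element of the space of words modulo the
code. -/
theorem stabilizer_moves (u : GolayPt → ZMod 2) (hu : u ∈ golayCode) (w : GolayPt → ZMod 2)
    (hw : w ∉ golayCode) :
    ∃ σ ∈ M24, (fun p => u (σ.symm p)) = u ∧ (fun p => w (σ.symm p)) - w ∉ golayCode := by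
  obtain ⟨σ, hσ, hσs, hσw⟩ := moves_support hu w hw
  refine ⟨σ, hσ, ?_, hσw⟩
  rw [← wordOfSet_support₂ (fun p => u (σ.symm p)), support₂_act, hσs, wordOfSet_support₂]

end Cfsg.Agent.Lib.helper27
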