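import Cfsg.Agent.Lib.helper27.StemCover

set_option autoImplicit false

/-! Transfer to an elementary abelian Sylow 2-subgroup of order eight normalized by an element
acting irreducibly: all lifts commute, so the kernel of a stem extension has odd exponent. -/

namespace Cfsg.Agent.Lib.helper27.StemE8

open Cfsg.Agent.Lib.helper20 Cfsg.Agent.Lib.helper27.Stem Cfsg.Agent.Lib.helper27.StemTwo
open scoped commutatorElement

universe u v

variable {Γ : Type u} {G : Type v} [Group Γ] [Group G]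

/-- Lifts of three commuting elements permuted by `τ` with `a₁ ↦ a₂ ↦ a₃ ↦ a₁ a₃` commute. -/
theorem e8_lifts_comm (σ : Γ →* G) (hc : σ.ker ≤ Subgroup.center Γ) (x1 x2 x3 y : Γ)
    (h12 : σ x1 * σ x2 = σ x2 * σ x1) (h13 : σ x1 * σ x3 = σ x3 * σ x1)
    (h23 : σ x2 * σ x3 = σ x3 * σ x2)
    (r1 : σ y * σ x1 * (σ y)⁻¹ = σ x2) (r2 : σ y * σ x2 * (σ y)⁻¹ = σ x3)
    (r3 : σ y * σ x3 * (σ y)⁻¹ = σ x1 * σ x3) :
    x1 * x2 = x2 * x1 ∧ x1 * x3 = x3 * x1 ∧ x2 * x3 = x3 * x2 := by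
  have hcz : ∀ {k : Γ}, k ∈ σ.ker → ∀ g : Γ, g * k = k * g := fun hk g =>
    Subgroup.mem_center_iff.mp (hc hk) g
  have k12 : ⁅x1, x2⁆ ∈ σ.ker := by
    rw [MonoidHom.mem_ker, map_commutatorElement, commutatorElement_eq_one_iff_mul_comm]
    exact h12
  have k13 : ⁅x1, x3⁆ ∈ σ.ker := by
    rw [MonoidHom.mem_ker, map_commutatorElement, commutatorElement_eq_one_iff_mul_comm]
    exact h13
  have k23 : ⁅x2, x3⁆ ∈ σ.ker := by
    rw [MonoidHom.mem_ker, map_commutatorElement, commutatorElement_eq_one_iff_mul_comm]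
    exact h23
  have z1 : x2⁻¹ * (y * x1 * y⁻¹) ∈ σ.ker := by
    rw [MonoidHom.mem_ker, map_mul, map_inv, map_mul, map_mul, map_inv, r1, inv_mul_cancel]
  have z2 : x3⁻¹ * (y * x2 * y⁻¹) ∈ σ.ker := by
    rw [MonoidHom.mem_ker, map_mul, map_inv, map_mul, map_mul, map_inv, r2, inv_mul_cancel]
  have z3 : (x1 * x3)⁻¹ * (y * x3 * y⁻¹) ∈ σ.ker := by
    rw [MonoidHom.mem_ker, map_mul, map_inv, map_mul, map_mul, map_mul, map_inv, r3,
      inv_mul_cancel]
  have e1 : y * x1 * y⁻¹ = x2 * (x2⁻¹ * (y * x1 * y⁻¹)) := by group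
  have e2 : y * x2 * y⁻¹ = x3 * (x3⁻¹ * (y * x2 * y⁻¹)) := by group
  have e3 : y * x3 * y⁻¹ = (x1 * x3) * ((x1 * x3)⁻¹ * (y * x3 * y⁻¹)) := by group
  have fix : ∀ (g c : Γ), c ∈ σ.ker → g * c * g⁻¹ = c := fun g c hcm => by
    rw [hcz hcm g, mul_inv_cancel_right]
  have s1 : ⁅x1, x2⁆ = ⁅x2, x3⁆ := by
    have h : y * ⁅x1, x2⁆ * y⁻¹ = ⁅y * x1 * y⁻¹, y * x2 * y⁻¹⁆ :=
      conjugate_commutatorElement _ _ _
    rw [fix y _ k12] at h
    rw [h, e1, e2]
    exact commutatorElement_mul_central (hc z1) (hc z2)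
  have s2 : ⁅x2, x3⁆ = ⁅x3, x1⁆ := by
    have h : y * ⁅x2, x3⁆ * y⁻¹ = ⁅y * x2 * y⁻¹, y * x3 * y⁻¹⁆ :=
      conjugate_commutatorElement _ _ _
    rw [fix y _ k23] at h
    have e : ⁅x3, x1 * x3⁆ = ⁅x3, x1⁆ := by
      rw [commutatorElement_def, commutatorElement_def]; group
    rw [h, e2, e3, commutatorElement_mul_central (hc z2) (hc z3), e]
  have s3 : ⁅x1, x3⁆ = ⁅x2, x1⁆ * ⁅x2, x3⁆ := by
    have h : y * ⁅x1, x3⁆ * y⁻¹ = ⁅y * x1 * y⁻¹, y * x3 * y⁻¹⁆ :=
      conjugate_commutatorElement _ _ _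
    rw [fix y _ k13] at h
    have e : ⁅x2, x1 * x3⁆ = ⁅x2, x1⁆ * (x1 * ⁅x2, x3⁆ * x1⁻¹) := by
      rw [commutatorElement_def, commutatorElement_def, commutatorElement_def]; group
    rw [h, e1, e3, commutatorElement_mul_central (hc z1) (hc z3), e, fix x1 _ k23]
  have t13 : ⁅x1, x3⁆ = 1 := by
    rw [s3, ← commutatorElement_inv x1 x2, s1, inv_mul_cancel]
  have t31 : ⁅x3, x1⁆ = 1 := by
    rw [← commutatorElement_inv x1 x3, t13, inv_one]
  have t23 : ⁅x2, x3⁆ = 1 := by rw [s2, t31]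
  have t12 : ⁅x1, x2⁆ = 1 := by rw [s1, t23]
  exact ⟨commutatorElement_eq_one_iff_mul_comm.mp t12, commutatorElement_eq_one_iff_mul_comm.mp t13,
    commutatorElement_eq_one_iff_mul_comm.mp t23⟩

/-- If the lifts of a generating set of `U` commute, the kernel has exponent dividing
`|G : U|`. -/
theorem pow_index_eq_one_of_comm_set [Finite G] (σ : Γ →* G) (hσ : Cfsg.IsStemExtension σ)
    (S : Set Γ) (hS : ∀ s ∈ S, ∀ t ∈ S, s * t = t * s) {z : Γ} (hz : z ∈ σ.ker) :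
    z ^ (Subgroup.closure (σ '' S)).index = 1 := by
  have h1 := pow_index_mem σ hσ (Subgroup.closure (σ '' S)) hz
  have hcomm : ∀ s ∈ (S ∪ (σ.ker : Set Γ)), ∀ t ∈ (S ∪ (σ.ker : Set Γ)), s * t = t * s := by
    have hk : ∀ s ∈ (σ.ker : Set Γ), ∀ t : Γ, s * t = t * s := fun s hs t =>
      (Subgroup.mem_center_iff.mp (hσ.2.1 hs) t).symm
    intro s hs t ht
    rcases hs with hs | hs
    · rcases ht with ht | ht
      · exact hS s hs t ht
      · exact (hk t ht s).symm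
    · exact hk s hs t
  have hcomap : (Subgroup.closure (σ '' S)).comap σ
      = Subgroup.closure (S ∪ (σ.ker : Set Γ)) := by
    rw [← MonoidHom.map_closure, Subgroup.comap_map_eq, Subgroup.closure_union,
      Subgroup.closure_eq]
  have h2 : ⁅(Subgroup.closure (σ '' S)).comap σ, (Subgroup.closure (σ '' S)).comap σ⁆ = ⊥ := by
    rw [hcomap, eq_bot_iff, Subgroup.commutator_le]
    intro g₁ h₁ g₂ h₂
    rw [Subgroup.mem_bot, commutatorElement_eq_one_iff_mul_comm]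
    exact closure_comm _ hcomm g₁ h₁ g₂ h₂
  rw [h2, Subgroup.mem_bot] at h1
  exact h1

/-- Transfer to `⟨a₁, a₂, a₃⟩` abelian, normalized by `τ` with `a₁ ↦ a₂ ↦ a₃ ↦ a₁ a₃`. -/
theorem e8_pow_index [Finite G] (σ : Γ →* G) (hσ : Cfsg.IsStemExtension σ) (a1 a2 a3 τ : G)
    (h12 : a1 * a2 = a2 * a1) (h13 : a1 * a3 = a3 * a1) (h23 : a2 * a3 = a3 * a2)
    (r1 : τ * a1 * τ⁻¹ = a2) (r2 : τ * a2 * τ⁻¹ = a3) (r3 : τ * a3 * τ⁻¹ = a1 * a3)
    {z : Γ} (hz : z ∈ σ.ker) : z ^ (Subgroup.closure ({a1, a2, a3} : Set G)).index = 1 := by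
  obtain ⟨x1, rfl⟩ := hσ.1 a1
  obtain ⟨x2, rfl⟩ := hσ.1 a2
  obtain ⟨x3, rfl⟩ := hσ.1 a3
  obtain ⟨y, rfl⟩ := hσ.1 τ
  obtain ⟨c12, c13, c23⟩ := e8_lifts_comm σ hσ.2.1 x1 x2 x3 y h12 h13 h23 r1 r2 r3
  have h := pow_index_eq_one_of_comm_set σ hσ ({x1, x2, x3} : Set Γ) ?_ hz
  · have e : σ '' ({x1, x2, x3} : Set Γ) = {σ x1, σ x2, σ x3} := by
      rw [Set.image_insert_eq, Set.image_insert_eq, Set.image_singleton]
    rwa [e] at h
  · intro s hs t ht
    simp only [Set.mem_insert_iff, Set.mem_singleton_iff] at hs ht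
    rcases hs with h | h | h <;> rcases ht with h' | h' | h' <;> rw [h, h']
    · exact c12
    · exact c13
    · exact c12.symm
    · exact c23
    · exact c13.symm
    · exact c23.symm

theorem length_le_card {P : Type*} [Group P] (H : Subgroup P) [Finite H] (l : List P)
    (hl : l.Nodup) (hm : ∀ x ∈ l, x ∈ H) : l.length ≤ Nat.card H := by
  classical
  have h1 : l.toFinset.card = l.length := List.toFinset_card_of_nodup hl
  have h2 : (l.toFinset : Set P) ⊆ (H : Set P) := by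
    intro x hx
    exact hm x (List.mem_toFinset.mp hx)
  have h3 := Set.ncard_le_ncard h2 (Set.toFinite _)
  rw [Set.ncard_coe_finset, h1] at h3
  rwa [← Nat.card_coe_set_eq] at h3

/-- Three commuting involutions with five distinct products generate a group of order
divisible by eight. -/
theorem e8_dvd_card [Finite G] (a1 a2 a3 : G) (h1 : a1 ^ 2 = 1) (h2 : a2 ^ 2 = 1)
    (h3 : a3 ^ 2 = 1) (h12 : a1 * a2 = a2 * a1) (h13 : a1 * a3 = a3 * a1)
    (h23 : a2 * a3 = a3 * a2) (hnd : [1, a1, a2, a3, a1 * a2].Nodup) :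
    8 ∣ Nat.card (Subgroup.closure ({a1, a2, a3} : Set G)) := by
  haveI : Fact (Nat.Prime 2) := ⟨Nat.prime_two⟩
  have hS2 : ∀ s ∈ ({a1, a2, a3} : Set G), s ^ 2 = 1 := by
    intro s hs
    simp only [Set.mem_insert_iff, Set.mem_singleton_iff] at hs
    rcases hs with h | h | h <;> rw [h]
    · exact h1
    · exact h2
    · exact h3
  have hSc : ∀ s ∈ ({a1, a2, a3} : Set G), ∀ t ∈ ({a1, a2, a3} : Set G), s * t = t * s := by
    intro s hs t ht
    simp only [Set.mem_insert_iff, Set.mem_singleton_iff] at hs ht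
    rcases hs with h | h | h <;> rcases ht with h' | h' | h' <;> rw [h, h']
    · exact h12
    · exact h13
    · exact h12.symm
    · exact h23
    · exact h13.symm
    · exact h23.symm
  have hsq := closure_sq _ hS2 hSc
  have hP : IsPGroup 2 (Subgroup.closure ({a1, a2, a3} : Set G)) := by
    rintro ⟨g, hg⟩
    refine ⟨1, Subtype.ext ?_⟩
    show g ^ 2 ^ 1 = 1
    rw [pow_one]; exact hsq g hg
  obtain ⟨k, hk⟩ := IsPGroup.iff_card.mp hP
  have m1 : a1 ∈ Subgroup.closure ({a1, a2, a3} : Set G) := Subgroup.subset_closure (by simp)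
  have m2 : a2 ∈ Subgroup.closure ({a1, a2, a3} : Set G) := Subgroup.subset_closure (by simp)
  have m3 : a3 ∈ Subgroup.closure ({a1, a2, a3} : Set G) := Subgroup.subset_closure (by simp)
  have h5 : 5 ≤ Nat.card (Subgroup.closure ({a1, a2, a3} : Set G)) := by
    have h := length_le_card (Subgroup.closure ({a1, a2, a3} : Set G)) _ hnd ?_
    · simpa using h
    · intro x hx
      simp only [List.mem_cons, List.not_mem_nil, or_false] at hx
      rcases hx with h | h | h | h | h <;> rw [h]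
      · exact Subgroup.one_mem _
      · exact m1
      · exact m2
      · exact m3
      · exact Subgroup.mul_mem _ m1 m2
  rw [hk] at h5 ⊢
  have hk3 : 3 ≤ k := by
    by_contra hlt
    have h2' : k ≤ 2 := by omega
    have h3' : 2 ^ k ≤ 2 ^ 2 := Nat.pow_le_pow_right (by norm_num) h2'
    omega
  exact pow_dvd_pow 2 hk3

end Cfsg.Agent.Lib.helper27.StemE8
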