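import Cfsg.Agent.Lib.helper27.J1Simple
import Cfsg.Agent.Lib.helper27.StemE8
import Cfsg.Agent.Lib.helper20.Schur

set_option autoImplicit false

/-! The Schur multiplier of the Janko group `J₁` is trivial. -/

namespace Cfsg.Agent.Lib.helper27.J1B

open Cfsg.Agent.Lib.helper20 Cfsg.Agent.Lib.helper27.Stem Cfsg.Agent.Lib.helper27

theorem chkS1 : wordM (cw 0 ++ cw 1) = wordM (cw 1 ++ cw 0) ∧
    wordM (cw 0 ++ cw 2) = wordM (cw 2 ++ cw 0) ∧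
    wordM (cw 1 ++ cw 2) = wordM (cw 2 ++ cw 1) := by
  decide +kernel

theorem chkS2 : wordM ([false] ++ cw 0) = wordM (cw 1 ++ [false]) ∧
    wordM ([false] ++ cw 1) = wordM (cw 2 ++ [false]) ∧
    wordM ([false] ++ cw 2) = wordM (cw 0 ++ cw 2 ++ [false]) := by
  decide +kernel

theorem chkS3 : ([[], cw 0, cw 1, cw 2, cw 0 ++ cw 1].map wordM).Nodup := by decide +kernel

/-- The kernel of a stem extension has odd exponent. -/
theorem two_part {Γ : Type} [Group Γ] (σ : Γ →* ↥Cfsg.Spor.J1) (hσ : Cfsg.IsStemExtension σ)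
    {z : Γ} (hz : z ∈ σ.ker) : z ^ 21945 = 1 := by
  have a_sq : ∀ i < 7, wJ (cw i) ^ 2 = 1 := fun i hi => E2_sq _ (Or.inr ⟨i, hi, rfl⟩)
  have h12 : wJ (cw 0) * wJ (cw 1) = wJ (cw 1) * wJ (cw 0) := by
    rw [wJ_mul, wJ_mul]; exact wJ_eq chkS1.1
  have h13 : wJ (cw 0) * wJ (cw 2) = wJ (cw 2) * wJ (cw 0) := by
    rw [wJ_mul, wJ_mul]; exact wJ_eq chkS1.2.1
  have h23 : wJ (cw 1) * wJ (cw 2) = wJ (cw 2) * wJ (cw 1) := by
    rw [wJ_mul, wJ_mul]; exact wJ_eq chkS1.2.2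
  have r1 : wJ [false] * wJ (cw 0) * (wJ [false])⁻¹ = wJ (cw 1) :=
    mul_inv_eq_of_eq_mul (by rw [wJ_mul, wJ_mul]; exact wJ_eq chkS2.1)
  have r2 : wJ [false] * wJ (cw 1) * (wJ [false])⁻¹ = wJ (cw 2) :=
    mul_inv_eq_of_eq_mul (by rw [wJ_mul, wJ_mul]; exact wJ_eq chkS2.2.1)
  have r3 : wJ [false] * wJ (cw 2) * (wJ [false])⁻¹ = wJ (cw 0) * wJ (cw 2) :=
    mul_inv_eq_of_eq_mul (by rw [wJ_mul, wJ_mul, wJ_mul]; exact wJ_eq chkS2.2.2)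
  have h := StemE8.e8_pow_index σ hσ (wJ (cw 0)) (wJ (cw 1)) (wJ (cw 2)) (wJ [false])
    h12 h13 h23 r1 r2 r3 hz
  have hnd : [1, wJ (cw 0), wJ (cw 1), wJ (cw 2), wJ (cw 0) * wJ (cw 1)].Nodup := by
    have h' := nodup_wJ _ chkS3
    simp only [List.map_cons, List.map_nil, ← wJ_mul, wJ_nil] at h'
    exact h'
  have hd := StemE8.e8_dvd_card (wJ (cw 0)) (wJ (cw 1)) (wJ (cw 2)) (a_sq 0 (by norm_num))
    (a_sq 1 (by norm_num)) (a_sq 2 (by norm_num)) h12 h13 h23 hnd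
  exact pow_of_card_dvd _ 8 21945 hd (by rw [card_J1]) h

/-- Every finite stem extension of `J₁` has trivial kernel. -/
theorem ker_eq_bot {Γ : Type} [Group Γ] (σ : Γ →* ↥Cfsg.Spor.J1) (hσ : Cfsg.IsStemExtension σ) :
    σ.ker = ⊥ := by
  rw [eq_bot_iff]
  intro z hz
  rw [Subgroup.mem_bot]
  have h2 : z ^ 21945 = 1 := two_part σ hσ hz
  have h19 : z ^ 9240 = 1 := cyc_pow σ hσ (wJ g19_g) 9240 (by rw [ord_g19, card_J1]) hz
  have h11 : z ^ 15960 = 1 := cyc_pow σ hσ (wJ g11_g) 15960 (by rw [ord_g11, card_J1]) hz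
  have h7 : z ^ 25080 = 1 := cyc_pow σ hσ (wJ [false]) 25080 (by rw [ord_x, card_J1]) hz
  have h5 : z ^ 35112 = 1 := cyc_pow σ hσ (wJ g5_g) 35112 (by rw [ord_g5, card_J1]) hz
  have h3 : z ^ 58520 = 1 := cyc_pow σ hσ (wJ g3_g) 58520 (by rw [ord_g3, card_J1]) hz
  have d1 := orderOf_dvd_of_pow_eq_one h2
  have d2 := orderOf_dvd_of_pow_eq_one h19
  have d3 := orderOf_dvd_of_pow_eq_one h11
  have d4 := orderOf_dvd_of_pow_eq_one h7
  have d5 := orderOf_dvd_of_pow_eq_one h5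
  have d6 := orderOf_dvd_of_pow_eq_one h3
  have d7 : orderOf z ∣ Nat.gcd (Nat.gcd (Nat.gcd 21945 9240) (Nat.gcd 15960 25080))
      (Nat.gcd 35112 58520) :=
    Nat.dvd_gcd (Nat.dvd_gcd (Nat.dvd_gcd d1 d2) (Nat.dvd_gcd d3 d4)) (Nat.dvd_gcd d5 d6)
  have d8 : Nat.gcd (Nat.gcd (Nat.gcd 21945 9240) (Nat.gcd 15960 25080))
      (Nat.gcd 35112 58520) = 1 := by decide
  rw [d8, Nat.dvd_one] at d7
  exact orderOf_eq_one_iff.mp d7

/-- The Schur multiplier of `J₁` is trivial. -/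
theorem schur_J1 : Cfsg.HasCyclicSchurMultiplier ↥Cfsg.Spor.J1 1 :=
  trivial_of_ker_bot (fun _ _ _ σ hσ => ker_eq_bot σ hσ)

end Cfsg.Agent.Lib.helper27.J1B
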