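import Cfsg.Agent.Lib.helper27.StemD8
import Cfsg.Agent.Lib.helper2.PSL27

set_option autoImplicit false

/-! The Schur multiplier of `SL₃(2) ≅ PSL₂(7)` is cyclic of order two. -/

namespace Cfsg.Agent.Lib.helper27.L32S

open Cfsg.Agent.Lib.helper20 Cfsg.Agent.Lib.helper27.Stem Cfsg.Agent.Lib.helper27.StemTwo
open Cfsg.Agent.Lib.helper27 Cfsg.Agent.Lib.helper2
open Matrix
open scoped commutatorElement

universe u

abbrev G32 : Type := Matrix.SpecialLinearGroup (Fin 3) (ZMod 2)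

instance finiteG32 : Finite G32 :=
  Nat.finite_of_card_ne_zero (by rw [PSL27.card_SL32]; norm_num)

def xi : G32 := ⟨!![1,1,0;0,1,1;0,0,1], by decide +kernel⟩
def eta : G32 := ⟨!![1,1,0;0,1,0;0,0,1], by decide +kernel⟩
def ec : G32 := ⟨!![1,0,1;0,1,0;0,0,1], by decide +kernel⟩
def h2 : G32 := ⟨!![1,0,0;0,0,1;0,1,0], by decide +kernel⟩
def h3 : G32 := ⟨!![1,0,0;0,1,0;0,1,1], by decide +kernel⟩
def g2 : G32 := ⟨!![0,1,0;1,1,0;0,0,1], by decide +kernel⟩
def u7 : G32 := ⟨!![0,0,1;0,1,1;1,1,0], by decide +kernel⟩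
def u3 : G32 := ⟨!![0,0,1;0,1,0;1,0,1], by decide +kernel⟩

theorem xi_sq : xi ^ 2 = ec := by decide +kernel
theorem xi_four : xi ^ 4 = 1 := by decide +kernel
theorem ec_ne : ec ≠ 1 := by decide +kernel
theorem eta_sq : eta ^ 2 = 1 := by decide +kernel
theorem etaxi_sq : (eta * xi) ^ 2 = 1 := by decide +kernel
theorem ec_sq : ec ^ 2 = 1 := by decide +kernel
theorem hct : ec * eta = eta * ec := by decide +kernel
theorem hh2 : h2 * ec * h2⁻¹ = eta := mul_inv_eq_of_eq_mul (by decide +kernel)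
theorem hh3 : h3 * ec * h3⁻¹ = ec * eta := mul_inv_eq_of_eq_mul (by decide +kernel)
theorem hg1 : h2 * eta * h2⁻¹ = ec := mul_inv_eq_of_eq_mul (by decide +kernel)
theorem hg2 : g2 * (eta * xi) * g2⁻¹ = ec := mul_inv_eq_of_eq_mul (by decide +kernel)

theorem pow8 {Γ : Type u} [Group Γ] (σ : Γ →* G32) (hσ : Cfsg.IsStemExtension σ) {z : Γ}
    (hz : z ∈ σ.ker) : z ^ 2 ^ 3 = 1 := by
  have : Fact (Nat.Prime 7) := ⟨by norm_num⟩
  have : Fact (Nat.Prime 3) := ⟨by norm_num⟩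
  have o7 : orderOf u7 = 7 := orderOf_eq_prime (by decide +kernel) (by decide +kernel)
  have o3 : orderOf u3 = 3 := orderOf_eq_prime (by decide +kernel) (by decide +kernel)
  have h7 : z ^ 24 = 1 := cyc_pow σ hσ u7 24 (by rw [o7, PSL27.card_SL32]) hz
  have h3 : z ^ 56 = 1 := cyc_pow σ hσ u3 56 (by rw [o3, PSL27.card_SL32]) hz
  have d1 := orderOf_dvd_of_pow_eq_one h7
  have d2 := orderOf_dvd_of_pow_eq_one h3
  have d5 : orderOf z ∣ Nat.gcd 24 56 := Nat.dvd_gcd d1 d2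
  have d6 : Nat.gcd 24 56 = 2 ^ 3 := by decide
  rw [d6] at d5
  exact orderOf_dvd_iff_pow_eq_one.mp d5

theorem exp2 {Δ : Type u} [Group Δ] (τ : Δ →* G32) (hτ : Cfsg.IsStemExtension τ)
    (hK2 : ∀ k ∈ τ.ker, k ^ 2 = 1) (hG : Good τ ec) : τ.ker = ⊥ :=
  StemD8.d8_part τ hτ hK2 xi eta (by rw [xi_sq]; exact ec_ne)
    (good_conj τ hτ.1 h2 hg1 hG) (good_conj τ hτ.1 g2 hg2 hG) (by rw [xi_sq]; exact hG)
    (StemD8.d8_index_odd xi eta eta_sq (StemD8.inv_of_sq xi eta eta_sq etaxi_sq) xi_four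
      (by rw [xi_sq]; exact ec_ne) 21 (by decide) (by rw [PSL27.card_SL32]))

theorem upper {Γ : Type u} [Group Γ] [Finite Γ] (σ : Γ →* G32) (hσ : Cfsg.IsStemExtension σ) :
    ∃ q ∈ σ.ker, q ^ 2 = 1 ∧ ∀ k ∈ σ.ker, k = 1 ∨ k = q :=
  StemCover.ker_cases σ hσ 3 (fun _ hz => pow8 σ hσ hz) ec eta h2 h3 ec_sq hct hh2 hh3
    (fun _ _ _ τ hτ hK2 hG => exp2 τ hτ hK2 hG)

/-- `PSL₃` over a field with two elements is `SL₃(ZMod 2)`. -/
theorem isoPSL {K : Type*} [Field K] [Fintype K] (hK : Fintype.card K = 2) :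
    Nonempty (ProjectiveSpecialLinearGroup (Fin 3) K ≃* G32) := by
  have eK : ZMod 2 ≃+* K := ZMod.ringEquivOfPrime K (by norm_num) hK
  have e5 : ProjectiveSpecialLinearGroup (Fin 3) K ≃*
      ProjectiveSpecialLinearGroup (Fin 3) (ZMod 2) := Transport.pslCongr eK.symm
  have hc := SLCard.card_center_SL (ZMod 2) 3 (by norm_num)
  rw [ZMod.card] at hc
  have hbot : Subgroup.center (SpecialLinearGroup (Fin 3) (ZMod 2)) = ⊥ :=
    Subgroup.eq_bot_of_card_eq _ (by rw [hc]; rfl)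
  have e4 : ProjectiveSpecialLinearGroup (Fin 3) (ZMod 2) ≃*
      SpecialLinearGroup (Fin 3) (ZMod 2) :=
    (QuotientGroup.quotientMulEquivOfEq hbot).trans QuotientGroup.quotientBot
  exact ⟨e5.trans e4⟩

abbrev S27 : Type := Matrix.SpecialLinearGroup (Fin 2) (ZMod 7)

def m1 : S27 := ⟨!![0,1;6,0], by decide +kernel⟩
def m2 : S27 := ⟨!![2,3;3,5], by decide +kernel⟩
def zm : S27 := ⟨!![6,0;0,6], by decide +kernel⟩

theorem comm_eq : ⁅m1, m2⁆ = zm := by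
  rw [commutatorElement_def, mul_inv_eq_iff_eq_mul, mul_inv_eq_iff_eq_mul]
  decide +kernel

theorem zm_ne : zm ≠ 1 := by decide +kernel

theorem zm_center : zm ∈ Subgroup.center S27 := by
  rw [Matrix.SpecialLinearGroup.mem_center_iff]
  refine ⟨6, by decide, ?_⟩
  decide +kernel

theorem main {F : Type u} [Field F] [Fintype F] (hF : Fintype.card F = 2) :
    Cfsg.HasCyclicSchurMultiplier (Matrix.ProjectiveSpecialLinearGroup (Fin 3) F) 2 := by
  obtain ⟨E⟩ := isoPSL hF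
  obtain ⟨E'⟩ := PSL27.iso (F := ZMod 7) (K := F) (by rw [ZMod.card]) hF
  haveI : Finite (Matrix.ProjectiveSpecialLinearGroup (Fin 3) F) :=
    Finite.of_equiv _ E.symm.toEquiv
  have hπ1 : ∀ x : S27, E' (QuotientGroup.mk x) = 1 ↔ x ∈ Subgroup.center S27 := by
    intro x
    rw [E'.map_eq_one_iff]
    exact QuotientGroup.eq_one_iff x
  refine StemCover.hasCyclic_two ?_
    (E'.toMonoidHom.comp (QuotientGroup.mk' (Subgroup.center S27))) ?_ ?_ zm ?_ ?_ zm_ne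
  · intro Γ _ _ σ hσ
    have hker : ∀ x, x ∈ (E.toMonoidHom.comp σ).ker ↔ x ∈ σ.ker := by
      intro x
      rw [MonoidHom.mem_ker, MonoidHom.mem_ker]
      show E (σ x) = 1 ↔ σ x = 1
      exact E.map_eq_one_iff
    have hσ' : Cfsg.IsStemExtension (E.toMonoidHom.comp σ) := by
      refine ⟨?_, ?_, ?_⟩
      · exact E.surjective.comp hσ.1
      · intro x hx
        exact hσ.2.1 ((hker x).mp hx)
      · intro x hx
        exact hσ.2.2 ((hker x).mp hx)
    obtain ⟨q, hq, hq2, hall⟩ := upper (E.toMonoidHom.comp σ) hσ'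
    exact ⟨q, (hker q).mp hq, hq2, fun k hk => hall k ((hker k).mpr hk)⟩
  · exact E'.surjective.comp (QuotientGroup.mk'_surjective _)
  · intro x hx
    rw [MonoidHom.mem_ker] at hx
    exact (hπ1 x).mp hx
  · rw [MonoidHom.mem_ker]
    exact (hπ1 zm).mpr zm_center
  · rw [← comm_eq]
    show ⁅m1, m2⁆ ∈ ⁅(⊤ : Subgroup S27), ⊤⁆
    exact Subgroup.commutator_mem_commutator (Subgroup.mem_top _) (Subgroup.mem_top _)

end Cfsg.Agent.Lib.helper27.L32S
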