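import Cfsg.Agent.Lib.helper27.Leech

set_option autoImplicit false

namespace Cfsg.Agent.Lib.helper27

open Cfsg
open Cfsg.Agent.Lib.helper28

/-! Sign changes on code words, inner products. -/

theorem sum_ite_mem_univ (c : Finset GolayPt) (f : GolayPt → ℤ) :
    ∑ i, (if i ∈ c then f i else 0) = ∑ i ∈ c, f i := by
  rw [Finset.sum_ite_mem, Finset.univ_inter]

/-- For a lattice vector and a code word `c`, the sum of the coordinates over `c` is divisible by 4. -/
theorem sum_codeword_mod_four {x : GolayPt → ℤ} (hx : x ∈ leechSet) {c : Finset GolayPt}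
    (hc : c ∈ GC) : (∑ i ∈ c, x i) % 4 = 0 := by
  rcases leechSet_cases hx with ⟨h1, -, h3⟩ | ⟨h1, -, h3⟩
  · have hs := modEq_sum c (fun i => x i) (fun i => 2 * (if x i % 4 = 2 then 1 else 0)) 4
      (fun i _ => by
        have := h1 i
        show x i % 4 = _
        split_ifs <;> omega)
    rw [← Finset.mul_sum, Finset.sum_boole] at hs
    have he : c.filter (fun i => x i % 4 = 2) = c ∩ resSet x 2 := by
      ext i
      rw [Finset.mem_filter, Finset.mem_inter, mem_resSet]
      constructor
      · rintro ⟨h, h'⟩; exact ⟨h, by rw [h']; rfl⟩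
      · rintro ⟨h, h'⟩; exact ⟨h, by rw [h']; rfl⟩
    rw [he] at hs
    obtain ⟨r, hr⟩ := even_card_inter_of_mem_supports hc h3
    rw [hr] at hs
    push_cast at hs
    omega
  · have hs := modEq_sum c (fun i => x i) (fun i => 1 + 2 * (if x i % 4 = 3 then 1 else 0)) 4
      (fun i _ => by
        have := h1 i
        show x i % 4 = _
        split_ifs <;> omega)
    rw [Finset.sum_add_distrib, ← Finset.mul_sum, Finset.sum_boole, Finset.sum_const] at hs
    have he : c.filter (fun i => x i % 4 = 3) = c ∩ resSet x 3 := by
      ext i
      rw [Finset.mem_filter, Finset.mem_inter, mem_resSet]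
      constructor
      · rintro ⟨h, h'⟩; exact ⟨h, by rw [h']; rfl⟩
      · rintro ⟨h, h'⟩; exact ⟨h, by rw [h']; rfl⟩
    rw [he] at hs
    obtain ⟨r, hr⟩ := even_card_inter_of_mem_supports hc h3
    obtain ⟨q, hq⟩ := four_dvd_card_of_mem_supports hc
    rw [hr, hq] at hs
    simp only [nsmul_eq_mul, mul_one] at hs
    push_cast at hs
    omega

/-- Sign changes on the support of a code word preserve `leechSet`. -/
theorem signChange_mem_leechSet {x : GolayPt → ℤ} (hx : x ∈ leechSet) {c : Finset GolayPt}
    (hc : c ∈ GC) : (fun i => if i ∈ c then -x i else x i) ∈ leechSet := by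
  have hsum4 := sum_codeword_mod_four hx hc
  rw [mem_leechSet_iff] at hx ⊢
  obtain ⟨m, h1, h2, h3⟩ := hx
  refine ⟨m, fun i => ?_, ?_, fun k => ?_⟩
  · have := h1 i
    show (if i ∈ c then -x i else x i) % 2 = m % 2
    split_ifs <;> omega
  · have he : ∑ i, (if i ∈ c then -x i else x i) = ∑ i, x i - 2 * ∑ i ∈ c, x i := by
      rw [← sum_ite_mem_univ c x, Finset.mul_sum, ← Finset.sum_sub_distrib]
      apply Finset.sum_congr rfl
      intro i _
      split_ifs <;> ring
    rw [he]
    omega
  · rcases Int.emod_two_eq_zero_or_one m with hm | hm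
    · have he : resSet (fun i => if i ∈ c then -x i else x i) k = resSet x k := by
        ext i
        have := h1 i
        rw [mem_resSet, mem_resSet]
        show (if i ∈ c then -x i else x i) % 4 = k % 4 ↔ _
        split_ifs <;> omega
      rw [he]; exact h3 k
    · by_cases hk : k % 2 = 1
      · have he : resSet (fun i => if i ∈ c then -x i else x i) k = symmDiff c (resSet x k) := by
          ext i
          have := h1 i
          rw [Finset.mem_symmDiff, mem_resSet, mem_resSet]
          show (if i ∈ c then -x i else x i) % 4 = k % 4 ↔ _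
          split_ifs with hi
          · constructor
            · intro h; left; exact ⟨hi, by omega⟩
            · rintro (⟨-, h⟩ | ⟨-, h⟩)
              · omega
              · exact absurd hi h
          · constructor
            · intro h; right; exact ⟨h, hi⟩
            · rintro (⟨h, -⟩ | ⟨h, -⟩)
              · exact absurd h hi
              · exact h
        rw [he]; exact symmDiff_mem_supports hc (h3 k)
      · have he : resSet (fun i => if i ∈ c then -x i else x i) k = ∅ := by
          ext i
          have := h1 i
          rw [mem_resSet]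
          simp only [Finset.notMem_empty, iff_false]
          show ¬ (if i ∈ c then -x i else x i) % 4 = k % 4
          split_ifs <;> omega
        rw [he]; exact empty_mem_supports

theorem signChange_mem_leechLattice {x : GolayPt → ℤ} (hx : x ∈ leechLattice)
    {c : Finset GolayPt} (hc : c ∈ GC) : (fun i => if i ∈ c then -x i else x i) ∈ leechLattice :=
  (mem_leechLattice_iff _).mpr (signChange_mem_leechSet ((mem_leechLattice_iff x).mp hx) hc)

/-- Polarization. -/
theorem sqNorm_add (x y : GolayPt → ℤ) :
    sqNorm (x + y) = sqNorm x + sqNorm y + 2 * dotInt x y := by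
  unfold sqNorm dotInt
  rw [Finset.mul_sum, ← Finset.sum_add_distrib, ← Finset.sum_add_distrib]
  apply Finset.sum_congr rfl
  intro i _
  simp only [Pi.add_apply]
  ring

/-- Inner products of lattice vectors are divisible by 8. -/
theorem eight_dvd_dotInt {x y : GolayPt → ℤ} (hx : x ∈ leechLattice) (hy : y ∈ leechLattice) :
    (8 : ℤ) ∣ dotInt x y := by
  have h1 := leechLattice_sixteen_dvd hx
  have h2 := leechLattice_sixteen_dvd hy
  have h3 := leechLattice_sixteen_dvd (add_mem hx hy)
  rw [sqNorm_add] at h3
  omega

end Cfsg.Agent.Lib.helper27
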