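import Cfsg.Agent.Lib.helper27.LeechIndex

set_option autoImplicit false

namespace Cfsg.Agent.Lib.helper27

open Cfsg
open Cfsg.Agent.Lib.helper28

/-! The index of the rank-24 lattice in the lattice of all integer vectors. -/

/-- Reduction modulo 2. -/
def modTwoHom : (GolayPt → ℤ) →+ (GolayPt → ZMod 2) where
  toFun x := fun i => ((x i : ℤ) : ZMod 2)
  map_zero' := by
    funext i
    simp
  map_add' x y := by
    funext i
    simp only [Pi.add_apply, Int.cast_add]

theorem card_words : Nat.card (GolayPt → ZMod 2) = 2 ^ 24 := by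
  rw [Nat.card_fun, Nat.card_zmod, Nat.card_eq_fintype_card, card_golayPt]

theorem index_evenSub : evenSub.index = 2 ^ 24 := by
  have hker : evenSub = modTwoHom.ker := by
    ext x
    rw [AddMonoidHom.mem_ker]
    constructor
    · intro h
      funext i
      show ((x i : ℤ) : ZMod 2) = 0
      rw [intCast_zmod2_eq_zero]
      exact h i
    · intro h i
      have hi := congrFun h i
      exact (intCast_zmod2_eq_zero (x i)).mp hi
  have hsurj : Function.Surjective modTwoHom := by
    intro w
    refine ⟨fun i => if w i = 0 then 0 else 1, ?_⟩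
    funext i
    show (((if w i = 0 then (0 : ℤ) else 1) : ℤ) : ZMod 2) = w i
    rcases zmod2_cases (w i) with h | h
    · rw [h]; simp
    · rw [h]; simp
  rw [hker, AddSubgroup.index_ker, AddMonoidHom.range_eq_top.mpr hsurj]
  rw [AddSubgroup.card_top]
  exact card_words

/-- Even vectors whose half is a code word modulo 2. -/
def codeEven : AddSubgroup (GolayPt → ℤ) where
  carrier := {x | (∀ i, x i % 2 = 0) ∧ resSet x 2 ∈ GC}
  add_mem' := by
    rintro x y ⟨hx, hxc⟩ ⟨hy, hyc⟩
    refine ⟨fun i => ?_, ?_⟩
    · have := hx i
      have := hy i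
      simp only [Pi.add_apply]
      omega
    · have he : resSet (x + y) 2 = symmDiff (resSet x 2) (resSet y 2) := by
        ext i
        have := hx i
        have := hy i
        simp only [mem_resSet, Pi.add_apply, Finset.mem_symmDiff]
        omega
      rw [he]; exact symmDiff_mem_supports hxc hyc
  zero_mem' := by
    refine ⟨fun _ => rfl, ?_⟩
    have he : resSet (0 : GolayPt → ℤ) 2 = ∅ := by
      ext i
      simp only [mem_resSet, Pi.zero_apply, Finset.notMem_empty, iff_false]
      omega
    rw [he]; exact empty_mem_supports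
  neg_mem' := by
    rintro x ⟨hx, hxc⟩
    refine ⟨fun i => ?_, ?_⟩
    · have := hx i
      simp only [Pi.neg_apply]
      omega
    · have he : resSet (-x) 2 = resSet x 2 := by
        ext i
        have := hx i
        simp only [mem_resSet, Pi.neg_apply]
        omega
      rw [he]; exact hxc

theorem codeEven_le_evenSub : codeEven ≤ evenSub := fun _ hx => hx.1

theorem leechEven_le_codeEven : leechEven ≤ codeEven := by
  rintro x ⟨hx, he⟩
  refine ⟨he, ?_⟩
  rcases leechSet_cases hx with ⟨_, _, h3⟩ | ⟨h1, _, _⟩
  · exact h3
  · exfalso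
    have := h1 none
    have := he none
    omega

/-- Half of an even vector, modulo 2 and modulo the code. -/
def halfQuotHom : evenSub →+ (GolayPt → ZMod 2) ⧸ golayCode.toAddSubgroup where
  toFun x := QuotientAddGroup.mk (halfWord x.1)
  map_zero' := by
    have h : halfWord (0 : GolayPt → ℤ) = 0 := by
      funext i
      show (((0 : GolayPt → ℤ) i / 2 : ℤ) : ZMod 2) = 0
      simp
    show QuotientAddGroup.mk (halfWord (0 : GolayPt → ℤ)) = _
    rw [h]; rfl
  map_add' x y := by
    show QuotientAddGroup.mk (halfWord (x.1 + y.1)) = _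
    rw [halfWord_add x.2 y.2]; rfl

theorem index_golayCode : golayCode.toAddSubgroup.index = 2 ^ 12 := by
  have h := AddSubgroup.card_mul_index golayCode.toAddSubgroup
  rw [card_words] at h
  have hc : Nat.card golayCode.toAddSubgroup = 4096 := card_golayCode
  rw [hc] at h
  omega

theorem relIndex_codeEven : codeEven.relIndex evenSub = 2 ^ 12 := by
  rw [relIndex_eq_card_of_surjective codeEven evenSub halfQuotHom ?_ ?_]
  · exact index_golayCode
  · intro x
    show QuotientAddGroup.mk (halfWord x.1) = 0 ↔ x.1 ∈ codeEven
    rw [QuotientAddGroup.eq_zero_iff]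
    show halfWord x.1 ∈ golayCode ↔ _
    rw [mem_golayCode_iff_support, support₂_halfWord x.2]
    exact ⟨fun h => ⟨x.2, h⟩, fun h => h.2⟩
  · intro q
    induction q using QuotientAddGroup.induction_on with
    | _ w =>
      have heven : (fun i => if w i = 0 then (0 : ℤ) else 2) ∈ evenSub := by
        intro i
        show (if w i = 0 then (0 : ℤ) else 2) % 2 = 0
        split_ifs <;> rfl
      refine ⟨⟨_, heven⟩, ?_⟩
      show QuotientAddGroup.mk (halfWord (fun i => if w i = 0 then (0 : ℤ) else 2)) = _
      congr 1
      funext i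
      show (((if w i = 0 then (0 : ℤ) else 2) / 2 : ℤ) : ZMod 2) = w i
      rcases zmod2_cases (w i) with h | h
      · rw [h]; simp
      · rw [h]; simp

theorem sum_mod_four_of_mem_codeEven {x : GolayPt → ℤ} (hx : x ∈ codeEven) :
    (∑ i, x i) % 4 = 0 := by
  obtain ⟨h1, h3⟩ := hx
  have hs := modEq_sum Finset.univ (fun i => x i) (fun i => 2 * (if x i % 4 = 2 then 1 else 0)) 4
    (fun i _ => by
      have := h1 i
      show x i % 4 = _
      split_ifs <;> omega)
  rw [← Finset.mul_sum, sum_ite_two] at hs
  obtain ⟨q, hq⟩ := four_dvd_card_of_mem_supports h3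
  rw [hq] at hs
  push_cast at hs
  omega

/-- A quarter of the coordinate sum, modulo 2. -/
def quarterSumHom : codeEven →+ ZMod 2 where
  toFun x := (((∑ i, x.1 i) / 4 : ℤ) : ZMod 2)
  map_zero' := by
    show (((∑ i, (0 : GolayPt → ℤ) i) / 4 : ℤ) : ZMod 2) = 0
    simp
  map_add' x y := by
    show (((∑ i, (x.1 + y.1) i) / 4 : ℤ) : ZMod 2) = _
    simp only [Pi.add_apply, Finset.sum_add_distrib]
    rw [← Int.cast_add]
    congr 1
    have := sum_mod_four_of_mem_codeEven x.2
    have := sum_mod_four_of_mem_codeEven y.2
    omega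

theorem mem_leechSet_of_codeEven {x : GolayPt → ℤ} (hx : x ∈ codeEven) (hs : (∑ i, x i) % 8 = 0) :
    x ∈ leechSet := by
  obtain ⟨h1, h3⟩ := hx
  rw [mem_leechSet_iff]
  refine ⟨0, fun i => h1 i, by omega, fun k => ?_⟩
  by_cases h2 : k % 4 = 2
  · have he : resSet x k = resSet x 2 := by
      ext i
      simp only [mem_resSet]
      omega
    rw [he]; exact h3
  · by_cases h0 : k % 4 = 0
    · have he : resSet x k = (resSet x 2)ᶜ := by
        ext i
        have := h1 i
        simp only [mem_resSet, Finset.mem_compl]
        omega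
      rw [he]; exact compl_mem_supports h3
    · have he : resSet x k = ∅ := by
        ext i
        have := h1 i
        simp only [mem_resSet, Finset.notMem_empty, iff_false]
        omega
      rw [he]; exact empty_mem_supports

theorem relIndex_leechEven_codeEven : leechEven.relIndex codeEven = 2 := by
  rw [relIndex_eq_card_of_surjective leechEven codeEven quarterSumHom ?_ ?_, Nat.card_zmod]
  · intro x
    show (((∑ i, x.1 i) / 4 : ℤ) : ZMod 2) = 0 ↔ x.1 ∈ leechSub ⊓ evenSub
    rw [intCast_zmod2_eq_zero]
    have h4 := sum_mod_four_of_mem_codeEven x.2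
    constructor
    · intro h
      exact ⟨mem_leechSet_of_codeEven x.2 (by omega), x.2.1⟩
    · rintro ⟨hx, he⟩
      rcases leechSet_cases hx with ⟨_, h2, _⟩ | ⟨h1, _, _⟩
      · omega
      · exfalso
        have := h1 none
        have := he none
        omega
  · intro y
    rcases zmod2_cases y with rfl | rfl
    · exact ⟨0, map_zero _⟩
    · have hmem : (fun i : GolayPt => if i = none then (4 : ℤ) else 0) ∈ codeEven := by
        refine ⟨fun i => ?_, ?_⟩
        · show (if i = none then (4 : ℤ) else 0) % 2 = 0
          split_ifs <;> rfl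
        · have he : resSet (fun i : GolayPt => if i = none then (4 : ℤ) else 0) 2 = ∅ := by
            ext i
            rw [mem_resSet]
            simp only [Finset.notMem_empty, iff_false]
            show ¬ (if i = none then (4 : ℤ) else 0) % 4 = 2 % 4
            split_ifs <;> decide
          rw [he]; exact empty_mem_supports
      refine ⟨⟨_, hmem⟩, ?_⟩
      show (((∑ i : GolayPt, (if i = none then (4 : ℤ) else 0)) / 4 : ℤ) : ZMod 2) = 1
      rw [Finset.sum_ite_eq' Finset.univ none (fun _ => (4 : ℤ))]
      simp

/-- The lattice has index `2 ^ 36` in the lattice of all integer vectors. -/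
theorem index_leechSub : leechSub.index = 2 ^ 36 := by
  have h1 := AddSubgroup.relIndex_mul_index codeEven_le_evenSub
  have h2 := AddSubgroup.relIndex_mul_index leechEven_le_codeEven
  have h3 := AddSubgroup.relIndex_mul_index leechEven_le_leechSub
  rw [relIndex_codeEven, index_evenSub] at h1
  rw [relIndex_leechEven_codeEven, ← h1] at h2
  rw [relIndex_leechEven, ← h2] at h3
  omega

theorem index_leechLattice : leechLattice.index = 2 ^ 36 := by
  rw [leechLattice_eq]; exact index_leechSub

end Cfsg.Agent.Lib.helper27
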