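import Cfsg.Agent.Lib.helper27.StemTwo

set_option autoImplicit false

/-! Tools for stem extensions with a kernel of order two: quotients of stem extensions, a transfer
argument for a Sylow 2-subgroup of the shape `(4 × 4) : 2²` with an element of order three acting
without fixed points on the homocyclic normal subgroup, the reduction of arbitrary 2-power kernels
to kernels of exponent two, and the recognition of a Schur multiplier of order two. -/

namespace Cfsg.Agent.Lib.helper27.StemCover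

open Cfsg.Agent.Lib.helper20 Cfsg.Agent.Lib.helper27.Stem Cfsg.Agent.Lib.helper27.StemTwo
open scoped commutatorElement

universe u v w

section quot

variable {Γ : Type u} {G : Type v} [Group Γ] [Group G]

/-- The quotient of a stem extension by a subgroup of its kernel is a stem extension. -/
theorem quot_stem (σ : Γ →* G) (hσ : Cfsg.IsStemExtension σ) (N : Subgroup Γ) [N.Normal]
    (hNK : N ≤ σ.ker) : Cfsg.IsStemExtension (QuotientGroup.lift N σ hNK) := by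
  have hcz : ∀ {k : Γ}, k ∈ σ.ker → ∀ g : Γ, g * k = k * g := fun hk g =>
    Subgroup.mem_center_iff.mp (hσ.2.1 hk) g
  have hτmk : ∀ x : Γ, QuotientGroup.lift N σ hNK (QuotientGroup.mk x) = σ x := fun x => rfl
  refine ⟨?_, ?_, ?_⟩
  · intro g
    obtain ⟨x, rfl⟩ := hσ.1 g
    exact ⟨QuotientGroup.mk x, hτmk x⟩
  · intro q hq
    induction q using QuotientGroup.induction_on with
    | H x =>
      rw [MonoidHom.mem_ker, hτmk] at hq
      rw [Subgroup.mem_center_iff]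
      intro r
      induction r using QuotientGroup.induction_on with
      | H y =>
        rw [← QuotientGroup.mk_mul, ← QuotientGroup.mk_mul, hcz hq y]
  · intro q hq
    induction q using QuotientGroup.induction_on with
    | H x =>
      rw [MonoidHom.mem_ker, hτmk] at hq
      have hx : x ∈ commutator Γ := hσ.2.2 hq
      have h1 : (commutator Γ).map (QuotientGroup.mk' N) ≤ commutator (Γ ⧸ N) := by
        rw [commutator_def, commutator_def, Subgroup.map_commutator]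
        exact Subgroup.commutator_mono le_top le_top
      exact h1 ⟨x, hx, rfl⟩

end quot

section z4

/-- Transfer to a 2-subgroup `⟨u, v⟩ : ⟨a, c⟩` with `⟨u, v⟩` abelian, an element `g` of order three
with `v = u ^ g⁻¹` and `u * u ^ g⁻¹ * u ^ g = 1`, inverted by `a`, when enough involutions lift to
involutions: the kernel (of exponent two) is trivial. -/
theorem z4_part {Γ : Type u} {G : Type v} [Group Γ] [Group G] [Finite G] (σ : Γ →* G)
    (hσ : Cfsg.IsStemExtension σ) (hK2 : ∀ k ∈ σ.ker, k ^ 2 = 1)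
    (u v g a c : G)
    (huv : u * v = v * u) (hg3 : g ^ 3 = 1) (hgu : g * u * g⁻¹ = v)
    (hgu' : g⁻¹ * u * g = u⁻¹ * v⁻¹)
    (hau : a * u * a⁻¹ = u) (hag : a * g * a⁻¹ = g⁻¹)
    (Gc : Good σ c) (Guc : Good σ (u * c)) (Gvc : Good σ (v * c)) (Guvc : Good σ (u * v * c))
    (Ga : Good σ a) (Gac : Good σ (a * c))
    (hidx : Odd (Subgroup.closure ({u, v, a, c} : Set G)).index) : σ.ker = ⊥ := by
  have hcz : ∀ {k : Γ}, k ∈ σ.ker → ∀ r : Γ, r * k = k * r := fun hk r =>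
    Subgroup.mem_center_iff.mp (hσ.2.1 hk) r
  -- a lift of `g` of order three
  obtain ⟨g0, hg0⟩ := hσ.1 g
  obtain ⟨t, htdef⟩ : ∃ t : Γ, t = g0 ^ 4 := ⟨_, rfl⟩
  have hσt : σ t = g := by
    rw [htdef, map_pow, hg0, pow_succ, hg3, one_mul]
  have ht3 : t ^ 3 = 1 := by
    have h1 : g0 ^ 3 ∈ σ.ker := by rw [MonoidHom.mem_ker, map_pow, hg0, hg3]
    have h2 := hK2 _ h1
    rw [htdef, ← pow_mul]
    calc g0 ^ (4 * 3) = ((g0 ^ 3) ^ 2) ^ 2 := by rw [← pow_mul, ← pow_mul]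
      _ = 1 := by rw [h2, one_pow]
  have tinv : t⁻¹ = t * t :=
    inv_eq_of_mul_eq_one_right (by rw [← mul_assoc, ← pow_two, ← pow_succ]; exact ht3)
  -- a lift of `c`
  obtain ⟨w, hw⟩ := hσ.1 c
  have hw2 : w ^ 2 = 1 := Gc w hw
  have winv : w⁻¹ = w := by rw [inv_eq_iff_mul_eq_one, ← pow_two, hw2]
  have Finv : ∀ p : Γ, (p * w) ^ 2 = 1 → w * p * w⁻¹ = p⁻¹ := by
    intro p hp
    rw [winv]
    have h1 : p * w * (p * w) = 1 := by rw [← pow_two]; exact hp
    have h2 : p * (w * p * w) = 1 := by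
      calc p * (w * p * w) = p * w * (p * w) := by group
        _ = 1 := h1
    exact (inv_eq_of_mul_eq_one_right h2).symm
  have Fu : ∀ p : Γ, σ p = u → w * p * w⁻¹ = p⁻¹ := fun p hp =>
    Finv p (Guc _ (by rw [map_mul, hp, hw]))
  have Fv : ∀ p : Γ, σ p = v → w * p * w⁻¹ = p⁻¹ := fun p hp =>
    Finv p (Gvc _ (by rw [map_mul, hp, hw]))
  have Fuv : ∀ p : Γ, σ p = u * v → w * p * w⁻¹ = p⁻¹ := fun p hp =>
    Finv p (Guvc _ (by rw [map_mul, hp, hw]))
  have Fcomm : ∀ p q : Γ, σ p = u → σ q = v → p * q = q * p := by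
    intro p q hp hq
    have h1 := Fuv (p * q) (by rw [map_mul, hp, hq])
    have h2 : w * (p * q) * w⁻¹ = (w * p * w⁻¹) * (w * q * w⁻¹) := by group
    rw [h2, Fu p hp, Fv q hq] at h1
    have h3 : (q * p)⁻¹ = (p * q)⁻¹ := by rw [mul_inv_rev]; exact h1
    exact (inv_injective h3).symm
  -- the norm map
  obtain ⟨Nm, hNm⟩ : ∃ Nm : Γ → Γ, ∀ e, Nm e = e * (t * e * t⁻¹) * (t⁻¹ * e * t) :=
    ⟨_, fun _ => rfl⟩
  have NmK : ∀ e k : Γ, k ∈ σ.ker → Nm (e * k) = Nm e * k := by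
    intro e k hk
    have hkc := hcz hk
    have hk2 := hK2 k hk
    rw [hNm, hNm]
    have e1 : t * (e * k) * t⁻¹ = t * e * t⁻¹ * k := by
      calc t * (e * k) * t⁻¹ = t * e * (k * t⁻¹) := by group
        _ = t * e * (t⁻¹ * k) := by rw [← hkc t⁻¹]
        _ = t * e * t⁻¹ * k := by group
    have e2 : t⁻¹ * (e * k) * t = t⁻¹ * e * t * k := by
      calc t⁻¹ * (e * k) * t = t⁻¹ * e * (k * t) := by group
        _ = t⁻¹ * e * (t * k) := by rw [← hkc t]
        _ = t⁻¹ * e * t * k := by group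
    rw [e1, e2]
    calc e * k * (t * e * t⁻¹ * k) * (t⁻¹ * e * t * k)
        = e * (k * (t * e * t⁻¹)) * (k * (t⁻¹ * e * t)) * k := by group
      _ = e * ((t * e * t⁻¹) * k) * ((t⁻¹ * e * t) * k) * k := by
          rw [← hkc (t * e * t⁻¹), ← hkc (t⁻¹ * e * t)]
      _ = e * (t * e * t⁻¹) * (k * (t⁻¹ * e * t)) * (k * k) := by group
      _ = e * (t * e * t⁻¹) * ((t⁻¹ * e * t) * k) * (k * k) := by rw [← hkc (t⁻¹ * e * t)]
      _ = e * (t * e * t⁻¹) * (t⁻¹ * e * t) * k * (k * k) := by group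
      _ = e * (t * e * t⁻¹) * (t⁻¹ * e * t) * k := by rw [← pow_two, hk2, mul_one]
  obtain ⟨x0, hx0⟩ := hσ.1 u
  have hk0 : Nm x0 ∈ σ.ker := by
    rw [MonoidHom.mem_ker, hNm]
    simp only [map_mul, map_inv, hx0, hσt]
    rw [hgu, hgu', huv]
    group
  obtain ⟨k0, hk0def⟩ : ∃ k0 : Γ, k0 = Nm x0 := ⟨_, rfl⟩
  rw [← hk0def] at hk0
  obtain ⟨x, hxdef⟩ : ∃ x : Γ, x = x0 * k0 := ⟨_, rfl⟩
  have hσx : σ x = u := by rw [hxdef, map_mul, hx0, MonoidHom.mem_ker.mp hk0, mul_one]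
  have hNx : Nm x = 1 := by
    rw [hxdef, NmK x0 k0 hk0, ← hk0def, ← pow_two, hK2 _ hk0]
  obtain ⟨y, hydef⟩ : ∃ y : Γ, y = t * x * t⁻¹ := ⟨_, rfl⟩
  have hσy : σ y = v := by rw [hydef, map_mul, map_mul, map_inv, hσx, hσt, hgu]
  have hxy : x * y = y * x := Fcomm x y hσx hσy
  have hz' : t⁻¹ * x * t = y⁻¹ * x⁻¹ := by
    have h := hNx
    rw [hNm, ← hydef] at h
    have h2 : t⁻¹ * x * t = (x * y)⁻¹ := eq_inv_of_mul_eq_one_right h
    rw [h2, mul_inv_rev]
  have hty : t * y * t⁻¹ = y⁻¹ * x⁻¹ := by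
    rw [← hz', hydef, tinv]
    have h3 : t * t * t = 1 := by rw [← pow_two, ← pow_succ]; exact ht3
    have e : t * (t * x * (t * t)) * (t * t) = t * t * x * t * (t * t * t) := by
      simp only [mul_assoc]
    rw [e, h3, mul_one]
  have htx' : t⁻¹ * y * t = x := by rw [hydef]; group
  -- the subgroup `W`
  obtain ⟨W, hWdef⟩ : ∃ W : Subgroup Γ, W = Subgroup.closure ({x, y} : Set Γ) := ⟨_, rfl⟩
  have hxW : x ∈ W := by rw [hWdef]; exact Subgroup.subset_closure (by simp)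
  have hyW : y ∈ W := by rw [hWdef]; exact Subgroup.subset_closure (by simp)
  have hSc : ∀ p ∈ ({x, y} : Set Γ), ∀ p' ∈ ({x, y} : Set Γ), p * p' = p' * p := by
    intro p hp p' hp'
    rcases hp with h | h <;> rcases hp' with h' | h'
    · rw [h, h']
    · rw [Set.mem_singleton_iff] at h'; rw [h, h']; exact hxy
    · rw [Set.mem_singleton_iff] at h; rw [h, h']; exact hxy.symm
    · rw [Set.mem_singleton_iff] at h h'; rw [h, h']
  have htW : ∀ e ∈ W, t * e * t⁻¹ ∈ W := by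
    rw [hWdef]
    apply conj_mem_closure
    intro p hp
    rcases hp with h | h
    · rw [h, ← hydef]; exact Subgroup.subset_closure (by simp)
    · rw [Set.mem_singleton_iff] at h
      rw [h, hty]
      exact Subgroup.mul_mem _ (Subgroup.inv_mem _ (Subgroup.subset_closure (by simp)))
        (Subgroup.inv_mem _ (Subgroup.subset_closure (by simp)))
  have hNmW : ∀ e ∈ W, Nm e = 1 := by
    have h := fpf_closure ({x, y} : Set Γ) hSc t (by rw [← hWdef]; exact htW) (by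
      intro p hp
      rcases hp with h | h
      · rw [h]; have h' := hNx; rw [hNm] at h'; exact h'
      · rw [Set.mem_singleton_iff] at h
        rw [h, hty, htx']
        group)
    intro e he
    rw [hNm]
    exact h e (by rw [← hWdef]; exact he)
  have hWK : ∀ e ∈ W, e ∈ σ.ker → e = 1 := by
    intro e he hek
    have h1 := hNmW e he
    have h2 := NmK 1 e hek
    rw [one_mul] at h2
    have h3 : Nm 1 = 1 := by rw [hNm]; group
    rw [h2, h3, one_mul] at h1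
    exact h1
  -- a lift of `a`
  obtain ⟨s, hs⟩ := hσ.1 a
  have hs2 : s ^ 2 = 1 := Ga s hs
  have sinv : s⁻¹ = s := by rw [inv_eq_iff_mul_eq_one, ← pow_two, hs2]
  have hst : s * t * s⁻¹ = t⁻¹ := by
    obtain ⟨k, hk, hk'⟩ : ∃ k ∈ σ.ker, s * t * s⁻¹ = t⁻¹ * k := by
      refine ⟨t * (s * t * s⁻¹), ?_, by group⟩
      rw [MonoidHom.mem_ker]
      simp only [map_mul, map_inv, hs, hσt]
      rw [hag, mul_inv_cancel]
    have h1 : (s * t * s⁻¹) ^ 3 = 1 := by rw [conj_pow, ht3]; group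
    have hcm : Commute t⁻¹ k := hcz hk t⁻¹
    rw [hk', hcm.mul_pow, inv_pow, ht3, inv_one, one_mul] at h1
    have hk2 := hK2 k hk
    have hk1 : k = 1 := by
      calc k = k ^ 3 * (k ^ 2)⁻¹ := by group
        _ = 1 := by rw [h1, hk2]; group
    rw [hk', hk1, mul_one]
  have hsx : s * x * s⁻¹ = x := by
    obtain ⟨k, hk, hk'⟩ : ∃ k ∈ σ.ker, s * x * s⁻¹ = x * k := by
      refine ⟨x⁻¹ * (s * x * s⁻¹), ?_, by group⟩
      rw [MonoidHom.mem_ker]
      simp only [map_mul, map_inv, hs, hσx]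
      rw [hau, inv_mul_cancel]
    have h1 : Nm (s * x * s⁻¹) = 1 := by
      rw [hNm]
      have e1 : t * (s * x * s⁻¹) * t⁻¹
          = s * ((s⁻¹ * t * s) * x * (s⁻¹ * t * s)⁻¹) * s⁻¹ := by group
      have e2 : t⁻¹ * (s * x * s⁻¹) * t
          = s * ((s⁻¹ * t * s)⁻¹ * x * (s⁻¹ * t * s)) * s⁻¹ := by group
      have e3 : s⁻¹ * t * s = t⁻¹ := by
        have h : s⁻¹ * t * s = s * t * s⁻¹ := by rw [sinv]
        rw [h, hst]
      rw [e1, e2, e3, inv_inv, hz', ← hydef]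
      have e4 : s * x * s⁻¹ * (s * (y⁻¹ * x⁻¹) * s⁻¹) * (s * y * s⁻¹)
          = s * (x * y⁻¹ * x⁻¹ * y) * s⁻¹ := by group
      rw [e4]
      have e5 : x * y⁻¹ * x⁻¹ * y = 1 := by
        have h : x * y⁻¹ = y⁻¹ * x := by
          calc x * y⁻¹ = y⁻¹ * (y * x) * y⁻¹ := by group
            _ = y⁻¹ * (x * y) * y⁻¹ := by rw [hxy]
            _ = y⁻¹ * x := by group
        rw [h]; group
      rw [e5]; group
    rw [hk', NmK x k hk, hNx, one_mul] at h1
    rw [hk', h1, mul_one]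
  have hsy : s * y * s⁻¹ = y⁻¹ * x⁻¹ := by
    have e : s * y * s⁻¹ = (s * t * s⁻¹) * (s * x * s⁻¹) * (s * t * s⁻¹)⁻¹ := by
      rw [hydef]; group
    rw [e, hst, hsx, inv_inv, hz']
  have hsw : s * w = w * s := comm_of_good hs2 hw2 (Gac _ (by rw [map_mul, hs, hw]))
  have hwx : w * x * w⁻¹ = x⁻¹ := Fu x hσx
  have hwy : w * y * w⁻¹ = y⁻¹ := Fv y hσy
  have hconjW : ∀ r : Γ, r * x * r⁻¹ ∈ W → r * y * r⁻¹ ∈ W → ∀ e ∈ W, r * e * r⁻¹ ∈ W := by
    intro r h1 h2
    rw [hWdef] at h1 h2 ⊢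
    apply conj_mem_closure
    intro p hp
    rcases hp with h | h
    · rw [h]; exact h1
    · rw [Set.mem_singleton_iff] at h; rw [h]; exact h2
  have hsW : ∀ e ∈ W, s * e * s⁻¹ ∈ W := hconjW s (by rw [hsx]; exact hxW)
    (by rw [hsy]; exact W.mul_mem (W.inv_mem hyW) (W.inv_mem hxW))
  have hwW : ∀ e ∈ W, w * e * w⁻¹ ∈ W := hconjW w (by rw [hwx]; exact W.inv_mem hxW)
    (by rw [hwy]; exact W.inv_mem hyW)
  -- generators of the preimage of the 2-subgroup
  obtain ⟨S', hS'⟩ : ∃ S' : Set Γ, S' = {e | e ∈ W ∨ e = s ∨ e = w ∨ e ∈ σ.ker} := ⟨_, rfl⟩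
  have hS'mem : ∀ e, e ∈ S' ↔ (e ∈ W ∨ e = s ∨ e = w ∨ e ∈ σ.ker) := by
    intro e; rw [hS']; rfl
  have hn : ∀ r ∈ S', ∀ e ∈ W, r * e * r⁻¹ ∈ W ∧ r⁻¹ * e * r ∈ W := by
    intro r hr e he
    rcases (hS'mem r).mp hr with h | h | h | h
    · exact ⟨W.mul_mem (W.mul_mem h he) (W.inv_mem h), W.mul_mem (W.mul_mem (W.inv_mem h) he) h⟩
    · rw [h]
      refine ⟨hsW e he, ?_⟩
      have h' := hsW e he
      rw [sinv] at h' ⊢
      exact h'
    · rw [h]
      refine ⟨hwW e he, ?_⟩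
      have h' := hwW e he
      rw [winv] at h' ⊢
      exact h'
    · have e1 : r * e * r⁻¹ = e := by rw [← hcz h e, mul_inv_cancel_right]
      have e2 : r⁻¹ * e * r = e := by rw [mul_assoc, hcz h e, inv_mul_cancel_left]
      rw [e1, e2]
      exact ⟨he, he⟩
  have hcomm1 : ∀ p q : Γ, p * q = q * p → p * q * p⁻¹ * q⁻¹ ∈ W := by
    intro p q h
    have e : p * q * p⁻¹ * q⁻¹ = 1 := by rw [h]; group
    rw [e]; exact W.one_mem
  have hcW1 : ∀ p ∈ W, ∀ q ∈ S', p * q * p⁻¹ * q⁻¹ ∈ W := by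
    intro p hp q hq
    have e : p * q * p⁻¹ * q⁻¹ = p * (q * p⁻¹ * q⁻¹) := by group
    rw [e]
    exact W.mul_mem hp (hn q hq _ (W.inv_mem hp)).1
  have hcW2 : ∀ p ∈ S', ∀ q ∈ W, p * q * p⁻¹ * q⁻¹ ∈ W := by
    intro p hp q hq
    exact W.mul_mem (hn p hp q hq).1 (W.inv_mem hq)
  have hcS' : ∀ p ∈ S', ∀ q ∈ S', p * q * p⁻¹ * q⁻¹ ∈ W := by
    intro p hp q hq
    rcases (hS'mem p).mp hp with h | h | h | h
    · exact hcW1 p h q hq
    · rcases (hS'mem q).mp hq with h' | h' | h' | h'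
      · exact hcW2 p hp q h'
      · rw [h, h']; exact hcomm1 _ _ rfl
      · rw [h, h']; exact hcomm1 _ _ hsw
      · exact hcomm1 _ _ (hcz h' p)
    · rcases (hS'mem q).mp hq with h' | h' | h' | h'
      · exact hcW2 p hp q h'
      · rw [h, h']; exact hcomm1 _ _ hsw.symm
      · rw [h, h']; exact hcomm1 _ _ rfl
      · exact hcomm1 _ _ (hcz h' p)
    · exact hcomm1 _ _ (hcz h q).symm
  have hcomm := commutator_closure_le S' W hn hcS'
  have hH_le : (Subgroup.closure ({u, v, a, c} : Set G)).comap σ ≤ Subgroup.closure S' := by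
    have h1 : Subgroup.closure ({u, v, a, c} : Set G) ≤ (Subgroup.closure S').map σ := by
      rw [Subgroup.closure_le]
      intro q hq
      rcases hq with h | h | h | h
      · exact ⟨x, Subgroup.subset_closure ((hS'mem x).mpr (Or.inl hxW)), by rw [hσx, h]⟩
      · exact ⟨y, Subgroup.subset_closure ((hS'mem y).mpr (Or.inl hyW)), by rw [hσy, h]⟩
      · exact ⟨s, Subgroup.subset_closure ((hS'mem s).mpr (Or.inr (Or.inl rfl))), by rw [hs, h]⟩
      · rw [Set.mem_singleton_iff] at h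
        exact ⟨w, Subgroup.subset_closure ((hS'mem w).mpr (Or.inr (Or.inr (Or.inl rfl)))),
          by rw [hw, h]⟩
    intro h hh
    obtain ⟨h', hh', e⟩ := h1 hh
    have hk : h'⁻¹ * h ∈ σ.ker := by
      rw [MonoidHom.mem_ker, map_mul, map_inv, e, inv_mul_cancel]
    have e2 : h = h' * (h'⁻¹ * h) := by group
    rw [e2]
    exact Subgroup.mul_mem _ hh'
      (Subgroup.subset_closure ((hS'mem _).mpr (Or.inr (Or.inr (Or.inr hk)))))
  rw [eq_bot_iff]
  intro z hz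
  rw [Subgroup.mem_bot]
  have hz2 := hK2 z hz
  have h1 := pow_index_mem σ hσ (Subgroup.closure ({u, v, a, c} : Set G)) hz
  have hzm : z ^ (Subgroup.closure ({u, v, a, c} : Set G)).index = z := by
    obtain ⟨j, hj⟩ := hidx
    rw [hj, pow_succ, pow_mul, hz2, one_pow, one_mul]
  rw [hzm] at h1
  have hzW : z ∈ W := hcomm (Subgroup.commutator_mono hH_le hH_le h1)
  exact hWK z hzW hz

/-- The index of a 2-subgroup `⟨u, v⟩ : ⟨a, c⟩` of full 2-power order. -/
theorem index_odd_z4 {G : Type v} [Group G] [Finite G] (u v a c : G)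
    (hu4 : u ^ 4 = 1) (hv4 : v ^ 4 = 1) (huv : u * v = v * u) (ha2 : a ^ 2 = 1) (hc2 : c ^ 2 = 1)
    (hac : a * c = c * a) (hcu : c * u * c⁻¹ = u⁻¹) (hcv : c * v * c⁻¹ = v⁻¹)
    (hau : a * u * a⁻¹ = u) (hav : a * v * a⁻¹ = u⁻¹ * v⁻¹)
    (n m : ℕ) (hm : Odd m) (hG : Nat.card G = 2 ^ n * m)
    (hU : 2 ^ n ≤ Nat.card (Subgroup.closure ({u, v, a, c} : Set G))) :
    (Subgroup.closure ({u, v, a, c} : Set G)).index = m := by
  have : Fact (Nat.Prime 2) := ⟨Nat.prime_two⟩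
  have ainv : a⁻¹ = a := by rw [inv_eq_iff_mul_eq_one, ← pow_two, ha2]
  have cinv : c⁻¹ = c := by rw [inv_eq_iff_mul_eq_one, ← pow_two, hc2]
  have hzp : ∀ (q : G) (k : ℕ), q ^ 2 ^ k = 1 → IsPGroup 2 (Subgroup.zpowers q) := by
    intro q k hq
    rintro ⟨x, hx⟩
    obtain ⟨j, rfl⟩ := hx
    refine ⟨k, Subtype.ext ?_⟩
    show (q ^ j) ^ 2 ^ k = 1
    rw [← zpow_natCast, ← zpow_mul, mul_comm, zpow_mul, zpow_natCast, hq, one_zpow]
  have hPu := hzp u 2 hu4
  have hPv := hzp v 2 hv4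
  have hPa := hzp a 1 (by rw [pow_one]; exact ha2)
  have hPc := hzp c 1 (by rw [pow_one]; exact hc2)
  obtain ⟨N, hN⟩ : ∃ N : Subgroup G, N = Subgroup.closure ({u, v} : Set G) := ⟨_, rfl⟩
  have hNv : Subgroup.zpowers v ≤ Subgroup.normalizer (Subgroup.zpowers u : Set G) := by
    rw [Subgroup.zpowers_le]
    refine mem_normalizer_zpowers ?_ ?_
    · have h : v * u * v⁻¹ = u := by rw [← huv, mul_inv_cancel_right]
      rw [h]; exact Subgroup.mem_zpowers u
    · have h : v⁻¹ * u * v = u := by rw [mul_assoc, huv, inv_mul_cancel_left]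
      rw [h]; exact Subgroup.mem_zpowers u
  have hPN : IsPGroup 2 N := by
    rw [hN, closure_pair_eq_sup]; exact IsPGroup.to_sup_of_normal_right' hPv hPu hNv
  have hxN : ∀ r : G, r⁻¹ = r → r * u * r⁻¹ ∈ N → r * v * r⁻¹ ∈ N →
      (∀ e ∈ N, r * e * r⁻¹ ∈ N) ∧ r ∈ Subgroup.normalizer (N : Set G) := by
    intro r hri h1 h2
    have h3 : ∀ e ∈ N, r * e * r⁻¹ ∈ N := by
      rw [hN] at h1 h2 ⊢
      apply conj_mem_closure
      intro p hp
      rcases hp with h | h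
      · rw [h]; exact h1
      · rw [Set.mem_singleton_iff] at h; rw [h]; exact h2
    refine ⟨h3, mem_normalizer_of_conj N r h3 ?_⟩
    intro e he
    have h := h3 e he
    rw [hri] at h ⊢
    exact h
  have huN : u ∈ N := by rw [hN]; exact Subgroup.subset_closure (by simp)
  have hvN : v ∈ N := by rw [hN]; exact Subgroup.subset_closure (by simp)
  obtain ⟨hcN, hcn⟩ := hxN c cinv (by rw [hcu]; exact N.inv_mem huN)
    (by rw [hcv]; exact N.inv_mem hvN)
  obtain ⟨haN, han⟩ := hxN a ainv (by rw [hau]; exact huN)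
    (by rw [hav]; exact N.mul_mem (N.inv_mem huN) (N.inv_mem hvN))
  have hP1 : IsPGroup 2 (Subgroup.zpowers c ⊔ N : Subgroup G) :=
    IsPGroup.to_sup_of_normal_right' hPc hPN (by rw [Subgroup.zpowers_le]; exact hcn)
  have han2 : a ∈ Subgroup.normalizer ((Subgroup.zpowers c ⊔ N : Subgroup G) : Set G) := by
    have hca : a * c * a⁻¹ = c := by rw [hac, mul_inv_cancel_right]
    refine mem_normalizer_sup_zpowers N c a ?_ ?_ haN ?_
    · rw [hca]; exact Subgroup.mem_sup_left (Subgroup.mem_zpowers c)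
    · have h : a⁻¹ * c * a = a * c * a⁻¹ := by rw [ainv]
      rw [h, hca]; exact Subgroup.mem_sup_left (Subgroup.mem_zpowers c)
    · intro e he
      have h := haN e he
      rw [ainv] at h ⊢
      exact h
  have hP2 : IsPGroup 2 (Subgroup.zpowers a ⊔ (Subgroup.zpowers c ⊔ N) : Subgroup G) :=
    IsPGroup.to_sup_of_normal_right' hPa hP1 (by rw [Subgroup.zpowers_le]; exact han2)
  have hle : Subgroup.closure ({u, v, a, c} : Set G)
      ≤ Subgroup.zpowers a ⊔ (Subgroup.zpowers c ⊔ N) := by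
    rw [Subgroup.closure_le]
    intro q hq
    rcases hq with h | h | h | h
    · rw [h]; exact Subgroup.mem_sup_right (Subgroup.mem_sup_right huN)
    · rw [h]; exact Subgroup.mem_sup_right (Subgroup.mem_sup_right hvN)
    · rw [h]; exact Subgroup.mem_sup_left (Subgroup.mem_zpowers a)
    · rw [Set.mem_singleton_iff] at h
      rw [h]; exact Subgroup.mem_sup_right (Subgroup.mem_sup_left (Subgroup.mem_zpowers c))
  have hPU : IsPGroup 2 (Subgroup.closure ({u, v, a, c} : Set G)) := hP2.to_le hle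
  obtain ⟨k, hk⟩ := IsPGroup.iff_card.mp hPU
  have h1 := Subgroup.card_mul_index (Subgroup.closure ({u, v, a, c} : Set G))
  rw [hk, hG] at h1
  rw [hk] at hU
  have hkn : n ≤ k := (Nat.pow_le_pow_iff_right (by norm_num)).mp hU
  have hd : 2 ^ k ∣ 2 ^ n * m := Dvd.intro _ h1
  have hcop : Nat.Coprime (2 ^ k) m := Nat.Coprime.pow_left k (Nat.coprime_two_left.mpr hm)
  have hd2 : 2 ^ k ∣ 2 ^ n := hcop.dvd_of_dvd_mul_right hd
  have hkn2 : k ≤ n := (Nat.pow_dvd_pow_iff_le_right (by norm_num : 1 < 2)).mp hd2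
  have hkeq : k = n := le_antisymm hkn2 hkn
  rw [hkeq] at h1
  exact Nat.eq_of_mul_eq_mul_left (by positivity) h1

end z4

section bound

/-- If stem extensions with kernel of exponent two in which the involution `c` lifts to
involutions are trivial, and `c` lies in a four-group of conjugates of `c`, then every finite
stem extension with a kernel of 2-power exponent has kernel of order at most two. -/
theorem ker_cases {Γ : Type u} {G : Type v} [Group Γ] [Group G] [Finite Γ] (σ : Γ →* G)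
    (hσ : Cfsg.IsStemExtension σ) (n : ℕ) (hpow : ∀ z ∈ σ.ker, z ^ (2 ^ n) = 1)
    (c t h2 h3 : G) (hc2 : c ^ 2 = 1) (hct : c * t = t * c)
    (hh2 : h2 * c * h2⁻¹ = t) (hh3 : h3 * c * h3⁻¹ = c * t)
    (H : ∀ (Δ : Type u) [Group Δ] [Finite Δ] (τ : Δ →* G), Cfsg.IsStemExtension τ →
      (∀ k ∈ τ.ker, k ^ 2 = 1) → Good τ c → τ.ker = ⊥) :
    ∃ q ∈ σ.ker, q ^ 2 = 1 ∧ ∀ k ∈ σ.ker, k = 1 ∨ k = q := by
  have hcz : ∀ {k : Γ}, k ∈ σ.ker → ∀ r : Γ, r * k = k * r := fun hk r =>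
    Subgroup.mem_center_iff.mp (hσ.2.1 hk) r
  obtain ⟨x0, hx0⟩ := hσ.1 c
  obtain ⟨q, hqdef⟩ : ∃ q : Γ, q = x0 ^ 2 := ⟨_, rfl⟩
  have hqK : q ∈ σ.ker := by rw [MonoidHom.mem_ker, hqdef, map_pow, hx0, hc2]
  have hqz : ∀ i : ℤ, q ^ i ∈ σ.ker := fun i => σ.ker.zpow_mem hqK i
  let N : Subgroup Γ :=
    { carrier := {e | ∃ k ∈ σ.ker, ∃ i : ℤ, k ^ 2 * q ^ i = e}
      mul_mem' := by
        rintro _ _ ⟨k1, hk1, i, rfl⟩ ⟨k2, hk2, j, rfl⟩
        refine ⟨k1 * k2, σ.ker.mul_mem hk1 hk2, i + j, ?_⟩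
        have c1 : Commute k1 k2 := hcz hk2 k1
        have c2 : Commute (k2 ^ 2) (q ^ i) := hcz (hqz i) (k2 ^ 2)
        rw [c1.mul_pow, zpow_add, c2.mul_mul_mul_comm]
      one_mem' := ⟨1, σ.ker.one_mem, 0, by simp⟩
      inv_mem' := by
        rintro _ ⟨k, hk, i, rfl⟩
        refine ⟨k⁻¹, σ.ker.inv_mem hk, -i, ?_⟩
        have c3 : Commute (k ^ 2) (q ^ i) := hcz (hqz i) (k ^ 2)
        rw [mul_inv_rev, inv_pow, zpow_neg]
        exact (Commute.inv_inv c3).eq }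
  have hNK : N ≤ σ.ker := by
    rintro _ ⟨k, hk, i, rfl⟩
    exact σ.ker.mul_mem (σ.ker.pow_mem hk 2) (hqz i)
  have hNn : N.Normal := by
    refine ⟨fun e he g => ?_⟩
    rw [hcz (hNK he) g, mul_inv_cancel_right]
    exact he
  have hτmk : ∀ y : Γ, QuotientGroup.lift N σ hNK (QuotientGroup.mk y) = σ y := fun y => rfl
  have hτ := quot_stem σ hσ N hNK
  have hτ2 : ∀ k ∈ (QuotientGroup.lift N σ hNK).ker, k ^ 2 = 1 := by
    intro e he
    induction e using QuotientGroup.induction_on with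
    | H y =>
      rw [MonoidHom.mem_ker, hτmk] at he
      rw [← QuotientGroup.mk_pow]
      exact (QuotientGroup.eq_one_iff _).mpr ⟨y, he, 0, by simp⟩
  have hτG : Good (QuotientGroup.lift N σ hNK) c := by
    intro e he
    induction e using QuotientGroup.induction_on with
    | H y =>
      rw [hτmk] at he
      rw [← QuotientGroup.mk_pow]
      apply (QuotientGroup.eq_one_iff _).mpr
      have hk : x0⁻¹ * y ∈ σ.ker := by
        rw [MonoidHom.mem_ker, map_mul, map_inv, hx0, he, inv_mul_cancel]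
      refine ⟨x0⁻¹ * y, hk, 1, ?_⟩
      have hcm : Commute x0 (x0⁻¹ * y) := hcz hk x0
      calc (x0⁻¹ * y) ^ 2 * q ^ (1 : ℤ) = (x0⁻¹ * y) ^ 2 * q := by rw [zpow_one]
        _ = q * (x0⁻¹ * y) ^ 2 := hcz hqK _
        _ = x0 ^ 2 * (x0⁻¹ * y) ^ 2 := by rw [hqdef]
        _ = (x0 * (x0⁻¹ * y)) ^ 2 := (hcm.mul_pow 2).symm
        _ = y ^ 2 := by rw [mul_inv_cancel_left]
  have hbot := H (Γ ⧸ N) (QuotientGroup.lift N σ hNK) hτ hτ2 hτG
  have hdec : ∀ k ∈ σ.ker, ∃ m ∈ σ.ker, ∃ i : ℤ, m ^ 2 * q ^ i = k := by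
    intro k hk
    have h1 : (QuotientGroup.mk k : Γ ⧸ N) ∈ (QuotientGroup.lift N σ hNK).ker := by
      rw [MonoidHom.mem_ker, hτmk]; exact hk
    rw [hbot, Subgroup.mem_bot, QuotientGroup.eq_one_iff] at h1
    exact h1
  have hall : ∀ j : ℕ, ∀ k ∈ σ.ker, ∃ m ∈ σ.ker, ∃ i : ℤ, m ^ (2 ^ j) * q ^ i = k := by
    intro j
    induction j with
    | zero => intro k hk; exact ⟨k, hk, 0, by simp⟩
    | succ j ih =>
      intro k hk
      obtain ⟨m, hm, i, rfl⟩ := ih k hk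
      obtain ⟨m', hm', a, rfl⟩ := hdec m hm
      refine ⟨m', hm', a * (2 ^ j : ℕ) + i, ?_⟩
      have cm : Commute (m' ^ 2) (q ^ a) := hcz (hqz a) (m' ^ 2)
      rw [cm.mul_pow, ← pow_mul, ← pow_succ', zpow_add, zpow_mul, zpow_natCast, mul_assoc]
  have hzp : ∀ k ∈ σ.ker, ∃ i : ℤ, q ^ i = k := by
    intro k hk
    obtain ⟨m, hm, i, rfl⟩ := hall n k hk
    exact ⟨i, by rw [hpow m hm, one_mul]⟩
  -- the four-group
  obtain ⟨b2, hb2⟩ := hσ.1 h2
  obtain ⟨b3, hb3⟩ := hσ.1 h3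
  have hqc : ∀ r : Γ, r * q = q * r := hcz hqK
  obtain ⟨x2, hx2def⟩ : ∃ x2 : Γ, x2 = b2 * x0 * b2⁻¹ := ⟨_, rfl⟩
  obtain ⟨x3, hx3def⟩ : ∃ x3 : Γ, x3 = b3 * x0 * b3⁻¹ := ⟨_, rfl⟩
  have hσx2 : σ x2 = t := by rw [hx2def, map_mul, map_mul, map_inv, hx0, hb2, hh2]
  have hσx3 : σ x3 = c * t := by rw [hx3def, map_mul, map_mul, map_inv, hx0, hb3, hh3]
  have hx2sq : x2 ^ 2 = q := by
    rw [hx2def, conj_pow, ← hqdef, hqc b2, mul_inv_cancel_right]
  have hx3sq : x3 ^ 2 = q := by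
    rw [hx3def, conj_pow, ← hqdef, hqc b3, mul_inv_cancel_right]
  obtain ⟨k3, hk3, hk3'⟩ : ∃ k3 ∈ σ.ker, x0 * x2 = x3 * k3 := by
    refine ⟨x3⁻¹ * (x0 * x2), ?_, by group⟩
    rw [MonoidHom.mem_ker, map_mul, map_inv, map_mul, hx0, hσx2, hσx3, inv_mul_cancel]
  obtain ⟨d, hd, hd'⟩ : ∃ d ∈ σ.ker, x2 * x0 = x0 * x2 * d := by
    refine ⟨(x0 * x2)⁻¹ * (x2 * x0), ?_, by group⟩
    rw [MonoidHom.mem_ker, map_mul, map_inv, map_mul, map_mul, hx0, hσx2, hct, inv_mul_cancel]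
  have hdc := hcz hd
  have hk3c := hcz hk3
  have e1 : (x0 * x2) ^ 2 = q * k3 ^ 2 := by
    have hcm : Commute x3 k3 := hk3c x3
    rw [hk3', hcm.mul_pow, hx3sq]
  have e2 : (x0 * x2) ^ 2 = q ^ 2 * d := by
    calc (x0 * x2) ^ 2 = x0 * (x2 * x0) * x2 := by rw [pow_two]; simp only [mul_assoc]
      _ = x0 * (x0 * x2 * d) * x2 := by rw [hd']
      _ = x0 * x0 * x2 * (d * x2) := by simp only [mul_assoc]
      _ = x0 * x0 * x2 * (x2 * d) := by rw [← hdc x2]
      _ = x0 * x0 * (x2 * x2) * d := by simp only [mul_assoc]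
      _ = q ^ 2 * d := by rw [← pow_two, ← pow_two, ← hqdef, hx2sq, ← pow_two]
  have hd2 : d ^ 2 = 1 := by
    have h1 : x2 * x0 * x2⁻¹ = x0 * d := by
      rw [hd']
      calc x0 * x2 * d * x2⁻¹ = x0 * x2 * (d * x2⁻¹) := by simp only [mul_assoc]
        _ = x0 * x2 * (x2⁻¹ * d) := by rw [← hdc x2⁻¹]
        _ = x0 * d := by group
    have h2 : (x2 * x0 * x2⁻¹) ^ 2 = q := by
      rw [conj_pow, ← hqdef, hqc x2, mul_inv_cancel_right]
    have hcm : Commute x0 d := hdc x0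
    rw [h1, hcm.mul_pow, ← hqdef] at h2
    exact mul_eq_left.mp h2
  obtain ⟨ee, hee⟩ := hzp k3 hk3
  obtain ⟨l, hl⟩ := hzp d hd
  have h' : q ^ (1 + ee * 2 : ℤ) = q ^ (2 + l : ℤ) := by
    have h := e1.symm.trans e2
    rw [← hee, ← hl] at h
    rw [zpow_add, zpow_add, zpow_one, zpow_mul, zpow_ofNat, zpow_ofNat]
    exact h
  have h5 : q ^ (2 * ee - l - 1) = 1 := by
    have e : (2 * ee - l - 1 : ℤ) = (1 + ee * 2) - (2 + l) := by ring
    rw [e, zpow_sub, h', mul_inv_cancel]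
  have h6 : q ^ (l * 2) = 1 := by rw [zpow_mul, zpow_ofNat, hl]; exact hd2
  have hq64 := hpow q hqK
  obtain ⟨m, hm, hmo⟩ := (Nat.dvd_prime_pow Nat.prime_two).mp (orderOf_dvd_of_pow_eq_one hq64)
  have hq2 : q ^ 2 = 1 := by
    by_contra hne
    have hm2 : 2 ≤ m := by
      by_contra hlt
      apply hne
      have hdv : orderOf q ∣ 2 := by
        rw [hmo]; exact pow_dvd_pow 2 (by omega : m ≤ 1)
      exact orderOf_dvd_iff_pow_eq_one.mp hdv
    have h4n : 2 ^ 2 ∣ orderOf q := by rw [hmo]; exact pow_dvd_pow 2 hm2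
    have h4 : (4 : ℤ) ∣ (orderOf q : ℤ) := by exact_mod_cast h4n
    have d1 : (orderOf q : ℤ) ∣ 2 * ee - l - 1 := orderOf_dvd_iff_zpow_eq_one.mpr h5
    have d2 : (orderOf q : ℤ) ∣ l * 2 := orderOf_dvd_iff_zpow_eq_one.mpr h6
    have d3 := h4.trans d1
    have d4 := h4.trans d2
    omega
  refine ⟨q, hqK, hq2, ?_⟩
  intro k hk
  obtain ⟨i, rfl⟩ := hzp k hk
  have hsq : q ^ (2 : ℤ) = 1 := by exact_mod_cast hq2
  obtain ⟨j, hj | hj⟩ := Int.even_or_odd' i
  · left; rw [hj, zpow_mul, hsq, one_zpow]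
  · right; rw [hj, zpow_add, zpow_mul, hsq, one_zpow, one_mul, zpow_one]

/-- Recognition of a Schur multiplier of order two: every finite stem extension has a kernel of
order at most two, and some central extension has a nontrivial kernel element in its
commutator subgroup. -/
theorem hasCyclic_two {Q : Type u} [Group Q] [Finite Q]
    (hub : ∀ (Γ : Type u) [Group Γ] [Finite Γ] (σ : Γ →* Q), Cfsg.IsStemExtension σ →
      ∃ q ∈ σ.ker, q ^ 2 = 1 ∧ ∀ k ∈ σ.ker, k = 1 ∨ k = q)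
    {P : Type w} [Group P] (π : P →* Q) (hπ : Function.Surjective π)
    (hc : π.ker ≤ Subgroup.center P) (z : P) (hz : z ∈ π.ker) (hz' : z ∈ commutator P)
    (hz1 : z ≠ 1) : Cfsg.HasCyclicSchurMultiplier Q 2 := by
  classical
  have hA := hasSchurMultiplier_schurM Q
  haveI : Finite (schurM Q) := finite_of_hasSchurMultiplier hA
  have hle : Nat.card (schurM Q) ≤ 2 := by
    obtain ⟨⟨Γ, _, _, σ, hσ, ⟨e⟩⟩, -⟩ := hasSchurMultiplier_schurM Q
    obtain ⟨q, hq, hq2, hall⟩ := hub Γ σ hσ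
    rw [← Nat.card_congr e.toEquiv]
    have hinj : Function.Injective (fun k : σ.ker => decide ((k : Γ) = 1)) := by
      intro k1 k2 h
      have h' : ((k1 : Γ) = 1) ↔ ((k2 : Γ) = 1) := by simpa using h
      apply Subtype.ext
      rcases hall k1 k1.2 with h1 | h1
      · rw [h1, h'.mp h1]
      · rcases hall k2 k2.2 with h2 | h2
        · rw [h2, h'.mpr h2]
        · rw [h1, h2]
    have h3 := Nat.card_le_card_of_injective _ hinj
    simpa using h3
  have hge : 1 < Nat.card (schurM Q) := by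
    obtain ⟨f, hf⟩ := exists_surj_of_central hA π hπ hc
    have hzm : z ∈ Subgroup.map f ⊤ := by rw [hf]; exact Subgroup.mem_inf.mpr ⟨hz, hz'⟩
    obtain ⟨a, -, ha⟩ := hzm
    rw [Finite.one_lt_card_iff_nontrivial]
    exact ⟨⟨a, 1, fun h => hz1 (by rw [← ha, h, map_one])⟩⟩
  have hcard : Nat.card (schurM Q) = 2 := by omega
  haveI : Fact (Nat.Prime 2) := ⟨Nat.prime_two⟩
  have hcard2 : Nat.card (Multiplicative (ZMod 2)) = 2 := by
    rw [Nat.card_eq_fintype_card, Fintype.card_multiplicative, ZMod.card]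
  exact hasSchurMultiplier_congr (mulEquivOfPrimeCardEq hcard hcard2) hA

/-- Transport of a Schur multiplier along an equality of subgroups. -/
theorem transport_eq {P : Type u} [Group P] {H K : Subgroup P} (e : H = K) {A : Type v}
    [CommGroup A] (h : Cfsg.HasSchurMultiplier ↥H A) : Cfsg.HasSchurMultiplier ↥K A := by
  subst e; exact h

end bound

end Cfsg.Agent.Lib.helper27.StemCover
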