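import Cfsg.Agent.Lib.helper27.MSchurBase
import Cfsg.Agent.Lib.helper27.StemCover
import Cfsg.Agent.Lib.helper27.OutM12

set_option autoImplicit false

/-! The Schur multiplier of the stabilizer of a dodecad in the group of the length-24 binary code
(the Mathieu group of degree 12) has order two.

Upper bound: the odd part of the kernel of a finite stem extension dies by transfer to cyclic
subgroups of orders 5 and 11 and to an extraspecial subgroup of order 27.  For kernels of exponent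
two in which a fixed-point-free involution `c` lifts to involutions, transfer to a Sylow
2-subgroup `(4 × 4) : 2²` shows that the kernel is trivial (the involutions with fixed points
always lift to involutions); the general case follows by passing to quotients, using a four-group
of conjugates of `c`.

Lower bound: the group of pairs of signed permutations of the two complementary dodecads which
preserve a 12 × 12 sign matrix is a central extension in which a commutator of two lifts of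
commuting involutions is the nontrivial central element. -/

namespace Cfsg.Agent.Lib.helper27.M12S

open Cfsg Cfsg.Agent.Lib.helper28 Cfsg.Agent.Lib.helper27 Cfsg.Agent.Lib.helper27.MSB
open Cfsg.Agent.Lib.helper20
open scoped commutatorElement

/-! ### Data -/

def tu : List ℕ := [9, 16, 1, 0, 2, 15, 6, 21, 8, 13, 14, 19, 12, 3, 5, 10, 4, 22, 18, 11, 23, 7, 20, 17]
def tv : List ℕ := [0, 2, 4, 3, 16, 15, 8, 11, 12, 9, 14, 21, 18, 13, 5, 10, 1, 20, 6, 7, 17, 19, 23, 22]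
def tg : List ℕ := [1, 6, 18, 16, 12, 7, 0, 23, 3, 2, 21, 17, 13, 4, 19, 11, 8, 15, 9, 20, 14, 22, 10, 5]
def ta : List ℕ := [2, 9, 0, 4, 3, 22, 18, 21, 12, 1, 23, 19, 8, 16, 17, 20, 13, 14, 6, 11, 15, 7, 5, 10]
def tc : List ℕ := [3, 16, 4, 0, 2, 15, 8, 11, 6, 13, 14, 7, 18, 9, 10, 5, 1, 23, 12, 21, 22, 19, 20, 17]
/-- The table of `u * c`. -/
def tuc : List ℕ := [0, 4, 2, 9, 1, 10, 8, 19, 6, 3, 5, 21, 18, 13, 14, 15, 16, 17, 12, 7, 20, 11, 23, 22]
def tf : List ℕ := [0, 1, 2, 12, 4, 19, 8, 10, 6, 18, 7, 11, 3, 16, 20, 15, 13, 17, 9, 5, 14, 21, 23, 22]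
def tf2 : List ℕ := [2, 1, 0, 9, 4, 10, 6, 19, 8, 3, 5, 11, 18, 16, 20, 17, 13, 15, 12, 7, 14, 21, 22, 23]
def cj0 : List ℕ := [0, 1, 2, 3, 4, 5, 6, 7, 8, 9, 10, 11, 12, 13, 14, 15, 16, 17, 18, 19, 20, 21, 22, 23]
def cj1 : List ℕ := [0, 2, 13, 1, 16, 10, 18, 22, 12, 3, 23, 20, 4, 8, 19, 15, 6, 14, 9, 5, 7, 17, 21, 11]
def cj2 : List ℕ := [1, 0, 4, 3, 16, 11, 13, 5, 2, 9, 21, 14, 6, 18, 23, 7, 12, 19, 8, 10, 22, 17, 15, 20]
def cj3 : List ℕ := [0, 1, 2, 9, 4, 10, 16, 5, 13, 12, 19, 21, 18, 6, 23, 17, 8, 15, 3, 7, 22, 11, 14, 20]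
def cj4 : List ℕ := [1, 3, 4, 0, 9, 20, 12, 15, 18, 2, 14, 10, 13, 6, 11, 22, 8, 23, 16, 17, 21, 5, 7, 19]
def cj5 : List ℕ := [1, 0, 4, 3, 2, 19, 8, 7, 6, 18, 10, 17, 12, 13, 20, 21, 16, 11, 9, 5, 14, 15, 22, 23]
def cj6 : List ℕ := [1, 3, 4, 6, 9, 11, 2, 19, 16, 18, 7, 23, 8, 13, 17, 5, 0, 10, 12, 21, 20, 22, 15, 14]
def cvc : List ℕ := [1, 0, 3, 4, 2, 19, 18, 10, 13, 8, 7, 17, 12, 6, 20, 14, 9, 23, 16, 15, 21, 5, 22, 11]
def cuvc : List ℕ := [0, 1, 3, 12, 9, 23, 6, 20, 2, 18, 5, 19, 8, 13, 22, 10, 4, 21, 16, 7, 11, 17, 14, 15]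
def cja : List ℕ := [0, 2, 3, 1, 16, 14, 12, 19, 6, 4, 15, 7, 8, 13, 23, 22, 9, 17, 18, 11, 20, 21, 10, 5]
def cjac : List ℕ := [0, 2, 1, 16, 3, 20, 6, 19, 9, 18, 15, 17, 8, 4, 11, 14, 12, 5, 13, 21, 22, 23, 10, 7]
def tt : List ℕ := [1, 0, 9, 16, 13, 17, 12, 19, 18, 2, 20, 21, 6, 4, 22, 23, 3, 5, 8, 7, 10, 11, 14, 15]
def th2 : List ℕ := [0, 2, 3, 1, 16, 14, 12, 19, 6, 4, 15, 7, 8, 13, 23, 22, 9, 17, 18, 11, 20, 21, 10, 5]
def th3 : List ℕ := [0, 3, 2, 16, 13, 17, 12, 5, 8, 6, 10, 23, 9, 18, 22, 15, 1, 7, 4, 19, 14, 11, 20, 21]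
def a3 : List ℕ := [6, 9, 3, 13, 1, 19, 16, 5, 12, 4, 17, 23, 18, 2, 10, 21, 0, 14, 8, 7, 15, 20, 11, 22]
def b3 : List ℕ := [1, 18, 13, 2, 4, 7, 8, 17, 9, 6, 14, 22, 12, 3, 23, 15, 16, 5, 0, 11, 20, 21, 19, 10]
def c3 : List ℕ := [18, 0, 2, 3, 16, 10, 8, 14, 9, 6, 11, 5, 4, 13, 22, 15, 12, 23, 1, 17, 20, 21, 7, 19]
def t3 : List ℕ := [6, 9, 3, 2, 4, 7, 0, 5, 18, 1, 14, 22, 12, 13, 10, 21, 16, 17, 8, 19, 20, 15, 11, 23]

def prog2 : List (ℕ × ℕ) :=
  [(0, 0), (0, 4), (1, 1), (1, 6), (0, 5), (2, 0), (5, 2), (1, 2), (2, 7), (2, 4), (2, 11), (12, 2), (3, 14), (1, 4), (4, 7), (16, 1), (1, 16)]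

def idx2 : List (ℕ × ℕ × List ℕ) :=
  [(0, 74271, [8, 0, 2, 3, 4, 9, 11, 13]),
   (1, 65558, [8, 16, 1, 19]),
   (2, 65540, [8, 20])]

def progP : List (ℕ × ℕ) :=
  [(0, 0), (1, 1), (0, 2), (1, 0), (2, 3), (0, 1), (3, 2), (0, 5), (6, 2), (0, 7), (8, 2), (1, 11), (12, 3), (12, 13), (14, 11)]

def idxP : List (ℕ × ℕ × List ℕ) :=
  [(0, 332627, [4, 0, 1, 2, 5, 7, 3, 9, 11]),
   (2, 8204, [4, 15, 16])]

/-! ### Generalities on tables -/

section tables

variable {Inv : List ℕ}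

theorem conj_tab {h x y : ↥(stabM Inv)} {lh lx ly : List ℕ}
    (hh : IsTable (h : Equiv.Perm GolayPt) lh) (hx : IsTable (x : Equiv.Perm GolayPt) lx)
    (hy : IsTable (y : Equiv.Perm GolayPt) ly) (e : mulTab lh lx = mulTab ly lh) :
    h * x * h⁻¹ = y := by
  have e' : h * x = y * h :=
    eq_of_tables (isTable_mul hh hx) (by rw [e]; exact isTable_mul hy hh)
  rw [e', mul_inv_cancel_right]

theorem conj_ex (y x : ↥(stabM Inv)) (lh lx ly : List ℕ) (hh : tabIn Inv lh = true)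
    (hx : IsTable (x : Equiv.Perm GolayPt) lx) (hy : IsTable (y : Equiv.Perm GolayPt) ly)
    (e : mulTab lh lx = mulTab ly lh) : ∃ g : ↥(stabM Inv), g * x * g⁻¹ = y :=
  ⟨el Inv lh hh, conj_tab (isTable_el Inv lh hh) hx hy e⟩

theorem mul_tab {x y z : ↥(stabM Inv)} {lx ly lz : List ℕ}
    (hx : IsTable (x : Equiv.Perm GolayPt) lx) (hy : IsTable (y : Equiv.Perm GolayPt) ly)
    (hz : IsTable (z : Equiv.Perm GolayPt) lz) (e : mulTab lx ly = lz) : x * y = z :=
  eq_of_tables (isTable_mul hx hy) (by rw [e]; exact hz)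

theorem pow_tab {x : ↥(stabM Inv)} {lx : List ℕ} (hx : IsTable (x : Equiv.Perm GolayPt) lx)
    (n : ℕ) (e : powTab lx n = idTab) : x ^ n = 1 :=
  eq_one_of_table (by rw [← e]; exact isTable_pow hx n)

end tables

/-! ### The elements -/

theorem in_u : tabIn [d0] tu = true := by decide +kernel
theorem in_v : tabIn [d0] tv = true := by decide +kernel
theorem in_g : tabIn [d0] tg = true := by decide +kernel
theorem in_a : tabIn [d0] ta = true := by decide +kernel
theorem in_c : tabIn [d0] tc = true := by decide +kernel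
theorem in_uc : tabIn [d0] tuc = true := by decide +kernel
theorem in_f : tabIn [d0] tf = true := by decide +kernel
theorem in_f2 : tabIn [d0] tf2 = true := by decide +kernel
theorem in_cj0 : tabIn [d0] cj0 = true := by decide +kernel
theorem in_cj1 : tabIn [d0] cj1 = true := by decide +kernel
theorem in_cj2 : tabIn [d0] cj2 = true := by decide +kernel
theorem in_cj3 : tabIn [d0] cj3 = true := by decide +kernel
theorem in_cj4 : tabIn [d0] cj4 = true := by decide +kernel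
theorem in_cj5 : tabIn [d0] cj5 = true := by decide +kernel
theorem in_cj6 : tabIn [d0] cj6 = true := by decide +kernel
theorem in_cvc : tabIn [d0] cvc = true := by decide +kernel
theorem in_cuvc : tabIn [d0] cuvc = true := by decide +kernel
theorem in_cja : tabIn [d0] cja = true := by decide +kernel
theorem in_cjac : tabIn [d0] cjac = true := by decide +kernel
theorem in_t : tabIn [d0] tt = true := by decide +kernel
theorem in_h2 : tabIn [d0] th2 = true := by decide +kernel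
theorem in_h3 : tabIn [d0] th3 = true := by decide +kernel
theorem in_a3 : tabIn [d0] a3 = true := by decide +kernel
theorem in_b3 : tabIn [d0] b3 = true := by decide +kernel
theorem in_c3 : tabIn [d0] c3 = true := by decide +kernel
theorem in_t3 : tabIn [d0] t3 = true := by decide +kernel
theorem in_D : tabIn [d0] tabD = true := by decide +kernel
theorem in_mt : tabIn [d0] (mt 2) = true := by decide +kernel

def eu : ↥(stabM [d0]) := el [d0] tu in_u
def ev : ↥(stabM [d0]) := el [d0] tv in_v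
def eg : ↥(stabM [d0]) := el [d0] tg in_g
def ea : ↥(stabM [d0]) := el [d0] ta in_a
def ec : ↥(stabM [d0]) := el [d0] tc in_c
def euc : ↥(stabM [d0]) := el [d0] tuc in_uc
def ef : ↥(stabM [d0]) := el [d0] tf in_f
def ef2 : ↥(stabM [d0]) := el [d0] tf2 in_f2
def et : ↥(stabM [d0]) := el [d0] tt in_t

theorem Tu : IsTable (eu : Equiv.Perm GolayPt) tu := isTable_el _ _ _
theorem Tv : IsTable (ev : Equiv.Perm GolayPt) tv := isTable_el _ _ _
theorem Tg : IsTable (eg : Equiv.Perm GolayPt) tg := isTable_el _ _ _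
theorem Ta : IsTable (ea : Equiv.Perm GolayPt) ta := isTable_el _ _ _
theorem Tc : IsTable (ec : Equiv.Perm GolayPt) tc := isTable_el _ _ _
theorem Tuc : IsTable (euc : Equiv.Perm GolayPt) tuc := isTable_el _ _ _
theorem Tf : IsTable (ef : Equiv.Perm GolayPt) tf := isTable_el _ _ _
theorem Tf2 : IsTable (ef2 : Equiv.Perm GolayPt) tf2 := isTable_el _ _ _
theorem Tt : IsTable (et : Equiv.Perm GolayPt) tt := isTable_el _ _ _

theorem card12 : Nat.card ↥(stabM [d0]) = 95040 := card_stabM_d0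

/-! ### Relations -/

theorem huv : eu * ev = ev * eu :=
  eq_of_tables (isTable_mul Tu Tv)
    (by rw [(by decide +kernel : mulTab tu tv = mulTab tv tu)]; exact isTable_mul Tv Tu)

theorem hg3 : eg ^ 3 = 1 := pow_tab Tg 3 (by decide +kernel)
theorem hu4 : eu ^ 4 = 1 := pow_tab Tu 4 (by decide +kernel)
theorem hv4 : ev ^ 4 = 1 := pow_tab Tv 4 (by decide +kernel)
theorem ha2 : ea ^ 2 = 1 := pow_tab Ta 2 (by decide +kernel)
theorem hc2 : ec ^ 2 = 1 := pow_tab Tc 2 (by decide +kernel)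

theorem hgu : eg * eu * eg⁻¹ = ev := conj_tab Tg Tu Tv (by decide +kernel)

theorem hgu' : eg⁻¹ * eu * eg = eu⁻¹ * ev⁻¹ := by
  have Z : eu * eg * ev * eu = eg :=
    mul_tab (isTable_mul (isTable_mul Tu Tg) Tv) Tu Tg (by decide +kernel)
  calc eg⁻¹ * eu * eg = eg⁻¹ * (eu * eg * ev * eu) * eu⁻¹ * ev⁻¹ := by group
    _ = eg⁻¹ * eg * eu⁻¹ * ev⁻¹ := by rw [Z]
    _ = eu⁻¹ * ev⁻¹ := by group

theorem hau : ea * eu * ea⁻¹ = eu := conj_tab Ta Tu Tu (by decide +kernel)

theorem hag : ea * eg * ea⁻¹ = eg⁻¹ := by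
  have V : eg * ea * eg = ea := mul_tab (isTable_mul Tg Ta) Tg Ta (by decide +kernel)
  calc ea * eg * ea⁻¹ = eg⁻¹ * (eg * ea * eg) * ea⁻¹ := by group
    _ = eg⁻¹ * ea * ea⁻¹ := by rw [V]
    _ = eg⁻¹ := by group

theorem hac : ea * ec = ec * ea :=
  eq_of_tables (isTable_mul Ta Tc)
    (by rw [(by decide +kernel : mulTab ta tc = mulTab tc ta)]; exact isTable_mul Tc Ta)

theorem hcu : ec * eu * ec⁻¹ = eu⁻¹ := by
  have X : eu * ec * eu = ec := mul_tab (isTable_mul Tu Tc) Tu Tc (by decide +kernel)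
  calc ec * eu * ec⁻¹ = eu⁻¹ * (eu * ec * eu) * ec⁻¹ := by group
    _ = eu⁻¹ * ec * ec⁻¹ := by rw [X]
    _ = eu⁻¹ := by group

theorem hcv : ec * ev * ec⁻¹ = ev⁻¹ := by
  have X : ev * ec * ev = ec := mul_tab (isTable_mul Tv Tc) Tv Tc (by decide +kernel)
  calc ec * ev * ec⁻¹ = ev⁻¹ * (ev * ec * ev) * ec⁻¹ := by group
    _ = ev⁻¹ * ec * ec⁻¹ := by rw [X]
    _ = ev⁻¹ := by group

theorem hav : ea * ev * ea⁻¹ = eu⁻¹ * ev⁻¹ := by
  have Y : ev * eu * ea * ev = ea :=
    mul_tab (isTable_mul (isTable_mul Tv Tu) Ta) Tv Ta (by decide +kernel)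
  calc ea * ev * ea⁻¹ = eu⁻¹ * ev⁻¹ * (ev * eu * ea * ev) * ea⁻¹ := by group
    _ = eu⁻¹ * ev⁻¹ * ea * ea⁻¹ := by rw [Y]
    _ = eu⁻¹ * ev⁻¹ := by group

theorem chain2_ok : chainGen [] (slpChain (slpTabs prog2 [tu, tv, ta, tc]) idx2) = true := by
  decide +kernel

theorem chain2_prod : chainProd (slpChain (slpTabs prog2 [tu, tv, ta, tc]) idx2) = 64 := by
  decide +kernel

theorem hidx : Odd (Subgroup.closure ({eu, ev, ea, ec} : Set ↥(stabM [d0]))).index := by
  have hU : 2 ^ 6 ≤ Nat.card (Subgroup.closure ({eu, ev, ea, ec} : Set ↥(stabM [d0]))) := by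
    apply card_ge_of_chain _ [tu, tv, ta, tc] prog2 idx2 (2 ^ 6) _ chain2_ok chain2_prod
    intro l hl
    simp only [List.mem_cons, List.not_mem_nil, or_false] at hl
    rcases hl with h | h | h | h
    · rw [h]; exact ⟨eu, Subgroup.subset_closure (by simp), Tu⟩
    · rw [h]; exact ⟨ev, Subgroup.subset_closure (by simp), Tv⟩
    · rw [h]; exact ⟨ea, Subgroup.subset_closure (by simp), Ta⟩
    · rw [h]; exact ⟨ec, Subgroup.subset_closure (by simp), Tc⟩
  rw [StemCover.index_odd_z4 eu ev ea ec hu4 hv4 huv ha2 hc2 hac hcu hcv hau hav 6 1485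
    (by decide) (by rw [card12]; norm_num) hU]
  decide

/-! ### Involutions lifting to involutions -/

theorem huc_eq : eu * ec = euc := mul_tab Tu Tc Tuc (by decide +kernel)

theorem huc2 : euc ^ 2 = 1 := pow_tab Tuc 2 (by decide +kernel)

/-- The involutions with fixed points lift to involutions. -/
theorem good_uc {Γ : Type} [Group Γ] (σ : Γ →* ↥(stabM [d0])) (hσ : Cfsg.IsStemExtension σ)
    (hK2 : ∀ k ∈ σ.ker, k ^ 2 = 1) : StemTwo.Good σ euc :=
  StemTwo.good_of_seven σ hσ.1 hσ.2.1 hK2 euc ef ef2 euc huc2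
    (conj_ex euc euc cj0 tuc tuc in_cj0 Tuc Tuc (by decide +kernel))
    (conj_ex euc ef cj1 tf tuc in_cj1 Tf Tuc (by decide +kernel))
    (conj_ex euc ef2 cj2 tf2 tuc in_cj2 Tf2 Tuc (by decide +kernel))
    (conj_ex euc (euc * ef) cj3 (mulTab tuc tf) tuc in_cj3 (isTable_mul Tuc Tf) Tuc
      (by decide +kernel))
    (conj_ex euc (euc * ef2) cj4 (mulTab tuc tf2) tuc in_cj4 (isTable_mul Tuc Tf2) Tuc
      (by decide +kernel))
    (conj_ex euc (ef * ef2) cj5 (mulTab tf tf2) tuc in_cj5 (isTable_mul Tf Tf2) Tuc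
      (by decide +kernel))
    (conj_ex euc (euc * (ef * ef2)) cj6 (mulTab tuc (mulTab tf tf2)) tuc in_cj6
      (isTable_mul Tuc (isTable_mul Tf Tf2)) Tuc (by decide +kernel))

/-- Stem extensions with kernel of exponent two in which `c` lifts to involutions are
trivial. -/
theorem exp2 {Γ : Type} [Group Γ] (σ : Γ →* ↥(stabM [d0])) (hσ : Cfsg.IsStemExtension σ)
    (hK2 : ∀ k ∈ σ.ker, k ^ 2 = 1) (Gc : StemTwo.Good σ ec) : σ.ker = ⊥ := by
  have G1 : StemTwo.Good σ (eu * ec) := by rw [huc_eq]; exact good_uc σ hσ hK2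
  have G2 : StemTwo.Good σ (ev * ec) :=
    StemTwo.good_conj σ hσ.1 (el [d0] cvc in_cvc)
      (conj_tab (isTable_el _ _ _) (isTable_mul Tv Tc) Tuc (by decide +kernel))
      (good_uc σ hσ hK2)
  have G3 : StemTwo.Good σ (eu * ev * ec) :=
    StemTwo.good_conj σ hσ.1 (el [d0] cuvc in_cuvc)
      (conj_tab (isTable_el _ _ _) (isTable_mul (isTable_mul Tu Tv) Tc) Tuc (by decide +kernel))
      (good_uc σ hσ hK2)
  have G4 : StemTwo.Good σ ea :=
    StemTwo.good_conj σ hσ.1 (el [d0] cja in_cja)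
      (conj_tab (isTable_el _ _ _) Ta Tc (by decide +kernel)) Gc
  have G5 : StemTwo.Good σ (ea * ec) :=
    StemTwo.good_conj σ hσ.1 (el [d0] cjac in_cjac)
      (conj_tab (isTable_el _ _ _) (isTable_mul Ta Tc) Tc (by decide +kernel)) Gc
  exact StemCover.z4_part σ hσ hK2 eu ev eg ea ec huv hg3 hgu hgu' hau hag Gc G1 G2 G3 G4 G5 hidx

/-! ### The odd part -/

theorem chainP_ok : chainGen [] (slpChain (slpTabs progP [a3, b3]) idxP) = true := by
  decide +kernel

theorem chainP_prod : chainProd (slpChain (slpTabs progP [a3, b3]) idxP) = 27 := by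
  decide +kernel

theorem pow64 {Γ : Type} [Group Γ] (σ : Γ →* ↥(stabM [d0])) (hσ : Cfsg.IsStemExtension σ)
    {z : Γ} (hz : z ∈ σ.ker) : z ^ 2 ^ 6 = 1 := by
  have : Fact (Nat.Prime 5) := ⟨by norm_num⟩
  have : Fact (Nat.Prime 11) := ⟨by norm_num⟩
  have h5 : z ^ 19008 = 1 :=
    cyc_tab [d0] σ hσ tabD in_D 5 (by decide +kernel) 1 (by norm_num) (by decide +kernel) 19008
      (by rw [card12]) hz
  have h11 : z ^ 8640 = 1 :=
    cyc_tab [d0] σ hσ (mt 2) in_mt 11 (by decide +kernel) 1 (by norm_num) (by decide +kernel)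
      8640 (by rw [card12]) hz
  have h3 : z ^ 3520 = 1 :=
    es27_tab [d0] σ hσ a3 b3 c3 t3 in_a3 in_b3 in_c3 in_t3 (by decide +kernel) (by decide +kernel)
      (by decide +kernel) 0 (by norm_num) (by decide +kernel) (by decide +kernel)
      (by decide +kernel) (by decide +kernel) (by decide +kernel) (by decide +kernel)
      progP idxP chainP_ok chainP_prod 3520 (by rw [card12]) hz
  have d1 := orderOf_dvd_of_pow_eq_one h5
  have d2 := orderOf_dvd_of_pow_eq_one h11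
  have d3 := orderOf_dvd_of_pow_eq_one h3
  have d5 : orderOf z ∣ Nat.gcd (Nat.gcd 19008 8640) 3520 := Nat.dvd_gcd (Nat.dvd_gcd d1 d2) d3
  have d6 : Nat.gcd (Nat.gcd 19008 8640) 3520 = 2 ^ 6 := by decide
  rw [d6] at d5
  exact orderOf_dvd_iff_pow_eq_one.mp d5

/-! ### The upper bound -/

theorem hct : ec * et = et * ec :=
  eq_of_tables (isTable_mul Tc Tt)
    (by rw [(by decide +kernel : mulTab tc tt = mulTab tt tc)]; exact isTable_mul Tt Tc)

theorem upper {Γ : Type} [Group Γ] [Finite Γ] (σ : Γ →* ↥(stabM [d0]))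
    (hσ : Cfsg.IsStemExtension σ) : ∃ q ∈ σ.ker, q ^ 2 = 1 ∧ ∀ k ∈ σ.ker, k = 1 ∨ k = q :=
  StemCover.ker_cases σ hσ 6 (fun z hz => pow64 σ hσ hz) ec et (el [d0] th2 in_h2)
    (el [d0] th3 in_h3) hc2 hct
    (conj_tab (isTable_el _ _ _) Tc Tt (by decide +kernel))
    (conj_tab (isTable_el _ _ _) Tc (isTable_mul Tc Tt) (by decide +kernel))
    (fun Δ _ _ τ hτ hK2 hG => exp2 τ hτ hK2 hG)

/-! ### The double cover -/

/-- The point of the dodecad of squares under a signed point. -/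
def bt : List ℕ := [0, 0, 1, 1, 2, 2, 3, 3, 4, 4, 6, 6, 8, 8, 9, 9, 12, 12, 13, 13, 16, 16, 18, 18]

/-- The point of the complementary dodecad under a signed point. -/
def bt2 : List ℕ := [5, 5, 7, 7, 10, 10, 11, 11, 14, 14, 15, 15, 17, 17, 19, 19, 20, 20, 21, 21, 22, 22, 23, 23]

/-- The rows of the sign matrix on signed points. -/
def hm : List ℕ := [5592405, 11184810, 6985305, 9791910, 6919590, 9857625, 5858985, 10918230, 5675685, 11101530, 5921130, 10856085, 6710886, 10066329, 6973845, 9803370, 5678490, 11098725, 6642330, 10134885, 5876310, 10900905, 6662505, 10114710]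

def bD (p : GolayPt) : GolayPt := pt (bt.getD (idx p) 0)

def bD2 (p : GolayPt) : GolayPt := pt (bt2.getD (idx p) 0)

def hH (p q : GolayPt) : Bool := (hm.getD (idx p) 0).testBit (idx q)

/-- Triples of a permutation preserving the dodecad and signed permutations of the two dodecads
above it, preserving the sign matrix. -/
def cover : Subgroup (↥(stabM [d0]) × Equiv.Perm GolayPt × Equiv.Perm GolayPt) where
  carrier := {x | (∀ p, bD (x.2.1 p) = (x.1 : Equiv.Perm GolayPt) (bD p)) ∧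
    (∀ p, bD2 (x.2.2 p) = (x.1 : Equiv.Perm GolayPt) (bD2 p)) ∧
    (∀ p q, hH (x.2.2 p) (x.2.1 q) = hH p q)}
  mul_mem' := by
    rintro x y ⟨hx1, hx2, hx3⟩ ⟨hy1, hy2, hy3⟩
    refine ⟨fun p => ?_, fun p => ?_, fun p q => ?_⟩
    · show bD (x.2.1 (y.2.1 p)) = (x.1 : Equiv.Perm GolayPt) ((y.1 : Equiv.Perm GolayPt) (bD p))
      rw [hx1, hy1]
    · show bD2 (x.2.2 (y.2.2 p))
        = (x.1 : Equiv.Perm GolayPt) ((y.1 : Equiv.Perm GolayPt) (bD2 p))
      rw [hx2, hy2]
    · show hH (x.2.2 (y.2.2 p)) (x.2.1 (y.2.1 q)) = hH p q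
      rw [hx3, hy3]
  one_mem' := ⟨fun _ => rfl, fun _ => rfl, fun _ _ => rfl⟩
  inv_mem' := by
    rintro x ⟨hx1, hx2, hx3⟩
    refine ⟨fun p => ?_, fun p => ?_, fun p q => ?_⟩
    · show bD (x.2.1.symm p) = (x.1 : Equiv.Perm GolayPt).symm (bD p)
      have h := hx1 (x.2.1.symm p)
      rw [Equiv.apply_symm_apply] at h
      exact ((Equiv.symm_apply_eq _).mpr h).symm
    · show bD2 (x.2.2.symm p) = (x.1 : Equiv.Perm GolayPt).symm (bD2 p)
      have h := hx2 (x.2.2.symm p)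
      rw [Equiv.apply_symm_apply] at h
      exact ((Equiv.symm_apply_eq _).mpr h).symm
    · show hH (x.2.2.symm p) (x.2.1.symm q) = hH p q
      have h := hx3 (x.2.2.symm p) (x.2.1.symm q)
      rw [Equiv.apply_symm_apply, Equiv.apply_symm_apply] at h
      exact h.symm

/-- The projection of the cover. -/
def coverHom : cover →* ↥(stabM [d0]) := (MonoidHom.fst _ _).comp cover.subtype

theorem bt_lt : ∀ i < 24, bt.getD i 0 < 24 := by decide +kernel
theorem bt2_lt : ∀ i < 24, bt2.getD i 0 < 24 := by decide +kernel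

theorem bt_fiber : ∀ i < 24, ∀ j < 24, bt.getD i 0 = bt.getD j 0 → i = j ∨ i = j ^^^ 1 := by
  decide +kernel

theorem bt2_fiber : ∀ i < 24, ∀ j < 24, bt2.getD i 0 = bt2.getD j 0 → i = j ∨ i = j ^^^ 1 := by
  decide +kernel

theorem hm_flip_row : ∀ i < 24, ∀ j < 24,
    (hm.getD (i ^^^ 1) 0).testBit j = !(hm.getD i 0).testBit j := by decide +kernel

theorem hm_flip_col : ∀ i < 24, ∀ j < 24,
    (hm.getD i 0).testBit (j ^^^ 1) = !(hm.getD i 0).testBit j := by decide +kernel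

/-- Test for membership of a triple of tables in the cover. -/
def covChk (lg l l2 : List ℕ) : Bool :=
  (List.range 24).all (fun i => bt.getD (l.getD i 0) 0 == lg.getD (bt.getD i 0) 0) &&
  (List.range 24).all (fun i => bt2.getD (l2.getD i 0) 0 == lg.getD (bt2.getD i 0) 0) &&
  (List.range 24).all (fun i => (List.range 24).all (fun j =>
    (hm.getD (l2.getD i 0) 0).testBit (l.getD j 0) == (hm.getD i 0).testBit j))

theorem mem_cover_of_tables (g : ↥(stabM [d0])) (γ γ' : Equiv.Perm GolayPt) (lg l l2 : List ℕ)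
    (hg : IsTable (g : Equiv.Perm GolayPt) lg) (hγ : IsTable γ l) (hγ' : IsTable γ' l2)
    (h : covChk lg l l2 = true) : (g, γ, γ') ∈ cover := by
  unfold covChk at h
  simp only [Bool.and_eq_true, List.all_eq_true, List.mem_range, beq_iff_eq] at h
  obtain ⟨⟨h1, h2⟩, h3⟩ := h
  refine ⟨fun p => ?_, fun p => ?_, fun p q => ?_⟩
  · show pt (bt.getD (idx (γ p)) 0) = (g : Equiv.Perm GolayPt) (pt (bt.getD (idx p) 0))
    rw [← hγ p, h1 _ (idx_lt p), apply_of_table hg (bt_lt _ (idx_lt p))]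
  · show pt (bt2.getD (idx (γ' p)) 0) = (g : Equiv.Perm GolayPt) (pt (bt2.getD (idx p) 0))
    rw [← hγ' p, h2 _ (idx_lt p), apply_of_table hg (bt2_lt _ (idx_lt p))]
  · show (hm.getD (idx (γ' p)) 0).testBit (idx (γ q)) = (hm.getD (idx p) 0).testBit (idx q)
    rw [← hγ' p, ← hγ q]
    exact h3 _ (idx_lt p) _ (idx_lt q)

theorem bnot_ne (b : Bool) : (!b) = b → False := by cases b <;> simp

/-- The elements of the kernel of the projection. -/
theorem ker_cover_cases (x : ↥(stabM [d0]) × Equiv.Perm GolayPt × Equiv.Perm GolayPt)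
    (hx : x ∈ cover) (h1 : x.1 = 1) :
    x = 1 ∨ ((∀ p, idx (x.2.1 p) = idx p ^^^ 1) ∧ (∀ p, idx (x.2.2 p) = idx p ^^^ 1)) := by
  obtain ⟨g, γ, γ'⟩ := x
  obtain ⟨hx1, hx2, hx3⟩ := hx
  have h1' : g = 1 := h1
  subst h1'
  have hA : ∀ p, idx (γ p) = idx p ∨ idx (γ p) = idx p ^^^ 1 := by
    intro p
    have h : bD (γ p) = bD p := hx1 p
    have h' := congrArg idx h
    unfold bD at h'
    rw [idx_pt (bt_lt _ (idx_lt _)), idx_pt (bt_lt _ (idx_lt _))] at h'
    exact bt_fiber _ (idx_lt _) _ (idx_lt _) h'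
  have hB : ∀ p, idx (γ' p) = idx p ∨ idx (γ' p) = idx p ^^^ 1 := by
    intro p
    have h : bD2 (γ' p) = bD2 p := hx2 p
    have h' := congrArg idx h
    unfold bD2 at h'
    rw [idx_pt (bt2_lt _ (idx_lt _)), idx_pt (bt2_lt _ (idx_lt _))] at h'
    exact bt2_fiber _ (idx_lt _) _ (idx_lt _) h'
  have hH' : ∀ p q, (hm.getD (idx (γ' p)) 0).testBit (idx (γ q))
      = (hm.getD (idx p) 0).testBit (idx q) := hx3
  have i0 : idx (pt 0) = 0 := idx_pt (by norm_num)
  rcases hA (pt 0) with h0 | h0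
  · left
    rw [i0] at h0
    have hγ' : ∀ p, γ' p = p := by
      intro p
      rcases hB p with h | h
      · exact idx_injective h
      · exfalso
        have e := hH' p (pt 0)
        rw [h0, h, i0, hm_flip_row _ (idx_lt p) 0 (by norm_num)] at e
        exact bnot_ne _ e
    have hγ : ∀ q, γ q = q := by
      intro q
      rcases hA q with h | h
      · exact idx_injective h
      · exfalso
        have e := hH' (pt 0) q
        rw [hγ' (pt 0), h, i0, hm_flip_col 0 (by norm_num) _ (idx_lt q)] at e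
        exact bnot_ne _ e
    exact Prod.ext rfl (Prod.ext (Equiv.ext hγ) (Equiv.ext hγ'))
  · right
    rw [i0] at h0
    have h01 : idx (γ (pt 0)) = 1 := h0
    have hγ' : ∀ p, idx (γ' p) = idx p ^^^ 1 := by
      intro p
      rcases hB p with h | h
      · exfalso
        have e := hH' p (pt 0)
        rw [h01, h, i0] at e
        have f := hm_flip_col _ (idx_lt p) 0 (by norm_num)
        have f' : (hm.getD (idx p) 0).testBit 1 = !(hm.getD (idx p) 0).testBit 0 := f
        rw [f'] at e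
        exact bnot_ne _ e
      · exact h
    have hγ : ∀ q, idx (γ q) = idx q ^^^ 1 := by
      intro q
      rcases hA q with h | h
      · exfalso
        have e := hH' (pt 0) q
        rw [hγ' (pt 0), i0, h, hm_flip_row 0 (by norm_num) _ (idx_lt q)] at e
        exact bnot_ne _ e
      · exact h
    exact ⟨hγ, hγ'⟩

theorem ker_central : coverHom.ker ≤ Subgroup.center cover := by
  intro k hk
  rw [Subgroup.mem_center_iff]
  intro y
  have hk1 : (k : ↥(stabM [d0]) × Equiv.Perm GolayPt × Equiv.Perm GolayPt).1 = 1 := hk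
  have hyk : ((y * k * y⁻¹ : cover) :
      ↥(stabM [d0]) × Equiv.Perm GolayPt × Equiv.Perm GolayPt).1 = 1 := by
    show (y : ↥(stabM [d0]) × Equiv.Perm GolayPt × Equiv.Perm GolayPt).1
      * (k : ↥(stabM [d0]) × Equiv.Perm GolayPt × Equiv.Perm GolayPt).1
      * (y : ↥(stabM [d0]) × Equiv.Perm GolayPt × Equiv.Perm GolayPt).1⁻¹ = 1
    rw [hk1, mul_one, mul_inv_cancel]
  have key : y * k * y⁻¹ = k := by
    rcases ker_cover_cases _ k.2 hk1 with h | ⟨h1, h2⟩
    · have hk' : k = 1 := Subtype.ext h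
      rw [hk', mul_one, mul_inv_cancel]
    · rcases ker_cover_cases _ (y * k * y⁻¹).2 hyk with h' | ⟨h1', h2'⟩
      · exfalso
        have h3 : y * k * y⁻¹ = 1 := Subtype.ext h'
        have hk' : k = 1 := mul_eq_left.mp (mul_inv_eq_one.mp h3)
        have h0 := h1 (pt 0)
        rw [hk'] at h0
        have e : ((1 : cover) : ↥(stabM [d0]) × Equiv.Perm GolayPt × Equiv.Perm GolayPt).2.1
            (pt 0) = pt 0 := rfl
        rw [e, idx_pt (by norm_num : 0 < 24)] at h0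
        exact absurd h0 (by decide)
      · apply Subtype.ext
        exact Prod.ext (hyk.trans hk1.symm)
          (Prod.ext (Equiv.ext fun p => idx_injective ((h1' p).trans (h1 p).symm))
            (Equiv.ext fun p => idx_injective ((h2' p).trans (h2 p).symm)))
  calc y * k = (y * k * y⁻¹) * y := by group
    _ = k * y := by rw [key]

/-! Lifts of generators and of two commuting involutions. -/

def lmt : List ℕ := [0, 1, 4, 5, 9, 8, 11, 10, 13, 12, 17, 16, 20, 21, 23, 22, 3, 2, 6, 7, 14, 15, 18, 19]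
def lmt2 : List ℕ := [5, 4, 8, 9, 16, 17, 21, 20, 0, 1, 3, 2, 7, 6, 11, 10, 12, 13, 15, 14, 18, 19, 22, 23]
def lD : List ℕ := [0, 1, 23, 22, 10, 11, 6, 7, 5, 4, 2, 3, 20, 21, 17, 16, 13, 12, 15, 14, 19, 18, 8, 9]
def lD2 : List ℕ := [19, 18, 0, 1, 3, 2, 14, 15, 13, 12, 10, 11, 7, 6, 21, 20, 4, 5, 16, 17, 9, 8, 22, 23]
def lZ : List ℕ := [6, 7, 16, 17, 18, 19, 1, 0, 20, 21, 15, 14, 23, 22, 10, 11, 3, 2, 5, 4, 9, 8, 12, 13]
def lZ2 : List ℕ := [15, 14, 7, 6, 13, 12, 2, 3, 17, 16, 23, 22, 4, 5, 0, 1, 8, 9, 21, 20, 18, 19, 10, 11]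
def lc : List ℕ := [6, 7, 20, 21, 8, 9, 1, 0, 5, 4, 12, 13, 11, 10, 19, 18, 22, 23, 14, 15, 3, 2, 17, 16]
def lc2 : List ℕ := [10, 11, 7, 6, 8, 9, 2, 3, 5, 4, 1, 0, 23, 22, 19, 18, 21, 20, 14, 15, 16, 17, 12, 13]
def lt : List ℕ := [2, 3, 1, 0, 14, 15, 21, 20, 18, 19, 17, 16, 22, 23, 5, 4, 10, 11, 9, 8, 6, 7, 13, 12]
def lt2 : List ℕ := [12, 13, 14, 15, 16, 17, 19, 18, 20, 21, 22, 23, 1, 0, 3, 2, 5, 4, 6, 7, 9, 8, 11, 10]

theorem g_lmt : tabGood lmt = true := by decide +kernel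
theorem g_lmt2 : tabGood lmt2 = true := by decide +kernel
theorem g_lD : tabGood lD = true := by decide +kernel
theorem g_lD2 : tabGood lD2 = true := by decide +kernel
theorem g_lZ : tabGood lZ = true := by decide +kernel
theorem g_lZ2 : tabGood lZ2 = true := by decide +kernel
theorem g_lc : tabGood lc = true := by decide +kernel
theorem g_lc2 : tabGood lc2 = true := by decide +kernel
theorem g_lt : tabGood lt = true := by decide +kernel
theorem g_lt2 : tabGood lt2 = true := by decide +kernel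

/-- The element of the cover with given tables. -/
def mkC (lg l l2 : List ℕ) (hg : tabIn [d0] lg = true) (hl : tabGood l = true)
    (hl2 : tabGood l2 = true) (h : covChk lg l l2 = true) : cover :=
  ⟨(el [d0] lg hg, tabPerm l hl, tabPerm l2 hl2),
    mem_cover_of_tables _ _ _ lg l l2 (isTable_el [d0] lg hg) (isTable_tabPerm l hl)
      (isTable_tabPerm l2 hl2) h⟩

theorem coverHom_surjective : Function.Surjective coverHom := by
  have hle : Subgroup.closure ({pY, cubeTwist, pZ12} : Set (Equiv.Perm GolayPt))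
      ≤ coverHom.range.map (Subgroup.subtype (stabM [d0])) := by
    rw [Subgroup.closure_le]
    intro q hq
    rcases hq with h | h | h
    · rw [h]
      exact ⟨el [d0] (mt 2) in_mt,
        ⟨mkC (mt 2) lmt lmt2 in_mt g_lmt g_lmt2 (by decide +kernel), rfl⟩,
        eq_of_isTable (isTable_el [d0] (mt 2) in_mt) isTable_pY⟩
    · rw [h]
      exact ⟨el [d0] tabD in_D,
        ⟨mkC tabD lD lD2 in_D g_lD g_lD2 (by decide +kernel), rfl⟩,
        eq_of_isTable (isTable_el [d0] tabD in_D) isTable_D⟩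
    · rw [Set.mem_singleton_iff] at h
      rw [h]
      exact ⟨el [d0] Z12 Z12_in,
        ⟨mkC Z12 lZ lZ2 Z12_in g_lZ g_lZ2 (by decide +kernel), rfl⟩,
        eq_of_isTable (isTable_el [d0] Z12 Z12_in) isTable_pZ12⟩
  intro x
  obtain ⟨y, hy, hyx⟩ := hle (m12g_gen x.2)
  obtain ⟨z, hz⟩ := hy
  exact ⟨z, hz.trans (Subtype.ext hyx)⟩

def cX : cover := mkC tc lc lc2 in_c g_lc g_lc2 (by decide +kernel)

def cY : cover := mkC tt lt lt2 in_t g_lt g_lt2 (by decide +kernel)

theorem comm_ne : cX * cY ≠ cY * cX := by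
  intro h
  have h2 : tabPerm lc g_lc * tabPerm lt g_lt = tabPerm lt g_lt * tabPerm lc g_lc :=
    congrArg (fun z : cover =>
      (z : ↥(stabM [d0]) × Equiv.Perm GolayPt × Equiv.Perm GolayPt).2.1) h
  have t1 := isTable_mulTab (isTable_tabPerm lc g_lc) (isTable_tabPerm lt g_lt)
  have t2 := isTable_mulTab (isTable_tabPerm lt g_lt) (isTable_tabPerm lc g_lc)
  have e : (mulTab lc lt).getD (idx (pt 0)) 0 = (mulTab lt lc).getD (idx (pt 0)) 0 := by
    rw [t1 (pt 0), t2 (pt 0), h2]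
  rw [idx_pt (by norm_num : 0 < 24)] at e
  exact absurd e (by decide +kernel)

/-- The Schur multiplier of the stabilizer of the dodecad of squares is cyclic of order 2. -/
theorem main' : Cfsg.HasCyclicSchurMultiplier ↥(stabM [d0]) 2 := by
  refine StemCover.hasCyclic_two (fun Γ _ _ σ hσ => upper σ hσ) coverHom coverHom_surjective
    ker_central ⁅cX, cY⁆ ?_ ?_ ?_
  · rw [MonoidHom.mem_ker, map_commutatorElement, commutatorElement_eq_one_iff_mul_comm]
    exact hct
  · rw [commutator_def]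
    exact Subgroup.commutator_mem_commutator (Subgroup.mem_top _) (Subgroup.mem_top _)
  · exact fun h => comm_ne (commutatorElement_eq_one_iff_mul_comm.mp h)

theorem main : Cfsg.HasCyclicSchurMultiplier ↥Cfsg.Spor.M12 2 :=
  StemCover.transport_eq M12_eq_stabM.symm main'

end Cfsg.Agent.Lib.helper27.M12S
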