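import Mathlib
import Cfsg.Agent.Lib.helper17.U32d
import Cfsg.Agent.Lib.helper2.SLCard
import Cfsg.Agent.Lib.helper28.GolaySimpleB
import Cfsg.Agent.Lib.helper27.GolayDual

set_option autoImplicit false

/-! The pointwise stabiliser of three points in the group of the length-24 code is `PSL(3, 4)`:
the special linear group over the field with four elements acts on the 21 other points as on the
points of the projective plane. -/

namespace Cfsg.Agent.Lib.helper27.M21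

open Cfsg
open Cfsg.Agent.Lib.helper17.SL33
open Cfsg.Agent.Lib.helper17.U32
open Cfsg.Agent.Lib.helper17.U33 (slEquiv3 slEquiv3_apply M3.mul_def M3.one_def)
open Cfsg.Agent.Lib.helper28

/-- code of a field element -/
def fc (x : F4) : ℕ := (if x.re then 1 else 0) + (if x.im then 2 else 0)

/-- a matrix applied to a vector -/
def mv (M : M3 F4) (v : F4 × F4 × F4) : F4 × F4 × F4 :=
  (M.a * v.1 + M.b * v.2.1 + M.c * v.2.2, M.d * v.1 + M.e * v.2.1 + M.f * v.2.2,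
    M.g * v.1 + M.h * v.2.1 + M.i * v.2.2)

/-- a scalar multiple of a vector -/
def sm (c : F4) (v : F4 × F4 × F4) : F4 × F4 × F4 := (c * v.1, c * v.2.1, c * v.2.2)

def pidxTab : List ℕ := [0, 2, 2, 2, 3, 17, 14, 5, 3, 5, 17, 14, 3, 14, 5, 17, 4, 13, 22, 16, 19, 6, 21, 7, 11, 8, 12, 18, 20, 10, 15, 9, 4, 16, 13, 22, 20, 9, 10, 15, 19, 7, 6, 21, 11, 18, 8, 12, 4, 22, 16, 13, 11, 12, 18, 8, 20, 15, 9, 10, 19, 21, 7, 6]

def vecTab : List (F4 × F4 × F4) := [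
  (⟨false, false⟩, ⟨false, false⟩, ⟨false, false⟩),
  (⟨false, false⟩, ⟨false, false⟩, ⟨false, false⟩),
  (⟨true, false⟩, ⟨false, false⟩, ⟨false, false⟩),
  (⟨false, false⟩, ⟨true, false⟩, ⟨false, false⟩),
  (⟨false, false⟩, ⟨false, false⟩, ⟨true, false⟩),
  (⟨true, false⟩, ⟨false, true⟩, ⟨false, false⟩),
  (⟨true, false⟩, ⟨true, false⟩, ⟨true, false⟩),
  (⟨true, false⟩, ⟨false, true⟩, ⟨false, true⟩),
  (⟨true, false⟩, ⟨false, true⟩, ⟨true, false⟩),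
  (⟨true, false⟩, ⟨true, false⟩, ⟨false, true⟩),
  (⟨true, false⟩, ⟨true, true⟩, ⟨true, false⟩),
  (⟨false, false⟩, ⟨true, false⟩, ⟨true, true⟩),
  (⟨true, false⟩, ⟨true, false⟩, ⟨true, true⟩),
  (⟨true, false⟩, ⟨false, false⟩, ⟨true, false⟩),
  (⟨true, false⟩, ⟨true, true⟩, ⟨false, false⟩),
  (⟨true, false⟩, ⟨false, true⟩, ⟨true, true⟩),
  (⟨true, false⟩, ⟨false, false⟩, ⟨false, true⟩),
  (⟨true, false⟩, ⟨true, false⟩, ⟨false, false⟩),
  (⟨true, false⟩, ⟨true, true⟩, ⟨false, true⟩),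
  (⟨false, false⟩, ⟨true, false⟩, ⟨true, false⟩),
  (⟨false, false⟩, ⟨true, false⟩, ⟨false, true⟩),
  (⟨true, false⟩, ⟨true, true⟩, ⟨true, true⟩),
  (⟨true, false⟩, ⟨false, false⟩, ⟨true, true⟩),
  (⟨false, false⟩, ⟨false, false⟩, ⟨false, false⟩)]

def mats : List (M3 F4) := [
  ⟨⟨true, false⟩, ⟨false, false⟩, ⟨false, false⟩, ⟨false, false⟩, ⟨true, false⟩, ⟨false, false⟩, ⟨false, false⟩, ⟨false, false⟩, ⟨true, false⟩⟩,
  ⟨⟨false, false⟩, ⟨false, false⟩, ⟨true, true⟩, ⟨true, false⟩, ⟨true, false⟩, ⟨false, true⟩, ⟨false, false⟩, ⟨false, true⟩, ⟨true, true⟩⟩,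
  ⟨⟨false, false⟩, ⟨true, false⟩, ⟨true, false⟩, ⟨false, false⟩, ⟨false, false⟩, ⟨true, false⟩, ⟨true, false⟩, ⟨true, true⟩, ⟨true, false⟩⟩,
  ⟨⟨true, false⟩, ⟨false, false⟩, ⟨false, true⟩, ⟨false, true⟩, ⟨true, false⟩, ⟨false, true⟩, ⟨false, false⟩, ⟨true, false⟩, ⟨false, false⟩⟩,
  ⟨⟨true, false⟩, ⟨true, false⟩, ⟨true, true⟩, ⟨true, false⟩, ⟨false, true⟩, ⟨false, true⟩, ⟨true, false⟩, ⟨true, true⟩, ⟨false, true⟩⟩,
  ⟨⟨true, false⟩, ⟨false, false⟩, ⟨false, false⟩, ⟨false, true⟩, ⟨false, true⟩, ⟨false, false⟩, ⟨false, true⟩, ⟨true, true⟩, ⟨true, true⟩⟩,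
  ⟨⟨true, false⟩, ⟨true, true⟩, ⟨true, true⟩, ⟨false, true⟩, ⟨false, true⟩, ⟨true, true⟩, ⟨true, false⟩, ⟨true, false⟩, ⟨false, false⟩⟩,
  ⟨⟨true, false⟩, ⟨false, false⟩, ⟨false, false⟩, ⟨true, false⟩, ⟨true, true⟩, ⟨false, false⟩, ⟨false, true⟩, ⟨true, true⟩, ⟨false, true⟩⟩,
  ⟨⟨true, false⟩, ⟨false, false⟩, ⟨true, true⟩, ⟨true, true⟩, ⟨false, true⟩, ⟨true, false⟩, ⟨true, false⟩, ⟨false, true⟩, ⟨true, true⟩⟩,
  ⟨⟨false, false⟩, ⟨true, true⟩, ⟨false, true⟩, ⟨true, false⟩, ⟨true, true⟩, ⟨true, true⟩, ⟨true, true⟩, ⟨true, false⟩, ⟨false, true⟩⟩,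
  ⟨⟨true, false⟩, ⟨true, true⟩, ⟨false, true⟩, ⟨true, false⟩, ⟨false, true⟩, ⟨true, true⟩, ⟨true, true⟩, ⟨true, false⟩, ⟨true, true⟩⟩,
  ⟨⟨true, false⟩, ⟨true, false⟩, ⟨true, false⟩, ⟨false, false⟩, ⟨false, false⟩, ⟨true, true⟩, ⟨true, false⟩, ⟨true, true⟩, ⟨true, true⟩⟩,
  ⟨⟨true, false⟩, ⟨false, false⟩, ⟨true, true⟩, ⟨true, true⟩, ⟨true, false⟩, ⟨true, true⟩, ⟨false, false⟩, ⟨false, true⟩, ⟨true, true⟩⟩,
  ⟨⟨true, false⟩, ⟨false, false⟩, ⟨true, false⟩, ⟨false, true⟩, ⟨false, true⟩, ⟨true, false⟩, ⟨true, true⟩, ⟨false, true⟩, ⟨true, true⟩⟩,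
  ⟨⟨true, false⟩, ⟨false, true⟩, ⟨false, true⟩, ⟨false, false⟩, ⟨true, true⟩, ⟨true, false⟩, ⟨false, true⟩, ⟨true, false⟩, ⟨false, true⟩⟩,
  ⟨⟨true, false⟩, ⟨true, false⟩, ⟨false, true⟩, ⟨true, false⟩, ⟨false, true⟩, ⟨false, true⟩, ⟨false, false⟩, ⟨true, true⟩, ⟨false, true⟩⟩,
  ⟨⟨true, false⟩, ⟨false, false⟩, ⟨true, true⟩, ⟨true, true⟩, ⟨true, false⟩, ⟨false, false⟩, ⟨false, true⟩, ⟨false, true⟩, ⟨true, true⟩⟩,
  ⟨⟨false, false⟩, ⟨false, true⟩, ⟨false, true⟩, ⟨true, false⟩, ⟨false, true⟩, ⟨false, true⟩, ⟨true, false⟩, ⟨true, false⟩, ⟨false, true⟩⟩,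
  ⟨⟨false, false⟩, ⟨false, true⟩, ⟨true, false⟩, ⟨true, false⟩, ⟨false, false⟩, ⟨false, true⟩, ⟨false, true⟩, ⟨false, true⟩, ⟨true, false⟩⟩,
  ⟨⟨true, false⟩, ⟨false, true⟩, ⟨true, false⟩, ⟨true, true⟩, ⟨false, true⟩, ⟨true, true⟩, ⟨true, true⟩, ⟨true, true⟩, ⟨true, false⟩⟩,
  ⟨⟨true, false⟩, ⟨false, true⟩, ⟨true, true⟩, ⟨false, false⟩, ⟨false, true⟩, ⟨true, false⟩, ⟨true, true⟩, ⟨true, true⟩, ⟨false, false⟩⟩,
  ⟨⟨true, false⟩, ⟨false, false⟩, ⟨false, false⟩, ⟨false, false⟩, ⟨true, false⟩, ⟨false, false⟩, ⟨false, false⟩, ⟨false, false⟩, ⟨true, false⟩⟩,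
  ⟨⟨true, false⟩, ⟨false, false⟩, ⟨true, false⟩, ⟨false, false⟩, ⟨false, false⟩, ⟨true, true⟩, ⟨false, false⟩, ⟨false, true⟩, ⟨true, false⟩⟩,
  ⟨⟨true, false⟩, ⟨true, false⟩, ⟨true, true⟩, ⟨false, false⟩, ⟨false, true⟩, ⟨false, true⟩, ⟨false, false⟩, ⟨false, false⟩, ⟨true, true⟩⟩,
  ⟨⟨true, false⟩, ⟨false, true⟩, ⟨false, true⟩, ⟨false, false⟩, ⟨false, true⟩, ⟨true, false⟩, ⟨false, false⟩, ⟨false, true⟩, ⟨false, true⟩⟩,
  ⟨⟨true, false⟩, ⟨true, false⟩, ⟨true, false⟩, ⟨false, false⟩, ⟨false, true⟩, ⟨true, false⟩, ⟨false, false⟩, ⟨false, true⟩, ⟨false, true⟩⟩,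
  ⟨⟨true, false⟩, ⟨true, true⟩, ⟨false, true⟩, ⟨false, false⟩, ⟨true, false⟩, ⟨false, false⟩, ⟨false, false⟩, ⟨true, true⟩, ⟨true, false⟩⟩,
  ⟨⟨true, false⟩, ⟨true, true⟩, ⟨false, true⟩, ⟨false, false⟩, ⟨true, true⟩, ⟨true, true⟩, ⟨false, false⟩, ⟨true, false⟩, ⟨true, true⟩⟩,
  ⟨⟨true, false⟩, ⟨false, true⟩, ⟨false, true⟩, ⟨false, false⟩, ⟨true, false⟩, ⟨true, true⟩, ⟨false, false⟩, ⟨false, true⟩, ⟨false, false⟩⟩,
  ⟨⟨true, false⟩, ⟨false, false⟩, ⟨true, false⟩, ⟨false, false⟩, ⟨true, true⟩, ⟨true, false⟩, ⟨false, false⟩, ⟨false, true⟩, ⟨true, false⟩⟩,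
  ⟨⟨true, false⟩, ⟨true, true⟩, ⟨true, true⟩, ⟨false, false⟩, ⟨true, true⟩, ⟨true, false⟩, ⟨false, false⟩, ⟨false, true⟩, ⟨true, false⟩⟩,
  ⟨⟨true, false⟩, ⟨true, false⟩, ⟨true, false⟩, ⟨false, false⟩, ⟨false, false⟩, ⟨true, false⟩, ⟨false, false⟩, ⟨true, false⟩, ⟨true, false⟩⟩,
  ⟨⟨true, false⟩, ⟨false, true⟩, ⟨false, false⟩, ⟨false, false⟩, ⟨true, false⟩, ⟨false, false⟩, ⟨false, false⟩, ⟨false, false⟩, ⟨true, false⟩⟩,
  ⟨⟨true, false⟩, ⟨true, false⟩, ⟨true, false⟩, ⟨false, false⟩, ⟨false, true⟩, ⟨false, false⟩, ⟨false, false⟩, ⟨true, true⟩, ⟨true, true⟩⟩,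
  ⟨⟨true, false⟩, ⟨true, true⟩, ⟨true, false⟩, ⟨false, false⟩, ⟨false, false⟩, ⟨true, false⟩, ⟨false, false⟩, ⟨true, false⟩, ⟨true, false⟩⟩,
  ⟨⟨true, false⟩, ⟨false, true⟩, ⟨false, false⟩, ⟨false, false⟩, ⟨false, true⟩, ⟨false, true⟩, ⟨false, false⟩, ⟨false, false⟩, ⟨true, true⟩⟩,
  ⟨⟨true, false⟩, ⟨false, true⟩, ⟨false, false⟩, ⟨false, false⟩, ⟨true, false⟩, ⟨false, false⟩, ⟨false, false⟩, ⟨true, true⟩, ⟨true, false⟩⟩,
  ⟨⟨true, false⟩, ⟨false, false⟩, ⟨true, true⟩, ⟨false, false⟩, ⟨true, false⟩, ⟨true, false⟩, ⟨false, false⟩, ⟨true, false⟩, ⟨false, false⟩⟩,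
  ⟨⟨true, false⟩, ⟨false, false⟩, ⟨true, true⟩, ⟨false, false⟩, ⟨true, false⟩, ⟨true, true⟩, ⟨false, false⟩, ⟨false, true⟩, ⟨false, false⟩⟩,
  ⟨⟨true, false⟩, ⟨false, true⟩, ⟨true, true⟩, ⟨false, false⟩, ⟨true, false⟩, ⟨true, false⟩, ⟨false, false⟩, ⟨true, false⟩, ⟨false, false⟩⟩,
  ⟨⟨true, false⟩, ⟨true, true⟩, ⟨false, true⟩, ⟨false, false⟩, ⟨false, false⟩, ⟨true, true⟩, ⟨false, false⟩, ⟨false, true⟩, ⟨true, false⟩⟩,
  ⟨⟨true, false⟩, ⟨false, false⟩, ⟨false, false⟩, ⟨false, false⟩, ⟨true, false⟩, ⟨false, false⟩, ⟨false, false⟩, ⟨false, false⟩, ⟨true, false⟩⟩,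
  ⟨⟨true, false⟩, ⟨false, false⟩, ⟨false, true⟩, ⟨false, false⟩, ⟨true, true⟩, ⟨false, true⟩, ⟨false, false⟩, ⟨false, false⟩, ⟨false, true⟩⟩,
  ⟨⟨true, false⟩, ⟨false, false⟩, ⟨true, false⟩, ⟨false, false⟩, ⟨true, true⟩, ⟨false, true⟩, ⟨false, false⟩, ⟨false, false⟩, ⟨false, true⟩⟩,
  ⟨⟨true, false⟩, ⟨false, false⟩, ⟨true, false⟩, ⟨false, false⟩, ⟨true, false⟩, ⟨false, true⟩, ⟨false, false⟩, ⟨false, false⟩, ⟨true, false⟩⟩,
  ⟨⟨true, false⟩, ⟨false, false⟩, ⟨false, true⟩, ⟨false, false⟩, ⟨false, true⟩, ⟨false, true⟩, ⟨false, false⟩, ⟨false, false⟩, ⟨true, true⟩⟩,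
  ⟨⟨true, false⟩, ⟨false, false⟩, ⟨true, true⟩, ⟨false, false⟩, ⟨false, true⟩, ⟨false, true⟩, ⟨false, false⟩, ⟨false, false⟩, ⟨true, true⟩⟩,
  ⟨⟨true, false⟩, ⟨false, false⟩, ⟨false, false⟩, ⟨false, false⟩, ⟨true, true⟩, ⟨true, true⟩, ⟨false, false⟩, ⟨false, false⟩, ⟨false, true⟩⟩,
  ⟨⟨true, false⟩, ⟨false, false⟩, ⟨true, true⟩, ⟨false, false⟩, ⟨true, true⟩, ⟨true, true⟩, ⟨false, false⟩, ⟨false, false⟩, ⟨false, true⟩⟩,
  ⟨⟨true, false⟩, ⟨false, false⟩, ⟨true, false⟩, ⟨false, false⟩, ⟨true, false⟩, ⟨false, false⟩, ⟨false, false⟩, ⟨false, false⟩, ⟨true, false⟩⟩,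
  ⟨⟨true, false⟩, ⟨false, false⟩, ⟨true, false⟩, ⟨false, false⟩, ⟨false, true⟩, ⟨false, true⟩, ⟨false, false⟩, ⟨false, false⟩, ⟨true, true⟩⟩,
  ⟨⟨true, false⟩, ⟨false, false⟩, ⟨true, true⟩, ⟨false, false⟩, ⟨true, false⟩, ⟨false, false⟩, ⟨false, false⟩, ⟨false, false⟩, ⟨true, false⟩⟩,
  ⟨⟨true, false⟩, ⟨false, false⟩, ⟨true, true⟩, ⟨false, false⟩, ⟨true, false⟩, ⟨false, true⟩, ⟨false, false⟩, ⟨false, false⟩, ⟨true, false⟩⟩,
  ⟨⟨true, false⟩, ⟨false, false⟩, ⟨false, false⟩, ⟨false, false⟩, ⟨true, true⟩, ⟨false, true⟩, ⟨false, false⟩, ⟨false, false⟩, ⟨false, true⟩⟩,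
  ⟨⟨true, false⟩, ⟨false, false⟩, ⟨false, false⟩, ⟨false, false⟩, ⟨false, true⟩, ⟨false, true⟩, ⟨false, false⟩, ⟨false, false⟩, ⟨true, true⟩⟩,
  ⟨⟨true, false⟩, ⟨false, false⟩, ⟨true, true⟩, ⟨false, false⟩, ⟨true, true⟩, ⟨false, true⟩, ⟨false, false⟩, ⟨false, false⟩, ⟨false, true⟩⟩,
  ⟨⟨true, false⟩, ⟨false, false⟩, ⟨false, true⟩, ⟨false, false⟩, ⟨true, false⟩, ⟨false, false⟩, ⟨false, false⟩, ⟨false, false⟩, ⟨true, false⟩⟩,
  ⟨⟨true, false⟩, ⟨false, false⟩, ⟨false, false⟩, ⟨false, false⟩, ⟨true, false⟩, ⟨false, false⟩, ⟨false, false⟩, ⟨false, false⟩, ⟨true, false⟩⟩,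
  ⟨⟨true, false⟩, ⟨false, false⟩, ⟨false, false⟩, ⟨false, false⟩, ⟨false, true⟩, ⟨false, false⟩, ⟨false, false⟩, ⟨false, false⟩, ⟨true, true⟩⟩,
  ⟨⟨true, false⟩, ⟨false, false⟩, ⟨false, false⟩, ⟨false, false⟩, ⟨true, true⟩, ⟨false, false⟩, ⟨false, false⟩, ⟨false, false⟩, ⟨false, true⟩⟩]

/-- the index of the point of the plane spanned by a vector -/
def pidx (v : F4 × F4 × F4) : ℕ := pidxTab.getD (fc v.1 + 4 * fc v.2.1 + 16 * fc v.2.2) 0

/-- the vector of an index -/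
def vecOf (j : ℕ) : F4 × F4 × F4 := vecTab.getD j (0, 0, 0)

/-- the scalar normalising a vector -/
def coef (v : F4 × F4 × F4) : F4 :=
  if v.1 ≠ 0 then v.1⁻¹ else if v.2.1 ≠ 0 then v.2.1⁻¹ else v.2.2⁻¹

/-- the three fixed indices -/
def fixedIdx (j : ℕ) : Bool := j == 0 || j == 1 || j == 23

/-- the action of a matrix on indices -/
def actIdx (M : M3 F4) (j : ℕ) : ℕ := if fixedIdx j then j else pidx (mv M (vecOf j))

theorem L1 : ∀ x y z : F4, (x, y, z) ≠ ((0, 0, 0) : F4 × F4 × F4) →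
    coef (x, y, z) ≠ 0 ∧ vecOf (pidx (x, y, z)) = sm (coef (x, y, z)) (x, y, z) ∧
      pidx (x, y, z) < 24 ∧ fixedIdx (pidx (x, y, z)) = false := by decide

theorem L2 : ∀ c x y z : F4, c ≠ 0 → pidx (sm c (x, y, z)) = pidx (x, y, z) := by decide

theorem L3 : ∀ j < 24, fixedIdx j = false →
    vecOf j ≠ ((0, 0, 0) : F4 × F4 × F4) ∧ pidx (vecOf j) = j := by decide

theorem L4 : ∀ c : F4, c ≠ 0 → ∀ j < 24, actIdx ⟨c, 0, 0, 0, c, 0, 0, 0, c⟩ j = j := by decide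

theorem mv_mul (M N : M3 F4) (v : F4 × F4 × F4) : mv (M * N) v = mv M (mv N v) := by
  rw [M3.mul_def]
  simp only [mv]
  refine Prod.ext ?_ (Prod.ext ?_ ?_) <;> ring

theorem mv_sm (M : M3 F4) (c : F4) (v : F4 × F4 × F4) : mv M (sm c v) = sm c (mv M v) := by
  simp only [mv, sm]
  refine Prod.ext ?_ (Prod.ext ?_ ?_) <;> ring

theorem mv_one (v : F4 × F4 × F4) : mv 1 v = v := by
  rw [M3.one_def]
  simp only [mv]
  refine Prod.ext ?_ (Prod.ext ?_ ?_) <;> simp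

theorem mv_zero (M : M3 F4) : mv M (0, 0, 0) = (0, 0, 0) := by
  simp only [mv]
  refine Prod.ext ?_ (Prod.ext ?_ ?_) <;> simp

/-- the concrete special linear group -/
abbrev SLc : Type := Matrix.SpecialLinearGroup (Fin 3) F4

theorem mv_ne_zero (A : SLc) {v : F4 × F4 × F4} (hv : v ≠ (0, 0, 0)) :
    mv (enc3 A) v ≠ (0, 0, 0) := by
  intro h
  apply hv
  have h1 : mv (enc3 (A⁻¹ * A)) v = mv (enc3 A⁻¹) (mv (enc3 A) v) := by
    rw [enc3_mul, mv_mul]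
  rw [h, mv_zero, inv_mul_cancel, enc3_one, mv_one] at h1
  exact h1

theorem pidx_sm {c : F4} (hc : c ≠ 0) (v : F4 × F4 × F4) : pidx (sm c v) = pidx v := by
  obtain ⟨x, y, z⟩ := v
  exact L2 c x y z hc

theorem L1' {v : F4 × F4 × F4} (hv : v ≠ (0, 0, 0)) :
    coef v ≠ 0 ∧ vecOf (pidx v) = sm (coef v) v ∧ pidx v < 24 ∧ fixedIdx (pidx v) = false := by
  obtain ⟨x, y, z⟩ := v
  exact L1 x y z hv

theorem actIdx_lt (A : SLc) {j : ℕ} (hj : j < 24) : actIdx (enc3 A) j < 24 := by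
  unfold actIdx
  split_ifs with h
  · exact hj
  · have h' : fixedIdx j = false := by simpa using h
    exact (L1' (mv_ne_zero A (L3 j hj h').1)).2.2.1

theorem actIdx_fixed (A : SLc) {j : ℕ} (hj : j < 24) :
    fixedIdx (actIdx (enc3 A) j) = fixedIdx j := by
  unfold actIdx
  split_ifs with h
  · rfl
  · have h' : fixedIdx j = false := by simpa using h
    rw [h']
    exact (L1' (mv_ne_zero A (L3 j hj h').1)).2.2.2

theorem actIdx_of_not_fixed (M : M3 F4) {k : ℕ} (hk : fixedIdx k = false) :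
    actIdx M k = pidx (mv M (vecOf k)) := by
  unfold actIdx
  rw [hk]
  rfl

theorem actIdx_mul (A B : SLc) {j : ℕ} (hj : j < 24) :
    actIdx (enc3 (A * B)) j = actIdx (enc3 A) (actIdx (enc3 B) j) := by
  by_cases h : fixedIdx j = true
  · have h1 : ∀ M : M3 F4, actIdx M j = j := fun M => by unfold actIdx; rw [if_pos h]
    rw [h1, h1, h1]
  · have h' : fixedIdx j = false := by simpa using h
    have hB := actIdx_fixed B hj
    rw [h'] at hB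
    rw [actIdx_of_not_fixed _ hB, actIdx_of_not_fixed _ h', actIdx_of_not_fixed _ h', enc3_mul,
      mv_mul]
    obtain ⟨hc, hv, -, -⟩ := L1' (mv_ne_zero B (L3 j hj h').1)
    rw [hv, mv_sm, pidx_sm hc]

theorem actIdx_one {j : ℕ} (hj : j < 24) : actIdx 1 j = j := by
  have h := L4 1 (by decide) j hj
  rwa [← M3.one_def] at h

/-- the action on the points -/
def actP (A : SLc) (p : GolayPt) : GolayPt := pt (actIdx (enc3 A) (idx p))

theorem actP_one (p : GolayPt) : actP 1 p = p := by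
  unfold actP
  rw [enc3_one, actIdx_one (idx_lt p), pt_idx]

theorem actP_mul (A B : SLc) (p : GolayPt) : actP (A * B) p = actP A (actP B p) := by
  unfold actP
  rw [actIdx_mul A B (idx_lt p), idx_pt (actIdx_lt B (idx_lt p))]

/-- the action as a structure -/
@[instance_reducible]
def mact : MulAction SLc GolayPt where
  smul := actP
  one_smul := actP_one
  mul_smul := actP_mul

/-- the permutation representation -/
def phi : SLc →* Equiv.Perm GolayPt := @MulAction.toPermHom SLc GolayPt _ mact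

theorem phi_apply (A : SLc) (p : GolayPt) : phi A p = actP A p := rfl

theorem isTable_phi (A : SLc) (l : List ℕ) (h : ∀ i < 24, actIdx (enc3 A) i = l.getD i 0) :
    IsTable (phi A) l := by
  intro p
  rw [phi_apply]
  unfold actP
  rw [idx_pt (actIdx_lt A (idx_lt p)), h _ (idx_lt p)]

/-- the check of a matrix against a table -/
def chk (M : M3 F4) (l : List ℕ) : Bool :=
  ((List.range 24).all fun i => actIdx M i == l.getD i 0) && decide (det3 M = 1)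

/-- the check of all the tables of the chain -/
def certOK : Bool := (n22Chain.drop 3).all fun c => c.2.2.all fun l => mats.any fun M => chk M l

theorem cert : certOK = true := by decide +kernel

theorem cert_spec : ∀ c ∈ n22Chain.drop 3, ∀ l ∈ c.2.2, ∃ g ∈ phi.range, IsTable g l := by
  intro c hc l hl
  have h := cert
  unfold certOK at h
  rw [List.all_eq_true] at h
  have h1 := h c hc
  rw [List.all_eq_true] at h1
  have h2 := h1 l hl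
  rw [List.any_eq_true] at h2
  obtain ⟨M, -, hM⟩ := h2
  unfold chk at hM
  rw [Bool.and_eq_true, List.all_eq_true, decide_eq_true_eq] at hM
  obtain ⟨hM1, hdet⟩ := hM
  refine ⟨phi (dec3g M hdet), ⟨_, rfl⟩, isTable_phi _ l ?_⟩
  intro i hi
  rw [enc3_dec3g]
  exact beq_iff_eq.mp (hM1 i (List.mem_range.mpr hi))

/-- the stabiliser of the three points -/
abbrev K3 : Subgroup (Equiv.Perm GolayPt) := stabM [2 ^ 23, 2 ^ 1, 2 ^ 0]

theorem chain3 : chainGen [2 ^ 23, 2 ^ 1, 2 ^ 0] (n22Chain.drop 3) = true ∧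
    Nat.card K3 ≤ chainProd (n22Chain.drop 3) := by
  have h := chain_drop_card 3 n22Chain [] n22Chain_ok n22_card_le
  have h3 : chainInv [] (n22Chain.take 3) = [2 ^ 23, 2 ^ 1, 2 ^ 0] := rfl
  rw [h3] at h
  exact h

theorem prod3 : chainProd (n22Chain.drop 3) = 20160 := by decide +kernel

theorem card_K3 : Nat.card K3 = 20160 := by
  rw [chain_card_eq chain3.1 chain3.2, prod3]

theorem K3_le : K3 ≤ phi.range := by
  have h := chainProd_le_card phi.range (n22Chain.drop 3) [2 ^ 23, 2 ^ 1, 2 ^ 0] chain3.1 cert_spec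
  rw [prod3, ← card_K3] at h
  have h1 : (phi.range ⊓ K3 : Subgroup (Equiv.Perm GolayPt)) = K3 :=
    Subgroup.eq_of_le_of_card_ge inf_le_right h
  rw [← h1]
  exact inf_le_left

theorem card_SLc : Nat.card SLc = 60480 := by
  have h := Cfsg.Agent.Lib.helper2.SLCard.card_SL F4 3 (by norm_num)
  rw [F4.card, Fin.prod_univ_three] at h
  have h2 : 3 * Nat.card SLc = 181440 := h
  omega

theorem card_center : Nat.card (Subgroup.center SLc) = 3 := by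
  have h := Cfsg.Agent.Lib.helper2.SLCard.card_center_SL F4 3 (by norm_num)
  rw [F4.card] at h
  exact h

theorem center_le : Subgroup.center SLc ≤ phi.ker := by
  intro A hA
  rw [Matrix.SpecialLinearGroup.mem_center_iff] at hA
  obtain ⟨r, hr, hA⟩ := hA
  have hr0 : r ≠ 0 := by
    rintro rfl
    simp at hr
  have henc : enc3 A = ⟨r, 0, 0, 0, r, 0, 0, 0, r⟩ := by
    unfold enc3
    have hval : ∀ i j : Fin 3, A i j = (Matrix.scalar (Fin 3) r) i j := by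
      intro i j; rw [hA]
    rw [hval, hval, hval, hval, hval, hval, hval, hval, hval]
    simp [Matrix.scalar_apply]
  rw [MonoidHom.mem_ker]
  apply Equiv.ext
  intro p
  rw [phi_apply]
  unfold actP
  rw [henc, L4 r hr0 _ (idx_lt p), pt_idx]
  rfl

theorem card_split : Nat.card phi.ker = 3 ∧ Nat.card phi.range = 20160 := by
  have h1 := Subgroup.card_eq_card_quotient_mul_card_subgroup phi.ker
  rw [Nat.card_congr (QuotientGroup.quotientKerEquivRange phi).toEquiv, card_SLc] at h1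
  have h2 : 3 ≤ Nat.card phi.ker := by
    have h := Subgroup.card_le_of_le center_le
    rwa [card_center] at h
  have h3 : 20160 ≤ Nat.card phi.range := by
    rw [← card_K3]
    exact Subgroup.card_le_of_le K3_le
  have h4 : Nat.card phi.ker ≤ 3 := by
    by_contra hlt
    rw [not_le] at hlt
    have : 4 * 20160 ≤ Nat.card phi.range * Nat.card phi.ker := by
      calc 4 * 20160 = 20160 * 4 := by norm_num
        _ ≤ Nat.card phi.range * Nat.card phi.ker := Nat.mul_le_mul h3 hlt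
    omega
  have h5 : Nat.card phi.ker = 3 := le_antisymm h4 h2
  rw [h5] at h1
  exact ⟨h5, by omega⟩

theorem ker_eq : phi.ker = Subgroup.center SLc := by
  symm
  apply Subgroup.eq_of_le_of_card_ge center_le
  rw [card_split.1, card_center]

theorem range_eq : phi.range = K3 := by
  symm
  apply Subgroup.eq_of_le_of_card_ge K3_le
  rw [card_split.2, card_K3]

/-- the concrete isomorphism -/
noncomputable def isoK : Matrix.ProjectiveSpecialLinearGroup (Fin 3) F4 ≃* K3 :=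
  ((QuotientGroup.quotientMulEquivOfEq ker_eq.symm).trans
    (QuotientGroup.quotientKerEquivRange phi)).trans (MulEquiv.subgroupCongr range_eq)

end Cfsg.Agent.Lib.helper27.M21
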