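import Mathlib
import Cfsg.Agent.Lib.helper27.M21A

set_option autoImplicit false

/-! The three-point stabiliser in the group of the length-24 code and `PSL(3, F)`, `|F| = 4`. -/

namespace Cfsg.Agent.Lib.helper27.M21

open Cfsg
open Cfsg.Agent.Lib.helper17.SL33
open Cfsg.Agent.Lib.helper17.U32
open Cfsg.Agent.Lib.helper17.U33 (slEquiv3 slEquiv3_apply M3.mul_def M3.one_def)
open Cfsg.Agent.Lib.helper28

theorem mem_K3 {g : Equiv.Perm GolayPt} :
    g ∈ K3 ↔ g ∈ M24 ∧ g (pt 0) = pt 0 ∧ g (pt 1) = pt 1 ∧ g (pt 23) = pt 23 := by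
  rw [mem_stabM_cons_pt (by norm_num), mem_stabM_cons_pt (by norm_num),
    mem_stabM_cons_pt (by norm_num), stabM_nil]
  tauto

theorem mem_S3 {p q r : GolayPt} {s : ↥M24} :
    s ∈ MulAction.stabilizer M24 p ⊓ MulAction.stabilizer M24 q ⊓ MulAction.stabilizer M24 r ↔
      s.1 p = p ∧ s.1 q = q ∧ s.1 r = r := by
  simp only [Subgroup.mem_inf, MulAction.mem_stabilizer_iff, Subgroup.smul_def,
    Equiv.Perm.smul_def]
  tauto

/-- conjugation moves the stabiliser of three points to that of the three base points -/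
noncomputable def conjIso (g0 : Equiv.Perm GolayPt) (hg0 : g0 ∈ M24) (p q r : GolayPt)
    (h1 : g0 p = pt 0) (h2 : g0 q = pt 1) (h3 : g0 r = pt 23) :
    ↥(MulAction.stabilizer M24 p ⊓ MulAction.stabilizer M24 q ⊓ MulAction.stabilizer M24 r) ≃*
      K3 where
  toFun s := ⟨g0 * s.1.1 * g0⁻¹, by
    have hs := mem_S3.mp s.2
    have i1 : g0⁻¹ (pt 0) = p := by rw [← h1]; simp
    have i2 : g0⁻¹ (pt 1) = q := by rw [← h2]; simp
    have i3 : g0⁻¹ (pt 23) = r := by rw [← h3]; simp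
    rw [mem_K3]
    refine ⟨M24.mul_mem (M24.mul_mem hg0 s.1.2) (M24.inv_mem hg0), ?_, ?_, ?_⟩
    · rw [Equiv.Perm.mul_apply, Equiv.Perm.mul_apply, i1, hs.1, h1]
    · rw [Equiv.Perm.mul_apply, Equiv.Perm.mul_apply, i2, hs.2.1, h2]
    · rw [Equiv.Perm.mul_apply, Equiv.Perm.mul_apply, i3, hs.2.2, h3]⟩
  invFun k := ⟨⟨g0⁻¹ * k.1 * g0, by
      have hk := mem_K3.mp k.2
      exact M24.mul_mem (M24.mul_mem (M24.inv_mem hg0) hk.1) hg0⟩, by
    have hk := mem_K3.mp k.2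
    rw [mem_S3]
    refine ⟨?_, ?_, ?_⟩
    · show (g0⁻¹ * k.1 * g0) p = p
      rw [Equiv.Perm.mul_apply, Equiv.Perm.mul_apply, h1, hk.2.1, ← h1]; simp
    · show (g0⁻¹ * k.1 * g0) q = q
      rw [Equiv.Perm.mul_apply, Equiv.Perm.mul_apply, h2, hk.2.2.1, ← h2]; simp
    · show (g0⁻¹ * k.1 * g0) r = r
      rw [Equiv.Perm.mul_apply, Equiv.Perm.mul_apply, h3, hk.2.2.2, ← h3]; simp⟩
  left_inv s := by
    apply Subtype.ext
    apply Subtype.ext
    show g0⁻¹ * (g0 * s.1.1 * g0⁻¹) * g0 = s.1.1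
    group
  right_inv k := by
    apply Subtype.ext
    show g0 * (g0⁻¹ * k.1 * g0) * g0⁻¹ = k.1
    group
  map_mul' a b := by
    apply Subtype.ext
    show g0 * (a.1.1 * b.1.1) * g0⁻¹ = g0 * a.1.1 * g0⁻¹ * (g0 * b.1.1 * g0⁻¹)
    group

theorem main (p q r : GolayPt) (hpq : p ≠ q) (hpr : p ≠ r) (hqr : q ≠ r) (F : Type) [Field F]
    [Fintype F] (hF : Fintype.card F = 4) :
    Nonempty (↥(MulAction.stabilizer Cfsg.M24 p ⊓ MulAction.stabilizer Cfsg.M24 q ⊓
      MulAction.stabilizer Cfsg.M24 r) ≃* Matrix.ProjectiveSpecialLinearGroup (Fin 3) F) := by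
  have e : F ≃+* F4 := FiniteField.ringEquivOfCardEq (by rw [hF, F4.card])
  obtain ⟨s, hs⟩ : ∃ s : GolayPt, s ∉ ({p, q, r} : Finset GolayPt) := by
    by_contra hcon
    rw [not_exists] at hcon
    have h1 : (Finset.univ : Finset GolayPt) ⊆ {p, q, r} := fun s _ => not_not.mp (hcon s)
    have h2 := Finset.card_le_card h1
    have h3 : ({p, q, r} : Finset GolayPt).card ≤ 3 := Finset.card_le_three
    rw [card_univ_GolayPt] at h2
    omega
  simp only [Finset.mem_insert, Finset.mem_singleton, not_or] at hs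
  obtain ⟨hsp, hsq, hsr⟩ := hs
  obtain ⟨g0, hg0, h1, h2, h3, -⟩ := Cfsg.Agent.Lib.helper27.exists_mem_M24_apply₄ (p1 := p)
    (p2 := q) (p3 := r) (p4 := s) (q1 := pt 0) (q2 := pt 1) (q3 := pt 23) (q4 := pt 2)
    (by
      simp only [List.nodup_cons, List.mem_cons, List.not_mem_nil, or_false, not_or,
        not_false_eq_true, List.nodup_nil, and_true]
      exact ⟨⟨hpq, hpr, fun h => hsp h.symm⟩, ⟨hqr, fun h => hsq h.symm⟩, fun h => hsr h.symm⟩)
    (by decide)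
  exact ⟨(conjIso g0 hg0 p q r h1 h2 h3).trans
    (isoK.symm.trans (quotCenterEquiv (slEquiv3 e)).symm)⟩

end Cfsg.Agent.Lib.helper27.M21
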