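import Cfsg.Agent.Lib.helper27.MSchurBase

set_option autoImplicit false

/-! Every finite stem extension of the point stabilizer in the group of the length-24 binary code
(the Mathieu group of degree 23) has trivial kernel.  Odd part: transfer to cyclic subgroups of
orders 5, 7, 11, 23 and to an elementary abelian subgroup of order 9.  2-part: reduction to
kernels of exponent two; all involutions lift to involutions; transfer to a Sylow 2-subgroup. -/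

namespace Cfsg.Agent.Lib.helper27.M23S

open Cfsg Cfsg.Agent.Lib.helper28 Cfsg.Agent.Lib.helper27 Cfsg.Agent.Lib.helper27.MSB
open Cfsg.Agent.Lib.helper20

/-- The 16 elements of a normal elementary abelian subgroup. -/
def EL : List (List ℕ) := [
  [0, 1, 2, 3, 4, 5, 6, 7, 8, 9, 10, 11, 12, 13, 14, 15, 16, 17, 18, 19, 20, 21, 22, 23],
  [0, 1, 2, 3, 7, 5, 22, 4, 15, 11, 12, 9, 10, 21, 14, 8, 19, 17, 20, 16, 18, 13, 6, 23],
  [0, 1, 2, 3, 10, 5, 11, 12, 19, 22, 4, 6, 7, 20, 14, 16, 15, 17, 21, 8, 13, 18, 9, 23],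
  [0, 1, 2, 3, 12, 5, 9, 10, 16, 6, 7, 22, 4, 18, 14, 19, 8, 17, 13, 15, 21, 20, 11, 23],
  [1, 0, 3, 2, 4, 5, 9, 7, 15, 6, 10, 22, 12, 20, 14, 8, 19, 17, 21, 16, 13, 18, 11, 23],
  [1, 0, 3, 2, 7, 5, 11, 4, 8, 22, 12, 6, 10, 18, 14, 15, 16, 17, 13, 19, 21, 20, 9, 23],
  [1, 0, 3, 2, 10, 5, 22, 12, 16, 11, 4, 9, 7, 13, 14, 19, 8, 17, 18, 15, 20, 21, 6, 23],
  [1, 0, 3, 2, 12, 5, 6, 10, 19, 9, 7, 11, 4, 21, 14, 16, 15, 17, 20, 8, 18, 13, 22, 23],
  [2, 3, 0, 1, 4, 5, 11, 7, 16, 22, 10, 6, 12, 21, 14, 19, 8, 17, 20, 15, 18, 13, 9, 23],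
  [2, 3, 0, 1, 7, 5, 9, 4, 19, 6, 12, 22, 10, 13, 14, 16, 15, 17, 18, 8, 20, 21, 11, 23],
  [2, 3, 0, 1, 10, 5, 6, 12, 15, 9, 4, 11, 7, 18, 14, 8, 19, 17, 13, 16, 21, 20, 22, 23],
  [2, 3, 0, 1, 12, 5, 22, 10, 8, 11, 7, 9, 4, 20, 14, 15, 16, 17, 21, 19, 13, 18, 6, 23],
  [3, 2, 1, 0, 4, 5, 22, 7, 19, 11, 10, 9, 12, 18, 14, 16, 15, 17, 13, 8, 21, 20, 6, 23],
  [3, 2, 1, 0, 7, 5, 6, 4, 16, 9, 12, 11, 10, 20, 14, 19, 8, 17, 21, 15, 13, 18, 22, 23],
  [3, 2, 1, 0, 10, 5, 9, 12, 8, 6, 4, 22, 7, 21, 14, 15, 16, 17, 20, 19, 18, 13, 11, 23],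
  [3, 2, 1, 0, 12, 5, 11, 10, 15, 22, 7, 6, 4, 13, 14, 8, 19, 17, 18, 16, 20, 21, 9, 23]]

/-- An element of order three acting without fixed points on `EL`. -/
def tg : List ℕ := [2, 0, 1, 3, 7, 14, 9, 10, 8, 22, 4, 11, 12, 21, 17, 16, 19, 5, 18, 15, 13, 20, 6, 23]

def ta : List ℕ := [0, 1, 2, 3, 13, 5, 19, 21, 11, 15, 20, 8, 18, 4, 14, 9, 22, 17, 12, 6, 10, 7, 16, 23]

def tb : List ℕ := [0, 2, 1, 3, 6, 17, 4, 22, 8, 10, 9, 12, 11, 21, 14, 15, 19, 5, 18, 16, 20, 13, 7, 23]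

def eGens : List (List ℕ) := [
  [0, 1, 2, 3, 7, 5, 22, 4, 15, 11, 12, 9, 10, 21, 14, 8, 19, 17, 20, 16, 18, 13, 6, 23],
  [0, 1, 2, 3, 10, 5, 11, 12, 19, 22, 4, 6, 7, 20, 14, 16, 15, 17, 21, 8, 13, 18, 9, 23],
  [1, 0, 3, 2, 4, 5, 9, 7, 15, 6, 10, 22, 12, 20, 14, 8, 19, 17, 21, 16, 13, 18, 11, 23],
  [2, 3, 0, 1, 4, 5, 11, 7, 16, 22, 10, 6, 12, 21, 14, 19, 8, 17, 20, 15, 18, 13, 9, 23],
  [0, 1, 2, 3, 13, 5, 19, 21, 11, 15, 20, 8, 18, 4, 14, 9, 22, 17, 12, 6, 10, 7, 16, 23],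
  [0, 2, 1, 3, 6, 17, 4, 22, 8, 10, 9, 12, 11, 21, 14, 15, 19, 5, 18, 16, 20, 13, 7, 23]]

def uProg : List (ℕ × ℕ) :=
  [(0, 0), (1, 0), (4, 0), (5, 0), (4, 1), (5, 1), (1, 5), (4, 5), (5, 4), (4, 7), (4, 9), (9, 4), (4, 11), (12, 4), (4, 12), (11, 4), (3, 10), (10, 3), (3, 9), (9, 3), (10, 21), (2, 3), (26, 3), (3, 26)]

def uIdx : List (ℕ × ℕ × List ℕ) :=
  [(4, 8241104, [6, 0, 1, 4, 5, 7, 8, 9, 10, 11, 12, 13, 15, 16, 18, 20]),
   (0, 15, [6, 3, 2, 27]),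
   (1, 6, [6, 26])]

/-- Two elements generating with `invT` an elementary abelian group of order eight. -/
def tF : List ℕ := [2, 3, 0, 1, 10, 5, 6, 12, 15, 9, 4, 11, 7, 18, 14, 8, 19, 17, 13, 16, 21, 20, 22, 23]

def tF2 : List ℕ := [4, 12, 10, 7, 0, 5, 6, 3, 13, 9, 2, 11, 1, 8, 14, 18, 20, 17, 15, 21, 16, 19, 22, 23]

/-- Elements of the centralizer of `invT` moving its fixed points to the last point. -/
def cTabs : List (List ℕ) := [
  [0, 1, 2, 3, 4, 5, 6, 7, 8, 9, 10, 11, 12, 13, 14, 15, 16, 17, 18, 19, 20, 21, 22, 23],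
  [0, 1, 2, 3, 4, 5, 6, 7, 8, 9, 10, 11, 12, 13, 14, 15, 16, 17, 18, 19, 20, 21, 22, 23],
  [0, 1, 2, 3, 4, 5, 6, 7, 8, 9, 10, 11, 12, 13, 14, 15, 16, 17, 18, 19, 20, 21, 22, 23],
  [0, 1, 2, 3, 4, 5, 6, 7, 8, 9, 10, 11, 12, 13, 14, 15, 16, 17, 18, 19, 20, 21, 22, 23],
  [0, 1, 2, 3, 4, 5, 6, 7, 8, 9, 10, 11, 12, 13, 14, 15, 16, 17, 18, 19, 20, 21, 22, 23],
  [10, 7, 19, 8, 12, 23, 9, 16, 3, 11, 15, 17, 4, 0, 5, 13, 21, 6, 20, 2, 18, 1, 14, 22],
  [0, 1, 15, 16, 13, 22, 23, 7, 19, 11, 10, 14, 21, 12, 17, 3, 2, 9, 20, 8, 18, 4, 6, 5],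
  [0, 1, 2, 3, 4, 5, 6, 7, 8, 9, 10, 11, 12, 13, 14, 15, 16, 17, 18, 19, 20, 21, 22, 23],
  [0, 1, 2, 3, 4, 5, 6, 7, 8, 9, 10, 11, 12, 13, 14, 15, 16, 17, 18, 19, 20, 21, 22, 23],
  [12, 4, 13, 21, 16, 17, 22, 3, 18, 23, 2, 9, 15, 0, 11, 7, 10, 5, 19, 20, 8, 1, 14, 6],
  [0, 1, 2, 3, 4, 5, 6, 7, 8, 9, 10, 11, 12, 13, 14, 15, 16, 17, 18, 19, 20, 21, 22, 23],
  [19, 8, 18, 20, 13, 9, 22, 15, 1, 11, 16, 23, 21, 4, 6, 10, 7, 14, 3, 0, 2, 12, 17, 5],
  [0, 1, 2, 3, 4, 5, 6, 7, 8, 9, 10, 11, 12, 13, 14, 15, 16, 17, 18, 19, 20, 21, 22, 23],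
  [0, 1, 2, 3, 4, 5, 6, 7, 8, 9, 10, 11, 12, 13, 14, 15, 16, 17, 18, 19, 20, 21, 22, 23],
  [15, 16, 2, 3, 4, 22, 11, 21, 8, 17, 13, 6, 12, 10, 23, 0, 1, 9, 18, 19, 20, 7, 5, 14],
  [0, 1, 2, 3, 4, 5, 6, 7, 8, 9, 10, 11, 12, 13, 14, 15, 16, 17, 18, 19, 20, 21, 22, 23],
  [0, 1, 2, 3, 4, 5, 6, 7, 8, 9, 10, 11, 12, 13, 14, 15, 16, 17, 18, 19, 20, 21, 22, 23],
  [4, 12, 0, 1, 21, 6, 14, 8, 20, 22, 19, 11, 13, 10, 17, 16, 15, 23, 2, 18, 3, 7, 5, 9],
  [0, 1, 2, 3, 4, 5, 6, 7, 8, 9, 10, 11, 12, 13, 14, 15, 16, 17, 18, 19, 20, 21, 22, 23],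
  [0, 1, 2, 3, 4, 5, 6, 7, 8, 9, 10, 11, 12, 13, 14, 15, 16, 17, 18, 19, 20, 21, 22, 23],
  [0, 1, 2, 3, 4, 5, 6, 7, 8, 9, 10, 11, 12, 13, 14, 15, 16, 17, 18, 19, 20, 21, 22, 23],
  [0, 1, 2, 3, 4, 5, 6, 7, 8, 9, 10, 11, 12, 13, 14, 15, 16, 17, 18, 19, 20, 21, 22, 23],
  [12, 4, 10, 7, 1, 9, 5, 3, 18, 14, 2, 17, 0, 15, 6, 21, 13, 22, 19, 20, 8, 16, 23, 11],
  [0, 1, 2, 3, 4, 5, 6, 7, 8, 9, 10, 11, 12, 13, 14, 15, 16, 17, 18, 19, 20, 21, 22, 23]]

def mt2 : List ℕ := [0, 2, 4, 6, 8, 10, 12, 14, 16, 18, 20, 22, 1, 3, 5, 7, 9, 11, 13, 15, 17, 19, 21, 23]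

def u7 : List ℕ := [20, 2, 8, 17, 1, 14, 10, 18, 16, 0, 5, 11, 15, 22, 12, 19, 7, 9, 4, 6, 13, 21, 3, 23]

def tAl : List ℕ := [2, 0, 1, 6, 4, 7, 9, 20, 18, 3, 14, 11, 8, 13, 19, 17, 16, 21, 12, 10, 5, 15, 22, 23]

def tBe : List ℕ := [2, 0, 1, 9, 16, 10, 3, 14, 8, 6, 21, 11, 12, 4, 15, 7, 13, 20, 18, 17, 19, 5, 22, 23]

def tGi : List ℕ := [9, 3, 6, 1, 4, 20, 2, 7, 12, 0, 19, 22, 8, 13, 14, 15, 16, 21, 18, 10, 5, 17, 11, 23]

theorem card23 : Nat.card ↥(stabM [2 ^ 23]) = 10200960 := card_stabM_pt23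

/-! ### Involutions -/

theorem invT_in23 : tabIn [2 ^ 23] invT = true := by decide +kernel

/-- The involution with table `invT`. -/
def uA23 : ↥(stabM [2 ^ 23]) := el [2 ^ 23] invT invT_in23

theorem uA23_coe : (uA23 : Equiv.Perm GolayPt) = uA :=
  eq_of_isTable (isTable_el [2 ^ 23] invT invT_in23) uA_table

theorem uA23_sq : uA23 ^ 2 = 1 :=
  eq_one_of_table (by
    rw [← (by decide +kernel : mulTab invT invT = idTab), pow_two]
    exact isTable_mul (isTable_el [2 ^ 23] invT invT_in23) (isTable_el [2 ^ 23] invT invT_in23))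

theorem cTabs_ok : (List.range 24).all (fun i => (invT.getD i 0 != i) ||
    (tabIn [] (cTabs.getD i idTab) &&
      (mulTab (cTabs.getD i idTab) invT == mulTab invT (cTabs.getD i idTab)) &&
      ((cTabs.getD i idTab).getD i 0 == 23))) = true := by decide +kernel

/-- All involutions of the point stabilizer are conjugate in it. -/
theorem hconj23 : ∀ x : ↥(stabM [2 ^ 23]), x ^ 2 = 1 → x ≠ 1 →
    ∃ k : ↥(stabM [2 ^ 23]), k * x * k⁻¹ = uA23 := by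
  intro x h2 h1
  have hx23 : (x : Equiv.Perm GolayPt) (pt 23) = pt 23 :=
    ((mem_stabM_cons_pt (by norm_num)).mp x.2).2
  have hxM : (x : Equiv.Perm GolayPt) ∈ M24 := stabM_le_M24 _ x.2
  have ho : orderOf (x : Equiv.Perm GolayPt) = 2 := by
    apply orderOf_eq_two
    · have h := congrArg Subtype.val h2
      rw [pow_two] at h
      exact h
    · exact fun e => h1 (Subtype.ext e)
  rcases inv_normal (x : Equiv.Perm GolayPt) hxM ho with ⟨hno, _⟩ | ⟨_, k, hk, hkx⟩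
  · exact absurd hx23 (hno _)
  · have hq : uA (k (pt 23)) = k (pt 23) := by
      rw [← hkx]
      show k ((x : Equiv.Perm GolayPt) (k.symm (k (pt 23)))) = k (pt 23)
      rw [Equiv.symm_apply_apply, hx23]
    have hi := idx_lt (k (pt 23))
    have hfix : invT.getD (idx (k (pt 23))) 0 = idx (k (pt 23)) := by
      rw [uA_table (k (pt 23)), hq]
    have hc := List.all_eq_true.mp cTabs_ok (idx (k (pt 23))) (List.mem_range.mpr hi)
    rw [Bool.or_eq_true, bne_iff_ne] at hc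
    rcases hc with hc | hc
    · exact absurd hfix hc
    · simp only [Bool.and_eq_true, beq_iff_eq] at hc
      obtain ⟨⟨hin, hcm⟩, h23⟩ := hc
      have tc_ := isTable_tp [] _ hin
      have hcM : tp [] _ hin ∈ M24 := stabM_le_M24 [] (tp_mem [] _ hin)
      have hcomm : tp [] _ hin * uA = uA * tp [] _ hin :=
        eq_of_isTable (isTable_mulTab tc_ uA_table) (by
          rw [hcm]; exact isTable_mulTab uA_table tc_)
      have hcq : tp [] _ hin (k (pt 23)) = pt 23 := by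
        have h := apply_of_table tc_ hi
        rw [pt_idx, h23] at h
        exact h
      refine ⟨⟨tp [] _ hin * k, ?_⟩, Subtype.ext ?_⟩
      · rw [mem_stabM_cons_pt (by norm_num), stabM_nil]
        exact ⟨M24.mul_mem hcM hk, hcq⟩
      · show tp [] _ hin * k * (x : Equiv.Perm GolayPt) * (tp [] _ hin * k)⁻¹
          = (uA23 : Equiv.Perm GolayPt)
        rw [uA23_coe]
        have e : tp [] _ hin * k * (x : Equiv.Perm GolayPt) * (tp [] _ hin * k)⁻¹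
            = tp [] _ hin * (k * (x : Equiv.Perm GolayPt) * k⁻¹) * (tp [] _ hin)⁻¹ := by group
        rw [e, hkx, hcomm, mul_inv_cancel_right]

theorem tF_in : tabIn [2 ^ 23] tF = true := by decide +kernel
theorem tF2_in : tabIn [2 ^ 23] tF2 = true := by decide +kernel

theorem sevenChk : [invT, tF, tF2, mulTab invT tF, mulTab invT tF2, mulTab tF tF2,
    mulTab invT (mulTab tF tF2)].all invChk = true := by decide +kernel

theorem goodA23 {Γ : Type} [Group Γ] (σ : Γ →* ↥(stabM [2 ^ 23]))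
    (hσ : Cfsg.IsStemExtension σ) (hK2 : ∀ k ∈ σ.ker, k ^ 2 = 1) : StemTwo.Good σ uA23 :=
  good_u [2 ^ 23] uA23 uA23_sq (fun x h2 h1 _ => hconj23 x h2 h1) σ hσ hK2 invT tF tF2 invT_in23
    tF_in tF2_in sevenChk

theorem hinv23 {Γ : Type} [Group Γ] (σ : Γ →* ↥(stabM [2 ^ 23]))
    (hσ : Cfsg.IsStemExtension σ) (hK2 : ∀ k ∈ σ.ker, k ^ 2 = 1) :
    ∀ y : Γ, σ y ^ 2 = 1 → y ^ 2 = 1 := by
  intro y hy
  by_cases h1 : σ y = 1
  · exact hK2 y (MonoidHom.mem_ker.mpr h1)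
  · obtain ⟨k, hk⟩ := hconj23 (σ y) hy h1
    exact StemTwo.good_conj σ hσ.1 k hk (goodA23 σ hσ hK2) y rfl

/-! ### The 2-part -/

theorem chk_L : EL.all (tabIn [2 ^ 23]) = true := by decide +kernel
theorem chk_g : tabIn [2 ^ 23] tg = true := by decide +kernel
theorem chk_a : tabIn [2 ^ 23] ta = true := by decide +kernel
theorem chk_b : tabIn [2 ^ 23] tb = true := by decide +kernel
theorem chk_c : tabIn [2 ^ 23] idTab = true := by decide +kernel
theorem chk_2 : EL.all (fun l => mulTab l l == idTab) = true := by decide +kernel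
theorem chk_cc : EL.all (fun l => EL.all (fun l' => mulTab l l' == mulTab l' l)) = true := by
  decide +kernel
theorem chk_f : EL.all (fun l => mulTab (mulTab l (mulTab (mulTab tg l) (mulTab tg tg)))
    (mulTab (mulTab (mulTab tg tg) l) tg) == idTab) = true := by decide +kernel
theorem chk_cg : EL.all (fun l => EL.any (fun l' => mulTab tg l == mulTab l' tg)) = true := by
  decide +kernel
theorem chk_ca : EL.all (fun l => EL.any (fun l' => mulTab ta l == mulTab l' ta)) = true := by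
  decide +kernel
theorem chk_cb : EL.all (fun l => EL.any (fun l' => mulTab tb l == mulTab l' tb)) = true := by
  decide +kernel
theorem chk_ccc : EL.all (fun l => EL.any (fun l' => mulTab idTab l == mulTab l' idTab))
    = true := by decide +kernel
theorem chk_g3 : powTab tg 3 = idTab := by decide +kernel
theorem chk_a2 : mulTab ta ta = idTab := by decide +kernel
theorem chk_b2 : mulTab tb tb = idTab := by decide +kernel
theorem chk_c2 : mulTab idTab idTab = idTab := by decide +kernel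
theorem chk_ab4 : powTab (mulTab ta tb) 4 = idTab := by decide +kernel
theorem chk_ac : mulTab ta idTab = mulTab idTab ta := by decide +kernel
theorem chk_bc : mulTab tb idTab = mulTab idTab tb := by decide +kernel
theorem chk_ag : mulTab ta tg = mulTab tg ta ∨ mulTab ta tg = mulTab (mulTab tg tg) ta := by
  decide +kernel
theorem chk_bg : mulTab tb tg = mulTab tg tb ∨ mulTab tb tg = mulTab (mulTab tg tg) tb := by
  decide +kernel
theorem chk_cgg : mulTab idTab tg = mulTab tg idTab ∨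
    mulTab idTab tg = mulTab (mulTab tg tg) idTab := by decide +kernel
theorem chk_LT : EL.all (fun l => preMask l 5264 == 5264) = true := by decide +kernel
theorem chk_abT : preMask (powTab (mulTab ta tb) 2) 5264 ≠ 5264 := by decide +kernel
theorem chk_gens : eGens.all (fun l => EL.any (fun l' => l == l') || (l == ta) || (l == tb)
    || (l == idTab)) = true := by decide +kernel
theorem chk_chain : chainGen [] (slpChain (slpTabs uProg eGens) uIdx) = true := by decide +kernel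
theorem chk_prod : chainProd (slpChain (slpTabs uProg eGens) uIdx) = 2 ^ 7 := by decide +kernel

theorem ker_exp2 {Γ : Type} [Group Γ] (σ : Γ →* ↥(stabM [2 ^ 23]))
    (hσ : Cfsg.IsStemExtension σ) (hK2 : ∀ k ∈ σ.ker, k ^ 2 = 1) : σ.ker = ⊥ :=
  two_part_tab [2 ^ 23] σ hσ (hinv23 σ hσ hK2) EL tg ta tb idTab 5264 eGens uProg uIdx 7 79695
    ⟨39847, by norm_num⟩ (by rw [card23]; norm_num) chk_L chk_g chk_a chk_b chk_c chk_2 chk_cc
    chk_f chk_cg chk_ca chk_cb chk_ccc chk_g3 chk_a2 chk_b2 chk_c2 chk_ab4 chk_ac chk_bc chk_ag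
    chk_bg chk_cgg (by norm_num) chk_LT chk_abT chk_gens chk_chain chk_prod

/-! ### The odd part -/

theorem tabT_in : tabIn [2 ^ 23] tabT = true := by decide +kernel
theorem tabD_in : tabIn [2 ^ 23] tabD = true := by decide +kernel
theorem mt2_in : tabIn [2 ^ 23] mt2 = true := by decide +kernel
theorem u7_in : tabIn [2 ^ 23] u7 = true := by decide +kernel
theorem tAl_in : tabIn [2 ^ 23] tAl = true := by decide +kernel
theorem tBe_in : tabIn [2 ^ 23] tBe = true := by decide +kernel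
theorem tGi_in : tabIn [2 ^ 23] tGi = true := by decide +kernel

theorem odd_part {Γ : Type} [Group Γ] (σ : Γ →* ↥(stabM [2 ^ 23]))
    (hσ : Cfsg.IsStemExtension σ) : ∀ z ∈ σ.ker, z ^ 2 ^ 7 = 1 := by
  intro z hz
  have h23 : z ^ 443520 = 1 := by
    have : Fact (Nat.Prime 23) := ⟨by norm_num⟩
    exact cyc_tab [2 ^ 23] σ hσ tabT tabT_in 23 (by decide +kernel) 0 (by norm_num)
      (by decide +kernel) 443520 (by rw [card23]) hz
  have h11 : z ^ 927360 = 1 := by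
    have : Fact (Nat.Prime 11) := ⟨by norm_num⟩
    exact cyc_tab [2 ^ 23] σ hσ mt2 mt2_in 11 (by decide +kernel) 1 (by norm_num)
      (by decide +kernel) 927360 (by rw [card23]) hz
  have h7 : z ^ 1457280 = 1 := by
    have : Fact (Nat.Prime 7) := ⟨by norm_num⟩
    exact cyc_tab [2 ^ 23] σ hσ u7 u7_in 7 (by decide +kernel) 0 (by norm_num)
      (by decide +kernel) 1457280 (by rw [card23]) hz
  have h5 : z ^ 2040192 = 1 := by
    have : Fact (Nat.Prime 5) := ⟨by norm_num⟩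
    exact cyc_tab [2 ^ 23] σ hσ tabD tabD_in 5 (by decide +kernel) 1 (by norm_num)
      (by decide +kernel) 2040192 (by rw [card23]) hz
  have h3 : z ^ 1133440 = 1 :=
    ab2_tab [2 ^ 23] σ hσ tAl tBe tGi tAl_in tBe_in tGi_in (by decide +kernel) (by decide +kernel)
      0 0 (by norm_num) (by norm_num) (by decide +kernel) (by decide +kernel)
      (by decide +kernel) (by decide +kernel) (by decide +kernel) 1133440 (by rw [card23]) hz
  have d1 := orderOf_dvd_of_pow_eq_one h23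
  have d2 := orderOf_dvd_of_pow_eq_one h11
  have d3 := orderOf_dvd_of_pow_eq_one h7
  have d4 := orderOf_dvd_of_pow_eq_one h5
  have d5 := orderOf_dvd_of_pow_eq_one h3
  have d6 : orderOf z ∣ Nat.gcd (Nat.gcd (Nat.gcd 443520 927360) (Nat.gcd 1457280 2040192)) 1133440 :=
    Nat.dvd_gcd (Nat.dvd_gcd (Nat.dvd_gcd d1 d2) (Nat.dvd_gcd d3 d4)) d5
  have d7 : Nat.gcd (Nat.gcd (Nat.gcd 443520 927360) (Nat.gcd 1457280 2040192)) 1133440 = 2 ^ 7 := by
    decide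
  rw [d7] at d6
  exact orderOf_dvd_iff_pow_eq_one.mp d6

/-- Every finite stem extension of the point stabilizer has trivial kernel. -/
theorem ker_eq_bot {Γ : Type} [Group Γ] [Finite Γ] (σ : Γ →* ↥(stabM [2 ^ 23]))
    (hσ : Cfsg.IsStemExtension σ) : σ.ker = ⊥ :=
  StemTwo.reduce_exp2 7 (fun _ _ _ τ hτ h2 => ker_exp2 τ hτ h2) σ hσ (odd_part σ hσ)

theorem transport {P : Type} [Group P] {H K : Subgroup P} (e : H = K)
    (h : Cfsg.HasCyclicSchurMultiplier ↥H 1) : Cfsg.HasCyclicSchurMultiplier ↥K 1 := by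
  subst e; exact h

theorem main : Cfsg.HasCyclicSchurMultiplier ↥Cfsg.Spor.M23 1 :=
  transport M23_eq_stabM.symm (trivial_of_ker_bot (fun _ _ _ σ hσ => ker_eq_bot σ hσ))

end Cfsg.Agent.Lib.helper27.M23S
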