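import Cfsg.Agent.Lib.helper27.M24BlkDefs

set_option autoImplicit false
set_option maxRecDepth 1000000

namespace Cfsg.Agent.Lib.helper27.B24

open Cfsg Cfsg.Agent.Lib.helper28 Cfsg.Agent.Lib.helper27 Cfsg.Agent.Lib.helper27.OF

/-- The mask of the fixed points below `q` of a packed table. -/
def fixM (P : ℕ) : ℕ → ℕ
  | 0 => 0
  | q + 1 => Nat.add (if Nat.beq (B22.lk P q) q then Nat.pow 2 q else 0) (fixM P q)

/-- Bounds for the masks of the fixed points in the parts. -/
def bd : ℕ → ℕ
  | 0 => 5279
  | 1 => 175681
  | 2 => 402026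
  | 3 => 663645
  | 4 => 1060490
  | 5 => 1327290
  | 6 => 1737489
  | 7 => 2229713
  | 8 => 2631052
  | 9 => 3189796
  | 10 => 4196943
  | 11 => 4459426
  | 12 => 4860434
  | 13 => 5508118
  | 14 => 6429441
  | 15 => 7417889
  | 16 => 8536111
  | 17 => 8931660
  | 18 => 9503954
  | 19 => 10491778
  | 20 => 11108882
  | 21 => 12685424
  | 22 => 13703682
  | _ => 16777216

/-- The check of a part: no repetitions, and the masks of the fixed points within the bounds. -/
def ndOK (i : ℕ) (l : List ℕ) : Bool :=
  B22.nodupB l && l.all (fun P => Nat.ble (bd i) (fixM P 24) && Nat.blt (fixM P 24) (bd (i + 1)))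

theorem nd0 : ndOK 0 pk0 = true := by decide +kernel

theorem nd1 : ndOK 1 pk1 = true := by decide +kernel

theorem nd2 : ndOK 2 pk2 = true := by decide +kernel

theorem nd3 : ndOK 3 pk3 = true := by decide +kernel

theorem nd4 : ndOK 4 pk4 = true := by decide +kernel

theorem nd5 : ndOK 5 pk5 = true := by decide +kernel

theorem nd6 : ndOK 6 pk6 = true := by decide +kernel

theorem nd7 : ndOK 7 pk7 = true := by decide +kernel

theorem nd8 : ndOK 8 pk8 = true := by decide +kernel

theorem nd9 : ndOK 9 pk9 = true := by decide +kernel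

theorem nd10 : ndOK 10 pk10 = true := by decide +kernel

theorem nd11 : ndOK 11 pk11 = true := by decide +kernel

theorem nd12 : ndOK 12 pk12 = true := by decide +kernel

theorem nd13 : ndOK 13 pk13 = true := by decide +kernel

theorem nd14 : ndOK 14 pk14 = true := by decide +kernel

theorem nd15 : ndOK 15 pk15 = true := by decide +kernel

theorem nd16 : ndOK 16 pk16 = true := by decide +kernel

theorem nd17 : ndOK 17 pk17 = true := by decide +kernel

theorem nd18 : ndOK 18 pk18 = true := by decide +kernel

theorem nd19 : ndOK 19 pk19 = true := by decide +kernel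

theorem nd20 : ndOK 20 pk20 = true := by decide +kernel

theorem nd21 : ndOK 21 pk21 = true := by decide +kernel

theorem nd22 : ndOK 22 pk22 = true := by decide +kernel

theorem nd_ok : ∀ i < 23, ndOK i (pkc i) = true := by
  intro i hi
  interval_cases i
  · exact nd0
  · exact nd1
  · exact nd2
  · exact nd3
  · exact nd4
  · exact nd5
  · exact nd6
  · exact nd7
  · exact nd8
  · exact nd9
  · exact nd10
  · exact nd11
  · exact nd12
  · exact nd13
  · exact nd14
  · exact nd15
  · exact nd16
  · exact nd17
  · exact nd18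
  · exact nd19
  · exact nd20
  · exact nd21
  · exact nd22

theorem bd_mono : ∀ i < 23, ∀ j < i, bd (j + 1) ≤ bd i := by decide +kernel

end Cfsg.Agent.Lib.helper27.B24
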