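import Cfsg.Agent.Lib.helper27.M24BlkDefs

set_option autoImplicit false
set_option maxRecDepth 1000000

namespace Cfsg.Agent.Lib.helper27.B24

open Cfsg Cfsg.Agent.Lib.helper28 Cfsg.Agent.Lib.helper27 Cfsg.Agent.Lib.helper27.OF

theorem oc0_ok : ocOK oc0 = true := by decide +kernel

theorem oc1_ok : ocOK oc1 = true := by decide +kernel

theorem oc2_ok : ocOK oc2 = true := by decide +kernel

theorem oc3_ok : ocOK oc3 = true := by decide +kernel

theorem oc4_ok : ocOK oc4 = true := by decide +kernel

theorem oc5_ok : ocOK oc5 = true := by decide +kernel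

theorem oc6_ok : ocOK oc6 = true := by decide +kernel

theorem oc7_ok : ocOK oc7 = true := by decide +kernel

theorem oc8_ok : ocOK oc8 = true := by decide +kernel

theorem oc9_ok : ocOK oc9 = true := by decide +kernel

theorem oc10_ok : ocOK oc10 = true := by decide +kernel

theorem oc11_ok : ocOK oc11 = true := by decide +kernel

theorem oc12_ok : ocOK oc12 = true := by decide +kernel

theorem oc13_ok : ocOK oc13 = true := by decide +kernel

theorem oc14_ok : ocOK oc14 = true := by decide +kernel

theorem oc15_ok : ocOK oc15 = true := by decide +kernel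

theorem oc16_ok : ocOK oc16 = true := by decide +kernel

theorem oc17_ok : ocOK oc17 = true := by decide +kernel

theorem oc18_ok : ocOK oc18 = true := by decide +kernel

theorem oc19_ok : ocOK oc19 = true := by decide +kernel

theorem oc20_ok : ocOK oc20 = true := by decide +kernel

theorem oc21_ok : ocOK oc21 = true := by decide +kernel

theorem oc22_ok : ocOK oc22 = true := by decide +kernel

theorem oc_ok : ∀ i < 23, ocOK (occ i) = true := by
  intro i hi
  interval_cases i
  · exact oc0_ok
  · exact oc1_ok
  · exact oc2_ok
  · exact oc3_ok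
  · exact oc4_ok
  · exact oc5_ok
  · exact oc6_ok
  · exact oc7_ok
  · exact oc8_ok
  · exact oc9_ok
  · exact oc10_ok
  · exact oc11_ok
  · exact oc12_ok
  · exact oc13_ok
  · exact oc14_ok
  · exact oc15_ok
  · exact oc16_ok
  · exact oc17_ok
  · exact oc18_ok
  · exact oc19_ok
  · exact oc20_ok
  · exact oc21_ok
  · exact oc22_ok

theorem oct_complete : allLt (fun n => !(pc (cw n) == 8) || octA.any (fun z => z.1 == cw n)) 4096
    = true := by decide +kernel

theorem genP_ok : allLt (fun g => allLt (fun q => Nat.beq (B22.lk (genP g) q) ((genT g).getD q 0)) 24)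
    9 = true := by decide +kernel

theorem repP_ok : allLt (fun g => allLt (fun q => Nat.beq (B22.lk (repP g) q) ((repT g).getD q 0)) 24)
    8 = true := by decide +kernel

theorem genT_ok : allLt (fun g => tabIn [] (genT g)) 9 = true := by decide +kernel

theorem repT_ok : allLt (fun g => tabIn [] (repT g)) 8 = true := by decide +kernel

end Cfsg.Agent.Lib.helper27.B24
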