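import Cfsg.Agent.Lib.helper27.M24BlkDefs

set_option autoImplicit false
set_option maxRecDepth 1000000

namespace Cfsg.Agent.Lib.helper27.B24

open Cfsg Cfsg.Agent.Lib.helper28 Cfsg.Agent.Lib.helper27 Cfsg.Agent.Lib.helper27.OF

theorem pk8_eq : eqL ((invTc oc8).map packT) pk8 = true := by decide +kernel

theorem pk9_eq : eqL ((invTc oc9).map packT) pk9 = true := by decide +kernel

theorem pk10_eq : eqL ((invTc oc10).map packT) pk10 = true := by decide +kernel

theorem pk11_eq : eqL ((invTc oc11).map packT) pk11 = true := by decide +kernel

theorem pk12_eq : eqL ((invTc oc12).map packT) pk12 = true := by decide +kernel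

theorem pk13_eq : eqL ((invTc oc13).map packT) pk13 = true := by decide +kernel

theorem pk14_eq : eqL ((invTc oc14).map packT) pk14 = true := by decide +kernel

theorem pk15_eq : eqL ((invTc oc15).map packT) pk15 = true := by decide +kernel

end Cfsg.Agent.Lib.helper27.B24
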