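import Cfsg.Agent.Lib.helper27.M24BlkDefs

set_option autoImplicit false
set_option maxRecDepth 1000000

namespace Cfsg.Agent.Lib.helper27.B24

open Cfsg Cfsg.Agent.Lib.helper28 Cfsg.Agent.Lib.helper27 Cfsg.Agent.Lib.helper27.OF

theorem pk16_eq : eqL ((invTc oc16).map packT) pk16 = true := by decide +kernel

theorem pk17_eq : eqL ((invTc oc17).map packT) pk17 = true := by decide +kernel

theorem pk18_eq : eqL ((invTc oc18).map packT) pk18 = true := by decide +kernel

theorem pk19_eq : eqL ((invTc oc19).map packT) pk19 = true := by decide +kernel

theorem pk20_eq : eqL ((invTc oc20).map packT) pk20 = true := by decide +kernel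

theorem pk21_eq : eqL ((invTc oc21).map packT) pk21 = true := by decide +kernel

theorem pk22_eq : eqL ((invTc oc22).map packT) pk22 = true := by decide +kernel

end Cfsg.Agent.Lib.helper27.B24
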