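import Cfsg.Agent.Lib.helper27.M24BlkPkA
import Cfsg.Agent.Lib.helper27.M24BlkPkB
import Cfsg.Agent.Lib.helper27.M24BlkPkC

set_option autoImplicit false
set_option maxRecDepth 1000000

namespace Cfsg.Agent.Lib.helper27.B24

open Cfsg Cfsg.Agent.Lib.helper28 Cfsg.Agent.Lib.helper27 Cfsg.Agent.Lib.helper27.OF

theorem pk_eq : ∀ i < 23, eqL ((invTc (occ i)).map packT) (pkc i) = true := by
  intro i hi
  interval_cases i
  · exact pk0_eq
  · exact pk1_eq
  · exact pk2_eq
  · exact pk3_eq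
  · exact pk4_eq
  · exact pk5_eq
  · exact pk6_eq
  · exact pk7_eq
  · exact pk8_eq
  · exact pk9_eq
  · exact pk10_eq
  · exact pk11_eq
  · exact pk12_eq
  · exact pk13_eq
  · exact pk14_eq
  · exact pk15_eq
  · exact pk16_eq
  · exact pk17_eq
  · exact pk18_eq
  · exact pk19_eq
  · exact pk20_eq
  · exact pk21_eq
  · exact pk22_eq

end Cfsg.Agent.Lib.helper27.B24
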