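import Cfsg.Agent.Lib.helper27.M24BlkDefs

set_option autoImplicit false
set_option maxRecDepth 1000000

namespace Cfsg.Agent.Lib.helper27.B24

open Cfsg Cfsg.Agent.Lib.helper28 Cfsg.Agent.Lib.helper27 Cfsg.Agent.Lib.helper27.OF

theorem pk0_eq : eqL ((invTc oc0).map packT) pk0 = true := by decide +kernel

theorem pk1_eq : eqL ((invTc oc1).map packT) pk1 = true := by decide +kernel

theorem pk2_eq : eqL ((invTc oc2).map packT) pk2 = true := by decide +kernel

theorem pk3_eq : eqL ((invTc oc3).map packT) pk3 = true := by decide +kernel

theorem pk4_eq : eqL ((invTc oc4).map packT) pk4 = true := by decide +kernel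

theorem pk5_eq : eqL ((invTc oc5).map packT) pk5 = true := by decide +kernel

theorem pk6_eq : eqL ((invTc oc6).map packT) pk6 = true := by decide +kernel

theorem pk7_eq : eqL ((invTc oc7).map packT) pk7 = true := by decide +kernel

end Cfsg.Agent.Lib.helper27.B24
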