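import Cfsg.Agent.Lib.helper27.MSchurBase

set_option autoImplicit false

/-! Every finite stem extension of the group of the length-24 binary code (the Mathieu group of
degree 24) has trivial kernel.  Odd part: transfer to cyclic subgroups of orders 5, 7, 11, 23 and
to an extraspecial subgroup of order 27.  2-part: reduction to kernels of exponent two; all
involutions lift to involutions; transfer to the Sylow 2-subgroup inside a sextet group. -/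

namespace Cfsg.Agent.Lib.helper27.M24S

open Cfsg Cfsg.Agent.Lib.helper28 Cfsg.Agent.Lib.helper27 Cfsg.Agent.Lib.helper27.MSB
open Cfsg.Agent.Lib.helper20

/-- The 64 elements of the normal elementary abelian subgroup of a sextet group. -/
def EL : List (List ℕ) := [
  [0, 1, 2, 3, 4, 5, 6, 7, 8, 9, 10, 11, 12, 13, 14, 15, 16, 17, 18, 19, 20, 21, 22, 23],
  [0, 1, 2, 3, 4, 14, 9, 7, 19, 6, 10, 22, 12, 21, 5, 16, 15, 23, 20, 8, 18, 13, 11, 17],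
  [0, 1, 2, 3, 4, 17, 22, 7, 16, 11, 10, 9, 12, 20, 23, 19, 8, 5, 21, 15, 13, 18, 6, 14],
  [0, 1, 2, 3, 4, 23, 11, 7, 15, 22, 10, 6, 12, 18, 17, 8, 19, 14, 13, 16, 21, 20, 9, 5],
  [0, 1, 2, 3, 7, 5, 22, 4, 15, 11, 12, 9, 10, 21, 14, 8, 19, 17, 20, 16, 18, 13, 6, 23],
  [0, 1, 2, 3, 7, 14, 11, 4, 16, 22, 12, 6, 10, 13, 5, 19, 8, 23, 18, 15, 20, 21, 9, 17],
  [0, 1, 2, 3, 7, 17, 6, 4, 19, 9, 12, 11, 10, 18, 23, 16, 15, 5, 13, 8, 21, 20, 22, 14],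
  [0, 1, 2, 3, 7, 23, 9, 4, 8, 6, 12, 22, 10, 20, 17, 15, 16, 14, 21, 19, 13, 18, 11, 5],
  [0, 1, 2, 3, 10, 5, 11, 12, 19, 22, 4, 6, 7, 20, 14, 16, 15, 17, 21, 8, 13, 18, 9, 23],
  [0, 1, 2, 3, 10, 14, 22, 12, 8, 11, 4, 9, 7, 18, 5, 15, 16, 23, 13, 19, 21, 20, 6, 17],
  [0, 1, 2, 3, 10, 17, 9, 12, 15, 6, 4, 22, 7, 13, 23, 8, 19, 5, 18, 16, 20, 21, 11, 14],
  [0, 1, 2, 3, 10, 23, 6, 12, 16, 9, 4, 11, 7, 21, 17, 19, 8, 14, 20, 15, 18, 13, 22, 5],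
  [0, 1, 2, 3, 12, 5, 9, 10, 16, 6, 7, 22, 4, 18, 14, 19, 8, 17, 13, 15, 21, 20, 11, 23],
  [0, 1, 2, 3, 12, 14, 6, 10, 15, 9, 7, 11, 4, 20, 5, 8, 19, 23, 21, 16, 13, 18, 22, 17],
  [0, 1, 2, 3, 12, 17, 11, 10, 8, 22, 7, 6, 4, 21, 23, 15, 16, 5, 20, 19, 18, 13, 9, 14],
  [0, 1, 2, 3, 12, 23, 22, 10, 19, 11, 7, 9, 4, 13, 17, 16, 15, 14, 18, 8, 20, 21, 6, 5],
  [1, 0, 3, 2, 4, 5, 9, 7, 15, 6, 10, 22, 12, 20, 14, 8, 19, 17, 21, 16, 13, 18, 11, 23],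
  [1, 0, 3, 2, 4, 14, 6, 7, 16, 9, 10, 11, 12, 18, 5, 19, 8, 23, 13, 15, 21, 20, 22, 17],
  [1, 0, 3, 2, 4, 17, 11, 7, 19, 22, 10, 6, 12, 13, 23, 16, 15, 5, 18, 8, 20, 21, 9, 14],
  [1, 0, 3, 2, 4, 23, 22, 7, 8, 11, 10, 9, 12, 21, 17, 15, 16, 14, 20, 19, 18, 13, 6, 5],
  [1, 0, 3, 2, 7, 5, 11, 4, 8, 22, 12, 6, 10, 18, 14, 15, 16, 17, 13, 19, 21, 20, 9, 23],
  [1, 0, 3, 2, 7, 14, 22, 4, 19, 11, 12, 9, 10, 20, 5, 16, 15, 23, 21, 8, 13, 18, 6, 17],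
  [1, 0, 3, 2, 7, 17, 9, 4, 16, 6, 12, 22, 10, 21, 23, 19, 8, 5, 20, 15, 18, 13, 11, 14],
  [1, 0, 3, 2, 7, 23, 6, 4, 15, 9, 12, 11, 10, 13, 17, 8, 19, 14, 18, 16, 20, 21, 22, 5],
  [1, 0, 3, 2, 10, 5, 22, 12, 16, 11, 4, 9, 7, 13, 14, 19, 8, 17, 18, 15, 20, 21, 6, 23],
  [1, 0, 3, 2, 10, 14, 11, 12, 15, 22, 4, 6, 7, 21, 5, 8, 19, 23, 20, 16, 18, 13, 9, 17],
  [1, 0, 3, 2, 10, 17, 6, 12, 8, 9, 4, 11, 7, 20, 23, 15, 16, 5, 21, 19, 13, 18, 22, 14],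
  [1, 0, 3, 2, 10, 23, 9, 12, 19, 6, 4, 22, 7, 18, 17, 16, 15, 14, 13, 8, 21, 20, 11, 5],
  [1, 0, 3, 2, 12, 5, 6, 10, 19, 9, 7, 11, 4, 21, 14, 16, 15, 17, 20, 8, 18, 13, 22, 23],
  [1, 0, 3, 2, 12, 14, 9, 10, 8, 6, 7, 22, 4, 13, 5, 15, 16, 23, 18, 19, 20, 21, 11, 17],
  [1, 0, 3, 2, 12, 17, 22, 10, 15, 11, 7, 9, 4, 18, 23, 8, 19, 5, 13, 16, 21, 20, 6, 14],
  [1, 0, 3, 2, 12, 23, 11, 10, 16, 22, 7, 6, 4, 20, 17, 19, 8, 14, 21, 15, 13, 18, 9, 5],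
  [2, 3, 0, 1, 4, 5, 11, 7, 16, 22, 10, 6, 12, 21, 14, 19, 8, 17, 20, 15, 18, 13, 9, 23],
  [2, 3, 0, 1, 4, 14, 22, 7, 15, 11, 10, 9, 12, 13, 5, 8, 19, 23, 18, 16, 20, 21, 6, 17],
  [2, 3, 0, 1, 4, 17, 9, 7, 8, 6, 10, 22, 12, 18, 23, 15, 16, 5, 13, 19, 21, 20, 11, 14],
  [2, 3, 0, 1, 4, 23, 6, 7, 19, 9, 10, 11, 12, 20, 17, 16, 15, 14, 21, 8, 13, 18, 22, 5],
  [2, 3, 0, 1, 7, 5, 9, 4, 19, 6, 12, 22, 10, 13, 14, 16, 15, 17, 18, 8, 20, 21, 11, 23],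
  [2, 3, 0, 1, 7, 14, 6, 4, 8, 9, 12, 11, 10, 21, 5, 15, 16, 23, 20, 19, 18, 13, 22, 17],
  [2, 3, 0, 1, 7, 17, 11, 4, 15, 22, 12, 6, 10, 20, 23, 8, 19, 5, 21, 16, 13, 18, 9, 14],
  [2, 3, 0, 1, 7, 23, 22, 4, 16, 11, 12, 9, 10, 18, 17, 19, 8, 14, 13, 15, 21, 20, 6, 5],
  [2, 3, 0, 1, 10, 5, 6, 12, 15, 9, 4, 11, 7, 18, 14, 8, 19, 17, 13, 16, 21, 20, 22, 23],
  [2, 3, 0, 1, 10, 14, 9, 12, 16, 6, 4, 22, 7, 20, 5, 19, 8, 23, 21, 15, 13, 18, 11, 17],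
  [2, 3, 0, 1, 10, 17, 22, 12, 19, 11, 4, 9, 7, 21, 23, 16, 15, 5, 20, 8, 18, 13, 6, 14],
  [2, 3, 0, 1, 10, 23, 11, 12, 8, 22, 4, 6, 7, 13, 17, 15, 16, 14, 18, 19, 20, 21, 9, 5],
  [2, 3, 0, 1, 12, 5, 22, 10, 8, 11, 7, 9, 4, 20, 14, 15, 16, 17, 21, 19, 13, 18, 6, 23],
  [2, 3, 0, 1, 12, 14, 11, 10, 19, 22, 7, 6, 4, 18, 5, 16, 15, 23, 13, 8, 21, 20, 9, 17],
  [2, 3, 0, 1, 12, 17, 6, 10, 16, 9, 7, 11, 4, 13, 23, 19, 8, 5, 18, 15, 20, 21, 22, 14],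
  [2, 3, 0, 1, 12, 23, 9, 10, 15, 6, 7, 22, 4, 21, 17, 8, 19, 14, 20, 16, 18, 13, 11, 5],
  [3, 2, 1, 0, 4, 5, 22, 7, 19, 11, 10, 9, 12, 18, 14, 16, 15, 17, 13, 8, 21, 20, 6, 23],
  [3, 2, 1, 0, 4, 14, 11, 7, 8, 22, 10, 6, 12, 20, 5, 15, 16, 23, 21, 19, 13, 18, 9, 17],
  [3, 2, 1, 0, 4, 17, 6, 7, 15, 9, 10, 11, 12, 21, 23, 8, 19, 5, 20, 16, 18, 13, 22, 14],
  [3, 2, 1, 0, 4, 23, 9, 7, 16, 6, 10, 22, 12, 13, 17, 19, 8, 14, 18, 15, 20, 21, 11, 5],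
  [3, 2, 1, 0, 7, 5, 6, 4, 16, 9, 12, 11, 10, 20, 14, 19, 8, 17, 21, 15, 13, 18, 22, 23],
  [3, 2, 1, 0, 7, 14, 9, 4, 15, 6, 12, 22, 10, 18, 5, 8, 19, 23, 13, 16, 21, 20, 11, 17],
  [3, 2, 1, 0, 7, 17, 22, 4, 8, 11, 12, 9, 10, 13, 23, 15, 16, 5, 18, 19, 20, 21, 6, 14],
  [3, 2, 1, 0, 7, 23, 11, 4, 19, 22, 12, 6, 10, 21, 17, 16, 15, 14, 20, 8, 18, 13, 9, 5],
  [3, 2, 1, 0, 10, 5, 9, 12, 8, 6, 4, 22, 7, 21, 14, 15, 16, 17, 20, 19, 18, 13, 11, 23],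
  [3, 2, 1, 0, 10, 14, 6, 12, 19, 9, 4, 11, 7, 13, 5, 16, 15, 23, 18, 8, 20, 21, 22, 17],
  [3, 2, 1, 0, 10, 17, 11, 12, 16, 22, 4, 6, 7, 18, 23, 19, 8, 5, 13, 15, 21, 20, 9, 14],
  [3, 2, 1, 0, 10, 23, 22, 12, 15, 11, 4, 9, 7, 20, 17, 8, 19, 14, 21, 16, 13, 18, 6, 5],
  [3, 2, 1, 0, 12, 5, 11, 10, 15, 22, 7, 6, 4, 13, 14, 8, 19, 17, 18, 16, 20, 21, 9, 23],
  [3, 2, 1, 0, 12, 14, 22, 10, 16, 11, 7, 9, 4, 21, 5, 19, 8, 23, 20, 15, 18, 13, 6, 17],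
  [3, 2, 1, 0, 12, 17, 9, 10, 19, 6, 7, 22, 4, 20, 23, 16, 15, 5, 21, 8, 13, 18, 11, 14],
  [3, 2, 1, 0, 12, 23, 6, 10, 8, 9, 7, 11, 4, 18, 17, 15, 16, 14, 13, 19, 21, 20, 22, 5]]

/-- An element of order three acting without fixed points on `EL`. -/
def tg : List ℕ := [2, 0, 1, 3, 7, 14, 9, 10, 8, 22, 4, 11, 12, 21, 17, 16, 19, 5, 18, 15, 13, 20, 6, 23]

def ta : List ℕ := [0, 1, 2, 3, 13, 5, 19, 21, 11, 15, 20, 8, 18, 4, 14, 9, 22, 17, 12, 6, 10, 7, 16, 23]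

def tb : List ℕ := [0, 2, 1, 3, 6, 17, 4, 22, 8, 10, 9, 12, 11, 21, 14, 15, 19, 5, 18, 16, 20, 13, 7, 23]

def tc : List ℕ := [14, 17, 5, 23, 6, 2, 4, 22, 18, 10, 9, 12, 11, 19, 0, 20, 21, 1, 8, 13, 15, 16, 7, 3]

def eGens : List (List ℕ) := [
  [0, 1, 2, 3, 4, 14, 9, 7, 19, 6, 10, 22, 12, 21, 5, 16, 15, 23, 20, 8, 18, 13, 11, 17],
  [0, 1, 2, 3, 4, 17, 22, 7, 16, 11, 10, 9, 12, 20, 23, 19, 8, 5, 21, 15, 13, 18, 6, 14],
  [0, 1, 2, 3, 7, 5, 22, 4, 15, 11, 12, 9, 10, 21, 14, 8, 19, 17, 20, 16, 18, 13, 6, 23],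
  [0, 1, 2, 3, 10, 5, 11, 12, 19, 22, 4, 6, 7, 20, 14, 16, 15, 17, 21, 8, 13, 18, 9, 23],
  [1, 0, 3, 2, 4, 5, 9, 7, 15, 6, 10, 22, 12, 20, 14, 8, 19, 17, 21, 16, 13, 18, 11, 23],
  [2, 3, 0, 1, 4, 5, 11, 7, 16, 22, 10, 6, 12, 21, 14, 19, 8, 17, 20, 15, 18, 13, 9, 23],
  [0, 1, 2, 3, 13, 5, 19, 21, 11, 15, 20, 8, 18, 4, 14, 9, 22, 17, 12, 6, 10, 7, 16, 23],
  [0, 2, 1, 3, 6, 17, 4, 22, 8, 10, 9, 12, 11, 21, 14, 15, 19, 5, 18, 16, 20, 13, 7, 23],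
  [14, 17, 5, 23, 6, 2, 4, 22, 18, 10, 9, 12, 11, 19, 0, 20, 21, 1, 8, 13, 15, 16, 7, 3]]

def uProg : List (ℕ × ℕ) :=
  [(0, 0), (1, 0), (8, 0), (0, 8), (8, 1), (1, 8), (4, 8), (8, 4), (6, 11), (12, 6), (12, 17), (7, 1), (1, 7), (20, 19), (19, 21), (19, 20), (21, 19), (4, 20), (21, 4), (19, 22), (23, 19), (20, 24), (4, 24), (25, 4), (20, 26), (4, 30), (30, 4), (4, 21), (20, 4), (4, 2), (19, 30), (27, 39), (39, 26), (4, 40), (40, 4)]

def uIdx : List (ℕ × ℕ × List ℕ) :=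
  [(5, 8536111, [9, 0, 1, 8, 10, 11, 13, 15]),
   (4, 8241104, [9, 19, 20, 22, 24, 2, 26, 28, 6, 30, 31, 21, 33, 25, 34, 36]),
   (0, 15, [9, 4, 40, 42]),
   (1, 6, [9, 43])]

/-- Two elements generating with `invT` an elementary abelian group of order eight, all of whose
involutions fix a point. -/
def tF : List ℕ := [2, 3, 0, 1, 10, 5, 6, 12, 15, 9, 4, 11, 7, 18, 14, 8, 19, 17, 13, 16, 21, 20, 22, 23]

def tF2 : List ℕ := [4, 12, 10, 7, 0, 5, 6, 3, 13, 9, 2, 11, 1, 8, 14, 18, 20, 17, 15, 21, 16, 19, 22, 23]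

/-- Elements for the fixed point free involutions. -/
def tFF : List ℕ := [0, 1, 2, 3, 4, 6, 5, 7, 18, 14, 10, 23, 12, 15, 9, 13, 21, 22, 8, 20, 19, 16, 17, 11]

def tFP : List ℕ := [0, 1, 3, 2, 12, 5, 6, 7, 18, 9, 10, 22, 4, 16, 14, 21, 13, 23, 8, 20, 19, 15, 11, 17]

def mt2 : List ℕ := [0, 2, 4, 6, 8, 10, 12, 14, 16, 18, 20, 22, 1, 3, 5, 7, 9, 11, 13, 15, 17, 19, 21, 23]

def u7 : List ℕ := [20, 2, 8, 17, 1, 14, 10, 18, 16, 0, 5, 11, 15, 22, 12, 19, 7, 9, 4, 6, 13, 21, 3, 23]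

def pA : List ℕ := [0, 1, 2, 3, 5, 13, 22, 14, 8, 6, 17, 11, 23, 4, 21, 16, 19, 20, 12, 15, 10, 7, 9, 18]

def pB : List ℕ := [6, 22, 9, 11, 4, 14, 15, 7, 3, 16, 10, 8, 12, 20, 17, 0, 2, 5, 18, 1, 21, 13, 19, 23]

def pC : List ℕ := [1, 2, 0, 3, 10, 17, 22, 4, 8, 6, 7, 11, 12, 20, 5, 19, 15, 14, 18, 16, 21, 13, 9, 23]

def pT3 : List ℕ := [0, 1, 2, 3, 4, 13, 15, 7, 11, 16, 10, 8, 12, 5, 21, 6, 9, 20, 23, 22, 17, 14, 19, 18]

def pProg : List (ℕ × ℕ) :=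
  [(0, 0), (1, 1), (0, 2), (1, 0), (2, 3), (1, 2), (0, 3), (0, 5), (6, 2), (1, 5), (6, 3), (0, 7), (8, 2), (0, 9), (10, 2)]

def pIdx : List (ℕ × ℕ × List ℕ) :=
  [(4, 3302576, [4, 0, 2, 5, 7, 9, 11, 13, 15]),
   (0, 32833, [4, 1, 3])]

theorem card24 : Nat.card ↥(stabM []) = 244823040 := by rw [stabM_nil]; exact card_M24

/-! ### Involutions -/

/-- The involution with table `invT`. -/
def uA' : ↥(stabM []) := el [] invT invT_in

/-- The involution with table `invB`. -/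
def uB' : ↥(stabM []) := el [] invB invB_in

theorem uA'_coe : (uA' : Equiv.Perm GolayPt) = uA :=
  eq_of_isTable (isTable_el [] invT invT_in) uA_table

theorem uB'_coe : (uB' : Equiv.Perm GolayPt) = uB :=
  eq_of_isTable (isTable_el [] invB invB_in) uB_table

theorem uA'_sq : uA' ^ 2 = 1 :=
  eq_one_of_table (by
    rw [← (by decide +kernel : mulTab invT invT = idTab), pow_two]
    exact isTable_mul (isTable_el [] invT invT_in) (isTable_el [] invT invT_in))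

theorem order_two (x : ↥(stabM [])) (h2 : x ^ 2 = 1) (h1 : x ≠ 1) :
    orderOf (x : Equiv.Perm GolayPt) = 2 := by
  apply orderOf_eq_two
  · have h := congrArg Subtype.val h2
    rw [pow_two] at h
    exact h
  · exact fun e => h1 (Subtype.ext e)

theorem hconjA : ∀ x : ↥(stabM []), x ^ 2 = 1 → x ≠ 1 →
    (∃ p, (x : Equiv.Perm GolayPt) p = p) → ∃ k : ↥(stabM []), k * x * k⁻¹ = uA' := by
  rintro x h2 h1 ⟨p, hp⟩
  have hxM : (x : Equiv.Perm GolayPt) ∈ M24 := stabM_le_M24 [] x.2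
  rcases inv_normal (x : Equiv.Perm GolayPt) hxM (order_two x h2 h1) with
    ⟨hno, _⟩ | ⟨_, k, hk, hkx⟩
  · exact absurd hp (hno p)
  · refine ⟨⟨k, by rw [stabM_nil]; exact hk⟩, Subtype.ext ?_⟩
    show k * (x : Equiv.Perm GolayPt) * k⁻¹ = (uA' : Equiv.Perm GolayPt)
    rw [hkx, uA'_coe]

theorem tF_in : tabIn [] tF = true := by decide +kernel
theorem tF2_in : tabIn [] tF2 = true := by decide +kernel
theorem tFF_in : tabIn [] tFF = true := by decide +kernel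
theorem tFP_in : tabIn [] tFP = true := by decide +kernel

theorem sevenChk : [invT, tF, tF2, mulTab invT tF, mulTab invT tF2, mulTab tF tF2,
    mulTab invT (mulTab tF tF2)].all invChk = true := by decide +kernel

theorem goodA {Γ : Type} [Group Γ] (σ : Γ →* ↥(stabM [])) (hσ : Cfsg.IsStemExtension σ)
    (hK2 : ∀ k ∈ σ.ker, k ^ 2 = 1) : StemTwo.Good σ uA' :=
  good_u [] uA' uA'_sq hconjA σ hσ hK2 invT tF tF2 invT_in tF_in tF2_in sevenChk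

theorem fiveChk : [tFF, tFP, mulTab invT tFP, mulTab tFF tFP,
    mulTab (mulTab invT tFF) tFP].all invChk = true := by decide +kernel

theorem goodB {Γ : Type} [Group Γ] (σ : Γ →* ↥(stabM [])) (hσ : Cfsg.IsStemExtension σ)
    (hK2 : ∀ k ∈ σ.ker, k ^ 2 = 1) : StemTwo.Good σ uB' := by
  have hA := goodA σ hσ hK2
  have gf := fun (x : ↥(stabM [])) (l : List ℕ) (hx : IsTable (x : Equiv.Perm GolayPt) l)
    (h : invChk l = true) => good_fix [] uA' hconjA σ hσ hA x l hx h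
  have te := isTable_el [] invT invT_in
  have tf := isTable_el [] tFF tFF_in
  have tf' := isTable_el [] tFP tFP_in
  have hchk := fiveChk
  simp only [List.all_cons, List.all_nil, Bool.and_true, Bool.and_eq_true] at hchk
  obtain ⟨c1, c2, c3, c4, c5⟩ := hchk
  have h := StemTwo.good_mul σ hσ.1 hσ.2.1 hK2 (el [] invT invT_in) (el [] tFF tFF_in)
    (el [] tFP tFP_in) hA (gf _ _ tf c1) (gf _ _ tf' c2) (gf _ _ (isTable_mul te tf') c3)
    (gf _ _ (isTable_mul tf tf') c4) (gf _ _ (isTable_mul (isTable_mul te tf) tf') c5)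
  have e : el [] invT invT_in * el [] tFF tFF_in = uB' :=
    eq_of_tables (isTable_mul te tf) (by
      rw [(by decide +kernel : mulTab invT tFF = invB)]
      exact isTable_el [] invB invB_in)
  rw [e] at h
  exact h

theorem hinv24 {Γ : Type} [Group Γ] (σ : Γ →* ↥(stabM [])) (hσ : Cfsg.IsStemExtension σ)
    (hK2 : ∀ k ∈ σ.ker, k ^ 2 = 1) : ∀ y : Γ, σ y ^ 2 = 1 → y ^ 2 = 1 := by
  intro y hy
  by_cases h1 : σ y = 1
  · exact hK2 y (MonoidHom.mem_ker.mpr h1)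
  · have hxM : ((σ y : ↥(stabM [])) : Equiv.Perm GolayPt) ∈ M24 := stabM_le_M24 [] (σ y).2
    rcases inv_normal _ hxM (order_two (σ y) hy h1) with ⟨_, k, hk, hkx⟩ | ⟨_, k, hk, hkx⟩
    · have hc : (⟨k, by rw [stabM_nil]; exact hk⟩ : ↥(stabM [])) * σ y *
          (⟨k, by rw [stabM_nil]; exact hk⟩ : ↥(stabM []))⁻¹ = uB' := by
        apply Subtype.ext
        show k * ((σ y : ↥(stabM [])) : Equiv.Perm GolayPt) * k⁻¹ = (uB' : Equiv.Perm GolayPt)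
        rw [hkx, uB'_coe]
      exact StemTwo.good_conj σ hσ.1 _ hc (goodB σ hσ hK2) y rfl
    · have hc : (⟨k, by rw [stabM_nil]; exact hk⟩ : ↥(stabM [])) * σ y *
          (⟨k, by rw [stabM_nil]; exact hk⟩ : ↥(stabM []))⁻¹ = uA' := by
        apply Subtype.ext
        show k * ((σ y : ↥(stabM [])) : Equiv.Perm GolayPt) * k⁻¹ = (uA' : Equiv.Perm GolayPt)
        rw [hkx, uA'_coe]
      exact StemTwo.good_conj σ hσ.1 _ hc (goodA σ hσ hK2) y rfl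

/-! ### The 2-part -/

theorem chk_L : EL.all (tabIn []) = true := by decide +kernel
theorem chk_g : tabIn [] tg = true := by decide +kernel
theorem chk_a : tabIn [] ta = true := by decide +kernel
theorem chk_b : tabIn [] tb = true := by decide +kernel
theorem chk_c : tabIn [] tc = true := by decide +kernel
theorem chk_2 : EL.all (fun l => mulTab l l == idTab) = true := by decide +kernel
theorem chk_cc : EL.all (fun l => EL.all (fun l' => mulTab l l' == mulTab l' l)) = true := by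
  decide +kernel
theorem chk_f : EL.all (fun l => mulTab (mulTab l (mulTab (mulTab tg l) (mulTab tg tg)))
    (mulTab (mulTab (mulTab tg tg) l) tg) == idTab) = true := by decide +kernel
theorem chk_cg : EL.all (fun l => EL.any (fun l' => mulTab tg l == mulTab l' tg)) = true := by
  decide +kernel
theorem chk_ca : EL.all (fun l => EL.any (fun l' => mulTab ta l == mulTab l' ta)) = true := by
  decide +kernel
theorem chk_cb : EL.all (fun l => EL.any (fun l' => mulTab tb l == mulTab l' tb)) = true := by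
  decide +kernel
theorem chk_ccc : EL.all (fun l => EL.any (fun l' => mulTab tc l == mulTab l' tc)) = true := by
  decide +kernel
theorem chk_g3 : powTab tg 3 = idTab := by decide +kernel
theorem chk_a2 : mulTab ta ta = idTab := by decide +kernel
theorem chk_b2 : mulTab tb tb = idTab := by decide +kernel
theorem chk_c2 : mulTab tc tc = idTab := by decide +kernel
theorem chk_ab4 : powTab (mulTab ta tb) 4 = idTab := by decide +kernel
theorem chk_ac : mulTab ta tc = mulTab tc ta := by decide +kernel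
theorem chk_bc : mulTab tb tc = mulTab tc tb := by decide +kernel
theorem chk_ag : mulTab ta tg = mulTab tg ta ∨ mulTab ta tg = mulTab (mulTab tg tg) ta := by
  decide +kernel
theorem chk_bg : mulTab tb tg = mulTab tg tb ∨ mulTab tb tg = mulTab (mulTab tg tg) tb := by
  decide +kernel
theorem chk_cgg : mulTab tc tg = mulTab tg tc ∨ mulTab tc tg = mulTab (mulTab tg tg) tc := by
  decide +kernel
theorem chk_LT : EL.all (fun l => preMask l 5264 == 5264) = true := by decide +kernel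
theorem chk_abT : preMask (powTab (mulTab ta tb) 2) 5264 ≠ 5264 := by decide +kernel
theorem chk_gens : eGens.all (fun l => EL.any (fun l' => l == l') || (l == ta) || (l == tb)
    || (l == tc)) = true := by decide +kernel
theorem chk_chain : chainGen [] (slpChain (slpTabs uProg eGens) uIdx) = true := by decide +kernel
theorem chk_prod : chainProd (slpChain (slpTabs uProg eGens) uIdx) = 2 ^ 10 := by decide +kernel

theorem ker_exp2 {Γ : Type} [Group Γ] (σ : Γ →* ↥(stabM [])) (hσ : Cfsg.IsStemExtension σ)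
    (hK2 : ∀ k ∈ σ.ker, k ^ 2 = 1) : σ.ker = ⊥ :=
  two_part_tab [] σ hσ (hinv24 σ hσ hK2) EL tg ta tb tc 5264 eGens uProg uIdx 10 239085
    ⟨119542, by norm_num⟩ (by rw [card24]; norm_num) chk_L chk_g chk_a chk_b chk_c chk_2 chk_cc chk_f
    chk_cg chk_ca chk_cb chk_ccc chk_g3 chk_a2 chk_b2 chk_c2 chk_ab4 chk_ac chk_bc chk_ag chk_bg
    chk_cgg (by norm_num) chk_LT chk_abT chk_gens chk_chain chk_prod

/-! ### The odd part -/

theorem tabT_in : tabIn [] tabT = true := by decide +kernel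
theorem tabD_in : tabIn [] tabD = true := by decide +kernel
theorem mt2_in : tabIn [] mt2 = true := by decide +kernel
theorem u7_in : tabIn [] u7 = true := by decide +kernel
theorem pA_in : tabIn [] pA = true := by decide +kernel
theorem pB_in : tabIn [] pB = true := by decide +kernel
theorem pC_in : tabIn [] pC = true := by decide +kernel
theorem pT3_in : tabIn [] pT3 = true := by decide +kernel
theorem p_chain : chainGen [] (slpChain (slpTabs pProg [pA, pB]) pIdx) = true := by decide +kernel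
theorem p_prod : chainProd (slpChain (slpTabs pProg [pA, pB]) pIdx) = 27 := by decide +kernel

theorem odd_part {Γ : Type} [Group Γ] (σ : Γ →* ↥(stabM [])) (hσ : Cfsg.IsStemExtension σ) :
    ∀ z ∈ σ.ker, z ^ 2 ^ 10 = 1 := by
  intro z hz
  have h23 : z ^ 10644480 = 1 := by
    have : Fact (Nat.Prime 23) := ⟨by norm_num⟩
    exact cyc_tab [] σ hσ tabT tabT_in 23 (by decide +kernel) 0 (by norm_num) (by decide +kernel)
      10644480 (by rw [card24]) hz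
  have h11 : z ^ 22256640 = 1 := by
    have : Fact (Nat.Prime 11) := ⟨by norm_num⟩
    exact cyc_tab [] σ hσ mt2 mt2_in 11 (by decide +kernel) 1 (by norm_num) (by decide +kernel)
      22256640 (by rw [card24]) hz
  have h7 : z ^ 34974720 = 1 := by
    have : Fact (Nat.Prime 7) := ⟨by norm_num⟩
    exact cyc_tab [] σ hσ u7 u7_in 7 (by decide +kernel) 0 (by norm_num) (by decide +kernel)
      34974720 (by rw [card24]) hz
  have h5 : z ^ 48964608 = 1 := by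
    have : Fact (Nat.Prime 5) := ⟨by norm_num⟩
    exact cyc_tab [] σ hσ tabD tabD_in 5 (by decide +kernel) 1 (by norm_num) (by decide +kernel)
      48964608 (by rw [card24]) hz
  have h3 : z ^ 9067520 = 1 :=
    es27_tab [] σ hσ pA pB pC pT3 pA_in pB_in pC_in pT3_in (by decide +kernel) (by decide +kernel)
      (by decide +kernel) 0 (by norm_num) (by decide +kernel) (by decide +kernel)
      (by decide +kernel) (by decide +kernel) (by decide +kernel) (by decide +kernel)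
      pProg pIdx p_chain p_prod 9067520 (by rw [card24]) hz
  have d1 := orderOf_dvd_of_pow_eq_one h23
  have d2 := orderOf_dvd_of_pow_eq_one h11
  have d3 := orderOf_dvd_of_pow_eq_one h7
  have d4 := orderOf_dvd_of_pow_eq_one h5
  have d5 := orderOf_dvd_of_pow_eq_one h3
  have d6 : orderOf z ∣ Nat.gcd (Nat.gcd (Nat.gcd 10644480 22256640) (Nat.gcd 34974720 48964608)) 9067520 :=
    Nat.dvd_gcd (Nat.dvd_gcd (Nat.dvd_gcd d1 d2) (Nat.dvd_gcd d3 d4)) d5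
  have d7 : Nat.gcd (Nat.gcd (Nat.gcd 10644480 22256640) (Nat.gcd 34974720 48964608)) 9067520 = 2 ^ 10 := by
    decide
  rw [d7] at d6
  exact orderOf_dvd_iff_pow_eq_one.mp d6

/-- Every finite stem extension of the group of the code has trivial kernel. -/
theorem ker_eq_bot {Γ : Type} [Group Γ] [Finite Γ] (σ : Γ →* ↥(stabM []))
    (hσ : Cfsg.IsStemExtension σ) : σ.ker = ⊥ :=
  StemTwo.reduce_exp2 10 (fun _ _ _ τ hτ h2 => ker_exp2 τ hτ h2) σ hσ (odd_part σ hσ)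

theorem transport {P : Type} [Group P] {H K : Subgroup P} (e : H = K)
    (h : Cfsg.HasCyclicSchurMultiplier ↥H 1) : Cfsg.HasCyclicSchurMultiplier ↥K 1 := by
  subst e; exact h

theorem main : Cfsg.HasCyclicSchurMultiplier ↥Cfsg.M24 1 :=
  transport stabM_nil (trivial_of_ker_bot (fun _ _ _ σ hσ => ker_eq_bot σ hσ))

end Cfsg.Agent.Lib.helper27.M24S
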