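import Mathlib
import Cfsg.Prelude.Def_KGroupFacts
import Cfsg.Agent.Lib.helper27.StemTransfer

set_option autoImplicit false

/-! Tools for killing the 2-part (and an extraspecial 3-part) of the kernel of a stem extension.

* `reduce_exp2`: it suffices to treat stem extensions whose kernel has exponent two;
* `Good`: an element all of whose lifts square to one; criteria through elementary abelian
  subgroups of order eight;
* `two_part`: if all involutions lift to involutions, and a subgroup `E : D` of odd index is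
  given with `E` elementary abelian, normalized by an element of order three acting without
  fixed points, and `D` a quotient of `D₈ × 2` normalizing the group generated by that element,
  with the square of the rotation of `D` outside `E`, then the kernel is trivial;
* `es27_pow_index`: transfer to an extraspecial group of order 27 and exponent 3 admitting an
  automorphism inverting both generators. -/

namespace Cfsg.Agent.Lib.helper27.StemTwo

open Cfsg.Agent.Lib.helper20 Cfsg.Agent.Lib.helper27.Stem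
open scoped commutatorElement

universe u v

section closure

variable {P : Type u} [Group P]

theorem conj_mem_closure (S : Set P) (x : P)
    (h : ∀ s ∈ S, x * s * x⁻¹ ∈ Subgroup.closure S) :
    ∀ e ∈ Subgroup.closure S, x * e * x⁻¹ ∈ Subgroup.closure S := by
  have h1 : Subgroup.closure S ≤ (Subgroup.closure S).comap (MulAut.conj x).toMonoidHom := by
    rw [Subgroup.closure_le]
    intro s hs
    exact h s hs
  intro e he
  exact h1 he

theorem closure_comm (S : Set P) (hSc : ∀ s ∈ S, ∀ t ∈ S, s * t = t * s) :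
    ∀ e ∈ Subgroup.closure S, ∀ f ∈ Subgroup.closure S, e * f = f * e := by
  intro e he f hf
  have hI := Subgroup.isMulCommutative_closure hSc
  have := mul_comm' (⟨e, he⟩ : Subgroup.closure S) ⟨f, hf⟩
  exact congrArg Subtype.val this

theorem closure_sq (S : Set P) (hS2 : ∀ s ∈ S, s ^ 2 = 1)
    (hSc : ∀ s ∈ S, ∀ t ∈ S, s * t = t * s) : ∀ e ∈ Subgroup.closure S, e ^ 2 = 1 := by
  intro e he
  induction he using Subgroup.closure_induction with
  | mem s hs => exact hS2 s hs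
  | one => exact one_pow 2
  | mul x y hx hy ihx ihy =>
    have hc : Commute x y := closure_comm S hSc x hx y hy
    rw [hc.mul_pow, ihx, ihy, one_mul]
  | inv x hx ih => rw [inv_pow, ih, inv_one]

theorem mem_normalizer_of_conj (W : Subgroup P) (g : P)
    (h1 : ∀ w ∈ W, g * w * g⁻¹ ∈ W) (h2 : ∀ w ∈ W, g⁻¹ * w * g ∈ W) :
    g ∈ Subgroup.normalizer (W : Set P) := by
  rw [Subgroup.mem_normalizer_iff]
  intro h
  constructor
  · exact h1 h
  · intro hh
    have := h2 _ hh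
    have e : g⁻¹ * (g * h * g⁻¹) * g = h := by group
    rwa [e] at this

theorem fpf_closure (S : Set P) (hSc : ∀ s ∈ S, ∀ t ∈ S, s * t = t * s) (g : P)
    (hgS : ∀ e ∈ Subgroup.closure S, g * e * g⁻¹ ∈ Subgroup.closure S)
    (hfpf : ∀ s ∈ S, s * (g * s * g⁻¹) * (g⁻¹ * s * g) = 1) :
    ∀ e ∈ Subgroup.closure S, e * (g * e * g⁻¹) * (g⁻¹ * e * g) = 1 := by
  have hcomm := closure_comm S hSc
  have hinvmem : ∀ e ∈ Subgroup.closure S, e * (g * e * g⁻¹) * (g⁻¹ * e * g) = 1 →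
      g⁻¹ * e * g ∈ Subgroup.closure S := by
    intro e he h
    have : g⁻¹ * e * g = (e * (g * e * g⁻¹))⁻¹ := eq_inv_of_mul_eq_one_right h
    rw [this]
    exact Subgroup.inv_mem _ (Subgroup.mul_mem _ he (hgS e he))
  intro e he
  induction he using Subgroup.closure_induction with
  | mem s hs => exact hfpf s hs
  | one => group
  | mul x y hx hy ihx ihy =>
    have hx1 := hgS x hx
    have hy1 := hgS y hy
    have hx2 := hinvmem x hx ihx
    have e1 : g * (x * y) * g⁻¹ = (g * x * g⁻¹) * (g * y * g⁻¹) := by group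
    have e2 : g⁻¹ * (x * y) * g = (g⁻¹ * x * g) * (g⁻¹ * y * g) := by group
    rw [e1, e2]
    calc x * y * (g * x * g⁻¹ * (g * y * g⁻¹)) * (g⁻¹ * x * g * (g⁻¹ * y * g))
        = x * (y * (g * x * g⁻¹)) * (g * y * g⁻¹) * (g⁻¹ * x * g) * (g⁻¹ * y * g) := by group
      _ = x * ((g * x * g⁻¹) * y) * (g * y * g⁻¹) * (g⁻¹ * x * g) * (g⁻¹ * y * g) := by
          rw [hcomm y hy _ hx1]
      _ = x * (g * x * g⁻¹) * ((y * (g * y * g⁻¹)) * (g⁻¹ * x * g)) * (g⁻¹ * y * g) := by group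
      _ = x * (g * x * g⁻¹) * ((g⁻¹ * x * g) * (y * (g * y * g⁻¹))) * (g⁻¹ * y * g) := by
          rw [hcomm _ (Subgroup.mul_mem _ hy hy1) _ hx2]
      _ = (x * (g * x * g⁻¹) * (g⁻¹ * x * g)) * (y * (g * y * g⁻¹) * (g⁻¹ * y * g)) := by group
      _ = 1 := by rw [ihx, ihy, one_mul]
  | inv x hx ih =>
    have hx1 := hgS x hx
    have hx2 := hinvmem x hx ih
    have e1 : x⁻¹ * (g * x⁻¹ * g⁻¹) * (g⁻¹ * x⁻¹ * g)
        = ((g⁻¹ * x * g) * (g * x * g⁻¹) * x)⁻¹ := by group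
    rw [e1, inv_eq_one]
    calc g⁻¹ * x * g * (g * x * g⁻¹) * x = (g⁻¹ * x * g) * ((g * x * g⁻¹) * x) := by group
      _ = (g⁻¹ * x * g) * (x * (g * x * g⁻¹)) := by rw [hcomm _ hx1 x hx]
      _ = (x * (g * x * g⁻¹)) * (g⁻¹ * x * g) := hcomm _ hx2 _ (Subgroup.mul_mem _ hx hx1)
      _ = 1 := ih

/-- If `W` is normalized by the elements of `S` and contains the commutators of the elements of
`S`, then it contains the commutator subgroup of the group generated by `S`. -/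
theorem commutator_closure_le (S : Set P) (W : Subgroup P)
    (hn : ∀ s ∈ S, ∀ w ∈ W, s * w * s⁻¹ ∈ W ∧ s⁻¹ * w * s ∈ W)
    (hc : ∀ s ∈ S, ∀ t ∈ S, s * t * s⁻¹ * t⁻¹ ∈ W) :
    ⁅Subgroup.closure S, Subgroup.closure S⁆ ≤ W := by
  have hA : ∀ h ∈ Subgroup.closure S, ∀ w ∈ W, h * w * h⁻¹ ∈ W ∧ h⁻¹ * w * h ∈ W := by
    intro h hh
    induction hh using Subgroup.closure_induction with
    | mem s hs => exact hn s hs
    | one => intro w hw; simpa using hw
    | mul x y hx hy ihx ihy =>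
      intro w hw
      constructor
      · have := (ihx _ (ihy w hw).1).1
        have e : x * y * w * (x * y)⁻¹ = x * (y * w * y⁻¹) * x⁻¹ := by group
        rw [e]; exact this
      · have := (ihy _ (ihx w hw).2).2
        have e : (x * y)⁻¹ * w * (x * y) = y⁻¹ * (x⁻¹ * w * x) * y := by group
        rw [e]; exact this
    | inv x hx ih =>
      intro w hw
      constructor
      · have := (ih w hw).2
        rwa [inv_inv]
      · have := (ih w hw).1
        rwa [inv_inv]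
  have hB : ∀ t ∈ S, ∀ h ∈ Subgroup.closure S, h * t * h⁻¹ * t⁻¹ ∈ W := by
    intro t ht h hh
    induction hh using Subgroup.closure_induction with
    | mem s hs => exact hc s hs t ht
    | one =>
      have e : (1 : P) * t * 1⁻¹ * t⁻¹ = 1 := by group
      rw [e]; exact W.one_mem
    | mul x y hx hy ihx ihy =>
      have e : x * y * t * (x * y)⁻¹ * t⁻¹
          = x * (y * t * y⁻¹ * t⁻¹) * x⁻¹ * (x * t * x⁻¹ * t⁻¹) := by group
      rw [e]
      exact W.mul_mem (hA x hx _ ihy).1 ihx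
    | inv x hx ih =>
      have e : x⁻¹ * t * x⁻¹⁻¹ * t⁻¹ = x⁻¹ * (x * t * x⁻¹ * t⁻¹)⁻¹ * x := by group
      rw [e]
      exact (hA x hx _ (W.inv_mem ih)).2
  have hC : ∀ h ∈ Subgroup.closure S, ∀ h' ∈ Subgroup.closure S,
      h * h' * h⁻¹ * h'⁻¹ ∈ W := by
    intro h hh h' hh'
    induction hh' using Subgroup.closure_induction with
    | mem t ht => exact hB t ht h hh
    | one =>
      have e : h * 1 * h⁻¹ * (1 : P)⁻¹ = 1 := by group
      rw [e]; exact W.one_mem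
    | mul x y hx hy ihx ihy =>
      have e : h * (x * y) * h⁻¹ * (x * y)⁻¹
          = (h * x * h⁻¹ * x⁻¹) * (x * (h * y * h⁻¹ * y⁻¹) * x⁻¹) := by group
      rw [e]
      exact W.mul_mem ihx (hA x hx _ ihy).1
    | inv x hx ih =>
      have e : h * x⁻¹ * h⁻¹ * x⁻¹⁻¹ = x⁻¹ * (h * x * h⁻¹ * x⁻¹)⁻¹ * x := by group
      rw [e]
      exact (hA x hx _ (W.inv_mem ih)).2
  rw [Subgroup.commutator_le]
  intro g₁ h₁ g₂ h₂
  rw [commutatorElement_def]
  exact hC g₁ h₁ g₂ h₂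

end closure

section good

variable {Γ : Type u} {G : Type v} [Group Γ] [Group G]

/-- All lifts of `x` square to one. -/
def Good (σ : Γ →* G) (x : G) : Prop := ∀ y : Γ, σ y = x → y ^ 2 = 1

theorem good_conj (σ : Γ →* G) (hsurj : Function.Surjective σ) {x u : G} (g : G)
    (h : g * x * g⁻¹ = u) (hu : Good σ u) : Good σ x := by
  intro y hy
  obtain ⟨t, rfl⟩ := hsurj g
  have h1 : (t * y * t⁻¹) ^ 2 = 1 := hu _ (by rw [map_mul, map_mul, map_inv, hy, h])
  have e : y ^ 2 = t⁻¹ * (t * y * t⁻¹) ^ 2 * t := by rw [conj_pow]; group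
  rw [e, h1]; group

theorem sq_eq_of_conj (σ : Γ →* G) (hsurj : Function.Surjective σ)
    (hc : σ.ker ≤ Subgroup.center Γ) (hK2 : ∀ k ∈ σ.ker, k ^ 2 = 1) {x u : G} (hu : u ^ 2 = 1)
    (g : G) (h : g * x * g⁻¹ = u) (w y : Γ) (hw : σ w = u) (hy : σ y = x) : y ^ 2 = w ^ 2 := by
  obtain ⟨t, rfl⟩ := hsurj g
  have hx2 : x ^ 2 = 1 := by
    have e : x ^ 2 = (σ t)⁻¹ * (σ t * x * (σ t)⁻¹) ^ 2 * σ t := by rw [conj_pow]; group
    rw [e, h, hu]; group
  have hy2 : y ^ 2 ∈ σ.ker := by rw [MonoidHom.mem_ker, map_pow, hy, hx2]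
  have hy2c := Subgroup.mem_center_iff.mp (hc hy2)
  obtain ⟨k, hk, hk'⟩ : ∃ k ∈ σ.ker, t * y * t⁻¹ = w * k := by
    refine ⟨w⁻¹ * (t * y * t⁻¹), ?_, by group⟩
    rw [MonoidHom.mem_ker, map_mul, map_inv, map_mul, map_mul, map_inv, hy, h, hw, inv_mul_cancel]
  have hkc := Subgroup.mem_center_iff.mp (hc hk)
  have e1 : (t * y * t⁻¹) ^ 2 = y ^ 2 := by
    have e : (t * y * t⁻¹) ^ 2 = t * y ^ 2 * t⁻¹ := conj_pow
    rw [e, hy2c t, mul_inv_cancel_right]
  have e2 : (w * k) ^ 2 = w ^ 2 := by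
    have hcm : Commute w k := hkc w
    rw [hcm.mul_pow, hK2 k hk, mul_one]
  rw [← e1, hk', e2]

theorem comm_of_sq {x y c : Γ} (hc2 : c ^ 2 = 1) (hx : x ^ 2 = c)
    (hy : y ^ 2 = c) (hxy : (x * y) ^ 2 = c) : y * x = x * y * c := by
  have hxi : x⁻¹ = x * c := inv_eq_of_mul_eq_one_right (by
    rw [← mul_assoc, ← pow_two, hx, ← pow_two, hc2])
  have hyi : y⁻¹ = y * c := inv_eq_of_mul_eq_one_right (by
    rw [← mul_assoc, ← pow_two, hy, ← pow_two, hc2])
  have h1 : y * x = x⁻¹ * (x * y) ^ 2 * y⁻¹ := by rw [pow_two]; group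
  rw [h1, hxy, hxi, hyi]
  calc x * c * c * (y * c) = x * c ^ 2 * (y * c) := by rw [pow_two, mul_assoc x c c]
    _ = x * y * c := by rw [hc2, mul_one, mul_assoc]

/-- If the seven involutions of an elementary abelian group of order eight are all conjugate
to `u`, then the lifts of `u` are involutions. -/
theorem good_of_seven (σ : Γ →* G) (hsurj : Function.Surjective σ)
    (hc : σ.ker ≤ Subgroup.center Γ) (hK2 : ∀ k ∈ σ.ker, k ^ 2 = 1) (e f f' u : G)
    (hu : u ^ 2 = 1)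
    (h1 : ∃ g, g * e * g⁻¹ = u) (h2 : ∃ g, g * f * g⁻¹ = u) (h3 : ∃ g, g * f' * g⁻¹ = u)
    (h4 : ∃ g, g * (e * f) * g⁻¹ = u) (h5 : ∃ g, g * (e * f') * g⁻¹ = u)
    (h6 : ∃ g, g * (f * f') * g⁻¹ = u) (h7 : ∃ g, g * (e * (f * f')) * g⁻¹ = u) :
    Good σ u := by
  intro w hw
  obtain ⟨x, rfl⟩ := hsurj e
  obtain ⟨y, rfl⟩ := hsurj f
  obtain ⟨y', rfl⟩ := hsurj f'
  have sq : ∀ {v : G}, (∃ g, g * v * g⁻¹ = u) → ∀ r : Γ, σ r = v → r ^ 2 = w ^ 2 := by
    rintro v ⟨g, hg⟩ r hr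
    exact sq_eq_of_conj σ hsurj hc hK2 hu g hg w r hw hr
  have hck : w ^ 2 ∈ σ.ker := by rw [MonoidHom.mem_ker, map_pow, hw, hu]
  have hcc : ∀ g : Γ, g * w ^ 2 = w ^ 2 * g := Subgroup.mem_center_iff.mp (hc hck)
  have hc2 : (w ^ 2) ^ 2 = 1 := hK2 _ hck
  have s1 := sq h1 x rfl
  have s2 := sq h2 y rfl
  have s3 := sq h3 y' rfl
  have s4 := sq h4 (x * y) (map_mul _ _ _)
  have s5 := sq h5 (x * y') (map_mul _ _ _)
  have s6 := sq h6 (y * y') (map_mul _ _ _)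
  have s7 := sq h7 (x * (y * y')) (by rw [map_mul, map_mul])
  have c1 := comm_of_sq hc2 s1 s2 s4
  have c2 := comm_of_sq hc2 s1 s3 s5
  have c3 := comm_of_sq hc2 s1 s6 s7
  have key : x * (y * y') * w ^ 2 = x * (y * y') := by
    rw [← c3]
    calc y * y' * x = y * (y' * x) := by group
      _ = y * (x * y' * w ^ 2) := by rw [c2]
      _ = (y * x) * y' * w ^ 2 := by group
      _ = x * y * w ^ 2 * y' * w ^ 2 := by rw [c1]
      _ = x * y * (w ^ 2 * y') * w ^ 2 := by group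
      _ = x * y * (y' * w ^ 2) * w ^ 2 := by rw [hcc y']
      _ = x * (y * y') * ((w ^ 2) * (w ^ 2)) := by group
      _ = x * (y * y') := by rw [← pow_two, hc2, mul_one]
  exact mul_eq_left.mp key

theorem comm_of_good {x y : Γ} (hx : x ^ 2 = 1) (hy : y ^ 2 = 1) (hxy : (x * y) ^ 2 = 1) :
    x * y = y * x := by
  have h1 : y * x = x⁻¹ * (x * y) ^ 2 * y⁻¹ := by rw [pow_two]; group
  have h2 : x * y = x ^ 2 * (x⁻¹ * y⁻¹) * y ^ 2 := by rw [pow_two, pow_two]; group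
  rw [h1, hxy, h2, hx, hy]; group

/-- If in an elementary abelian group `⟨e, f, f'⟩` all involutions other than `e f` are good,
then `e f` is good. -/
theorem good_mul (σ : Γ →* G) (hsurj : Function.Surjective σ)
    (hc : σ.ker ≤ Subgroup.center Γ) (hK2 : ∀ k ∈ σ.ker, k ^ 2 = 1) (e f f' : G)
    (he : Good σ e) (hf : Good σ f) (hf' : Good σ f') (h1 : Good σ (e * f'))
    (h2 : Good σ (f * f')) (h3 : Good σ (e * f * f')) : Good σ (e * f) := by
  obtain ⟨x, rfl⟩ := hsurj e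
  obtain ⟨y, rfl⟩ := hsurj f
  obtain ⟨y', rfl⟩ := hsurj f'
  intro w hw
  have hx := he x rfl
  have hy := hf y rfl
  have hy' := hf' y' rfl
  have hxy' := h1 (x * y') (map_mul _ _ _)
  have hyy' := h2 (y * y') (map_mul _ _ _)
  have hxyy' := h3 (x * y * y') (by rw [map_mul, map_mul])
  have c1 : x * y' = y' * x := comm_of_good hx hy' hxy'
  have c2 : y * y' = y' * y := comm_of_good hy hy' hyy'
  have e1 : (x * y) ^ 2 = 1 := by
    have hcm : Commute (x * y) y' := by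
      show x * y * y' = y' * (x * y)
      rw [mul_assoc, c2, ← mul_assoc, c1, mul_assoc]
    rw [hcm.mul_pow, hy', mul_one] at hxyy'
    exact hxyy'
  obtain ⟨k, hk, rfl⟩ : ∃ k ∈ σ.ker, w = x * y * k := by
    refine ⟨(x * y)⁻¹ * w, ?_, by group⟩
    rw [MonoidHom.mem_ker, map_mul, map_inv, hw, map_mul, inv_mul_cancel]
  have hcm : Commute (x * y) k := Subgroup.mem_center_iff.mp (hc hk) (x * y)
  rw [hcm.mul_pow, e1, hK2 k hk, mul_one]

end good

section reduce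

/-- To show that all finite stem extensions of `G` with kernel of 2-power exponent are trivial,
it suffices to treat those with kernel of exponent two. -/
theorem reduce_exp2 {Γ : Type u} {G : Type v} [Group Γ] [Group G] [Finite Γ] (a : ℕ)
    (h2 : ∀ (Δ : Type u) [Group Δ] [Finite Δ] (τ : Δ →* G), Cfsg.IsStemExtension τ →
      (∀ k ∈ τ.ker, k ^ 2 = 1) → τ.ker = ⊥)
    (σ : Γ →* G) (hσ : Cfsg.IsStemExtension σ) (hpow : ∀ z ∈ σ.ker, z ^ (2 ^ a) = 1) :
    σ.ker = ⊥ := by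
  have hcz : ∀ {k : Γ}, k ∈ σ.ker → ∀ g : Γ, g * k = k * g := fun hk g =>
    Subgroup.mem_center_iff.mp (hσ.2.1 hk) g
  let N : Subgroup Γ :=
    { carrier := {x | ∃ k ∈ σ.ker, k ^ 2 = x}
      mul_mem' := by
        rintro _ _ ⟨k1, hk1, rfl⟩ ⟨k2, hk2, rfl⟩
        exact ⟨k1 * k2, σ.ker.mul_mem hk1 hk2, (show Commute k1 k2 from hcz hk2 k1).mul_pow 2⟩
      one_mem' := ⟨1, σ.ker.one_mem, one_pow 2⟩
      inv_mem' := by
        rintro _ ⟨k, hk, rfl⟩
        exact ⟨k⁻¹, σ.ker.inv_mem hk, inv_pow k 2⟩ }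
  have hNK : N ≤ σ.ker := by
    rintro _ ⟨k, hk, rfl⟩
    exact σ.ker.pow_mem hk 2
  have hNn : N.Normal := by
    refine ⟨fun n hn g => ?_⟩
    rw [hcz (hNK hn) g, mul_inv_cancel_right]
    exact hn
  let τ : Γ ⧸ N →* G := QuotientGroup.lift N σ hNK
  have hτmk : ∀ x : Γ, τ (QuotientGroup.mk x) = σ x := fun x => rfl
  have hτ : Cfsg.IsStemExtension τ := by
    refine ⟨?_, ?_, ?_⟩
    · intro g
      obtain ⟨x, rfl⟩ := hσ.1 g
      exact ⟨QuotientGroup.mk x, hτmk x⟩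
    · intro q hq
      induction q using QuotientGroup.induction_on with
      | H x =>
        rw [MonoidHom.mem_ker, hτmk] at hq
        rw [Subgroup.mem_center_iff]
        intro r
        induction r using QuotientGroup.induction_on with
        | H y =>
          rw [← QuotientGroup.mk_mul, ← QuotientGroup.mk_mul, hcz hq y]
    · intro q hq
      induction q using QuotientGroup.induction_on with
      | H x =>
        rw [MonoidHom.mem_ker, hτmk] at hq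
        have hx : x ∈ commutator Γ := hσ.2.2 hq
        have h1 : (commutator Γ).map (QuotientGroup.mk' N) ≤ commutator (Γ ⧸ N) := by
          rw [commutator_def, commutator_def, Subgroup.map_commutator]
          exact Subgroup.commutator_mono le_top le_top
        exact h1 ⟨x, hx, rfl⟩
  have hτ2 : ∀ k ∈ τ.ker, k ^ 2 = 1 := by
    intro q hq
    induction q using QuotientGroup.induction_on with
    | H x =>
      rw [MonoidHom.mem_ker, hτmk] at hq
      rw [← QuotientGroup.mk_pow]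
      exact (QuotientGroup.eq_one_iff _).mpr ⟨x, hq, rfl⟩
  have hbot := h2 (Γ ⧸ N) τ hτ hτ2
  have hsq : ∀ z ∈ σ.ker, ∃ w ∈ σ.ker, w ^ 2 = z := by
    intro z hz
    have h1 : (QuotientGroup.mk z : Γ ⧸ N) ∈ τ.ker := by rw [MonoidHom.mem_ker, hτmk]; exact hz
    rw [hbot, Subgroup.mem_bot, QuotientGroup.eq_one_iff] at h1
    exact h1
  have hall : ∀ n : ℕ, ∀ z ∈ σ.ker, ∃ w ∈ σ.ker, w ^ (2 ^ n) = z := by
    intro n
    induction n with
    | zero => intro z hz; exact ⟨z, hz, by rw [pow_zero, pow_one]⟩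
    | succ n ih =>
      intro z hz
      obtain ⟨w, hw, rfl⟩ := hsq z hz
      obtain ⟨w', hw', rfl⟩ := ih w hw
      exact ⟨w', hw', by rw [← pow_mul, ← pow_succ]⟩
  rw [eq_bot_iff]
  intro z hz
  obtain ⟨w, hw, rfl⟩ := hall a z hz
  rw [Subgroup.mem_bot]
  exact hpow w hw

end reduce

section twopart

theorem conj_mul_central {Γ : Type u} [Group Γ] {t k : Γ} (hk : ∀ r : Γ, r * k = k * r) (v : Γ) :
    (t * k) * v * (t * k)⁻¹ = t * v * t⁻¹ := by
  rw [mul_inv_rev]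
  calc t * k * v * (k⁻¹ * t⁻¹) = t * (k * v) * k⁻¹ * t⁻¹ := by group
    _ = t * (v * k) * k⁻¹ * t⁻¹ := by rw [hk v]
    _ = t * v * t⁻¹ := by group

theorem conj_mul_central' {Γ : Type u} [Group Γ] {t k : Γ} (hk : ∀ r : Γ, r * k = k * r)
    (v : Γ) : (t * k)⁻¹ * v * (t * k) = t⁻¹ * v * t := by
  rw [mul_inv_rev]
  calc k⁻¹ * t⁻¹ * v * (t * k) = k⁻¹ * ((t⁻¹ * v * t) * k) := by group
    _ = k⁻¹ * (k * (t⁻¹ * v * t)) := by rw [hk]
    _ = t⁻¹ * v * t := by group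

theorem mem_normalizer_sup_zpowers {P : Type u} [Group P] (W : Subgroup P) (q s : P)
    (h1 : s * q * s⁻¹ ∈ Subgroup.zpowers q ⊔ W) (h2 : s⁻¹ * q * s ∈ Subgroup.zpowers q ⊔ W)
    (h3 : ∀ u ∈ W, s * u * s⁻¹ ∈ W) (h4 : ∀ u ∈ W, s⁻¹ * u * s ∈ W) :
    s ∈ Subgroup.normalizer ((Subgroup.zpowers q ⊔ W : Subgroup P) : Set P) := by
  have key : ∀ r : P, r * q * r⁻¹ ∈ Subgroup.zpowers q ⊔ W → (∀ u ∈ W, r * u * r⁻¹ ∈ W) →
      ∀ m ∈ Subgroup.zpowers q ⊔ W, r * m * r⁻¹ ∈ Subgroup.zpowers q ⊔ W := by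
    intro r hr1 hr3
    have hle : Subgroup.zpowers q ⊔ W
        ≤ (Subgroup.zpowers q ⊔ W).comap (MulAut.conj r).toMonoidHom := by
      rw [sup_le_iff, Subgroup.zpowers_le]
      exact ⟨hr1, fun u hu => Subgroup.mem_sup_right (hr3 u hu)⟩
    intro m hm
    exact hle hm
  refine mem_normalizer_of_conj _ s (key s h1 h3) ?_
  have hk := key s⁻¹ (by rwa [inv_inv]) (by intro u hu; rw [inv_inv]; exact h4 u hu)
  intro m hm
  have h := hk m hm
  rwa [inv_inv] at h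

theorem index_odd {G : Type v} [Group G] [Finite G] (S : Set G)
    (hS2 : ∀ s ∈ S, s ^ 2 = 1) (hSc : ∀ s ∈ S, ∀ t ∈ S, s * t = t * s) (a b c : G)
    (ha : a ^ 2 = 1) (hb : b ^ 2 = 1) (hc : c ^ 2 = 1) (hab : (a * b) ^ 4 = 1)
    (hac : a * c = c * a) (hbc : b * c = c * b)
    (haS : ∀ s ∈ S, a * s * a⁻¹ ∈ Subgroup.closure S)
    (hbS : ∀ s ∈ S, b * s * b⁻¹ ∈ Subgroup.closure S)
    (hcS : ∀ s ∈ S, c * s * c⁻¹ ∈ Subgroup.closure S)
    (n m : ℕ) (hm : Odd m) (hG : Nat.card G = 2 ^ n * m)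
    (hU : 2 ^ n ≤ Nat.card
      (Subgroup.closure S ⊔ Subgroup.closure ({a, b, c} : Set G) : Subgroup G)) :
    (Subgroup.closure S ⊔ Subgroup.closure ({a, b, c} : Set G) : Subgroup G).index = m := by
  have : Fact (Nat.Prime 2) := ⟨Nat.prime_two⟩
  have hE2 := closure_sq S hS2 hSc
  have hPE : IsPGroup 2 (Subgroup.closure S) := by
    rintro ⟨e, he⟩
    exact ⟨1, Subtype.ext (by rw [pow_one]; exact hE2 e he)⟩
  have ainv : a⁻¹ = a := by rw [inv_eq_iff_mul_eq_one, ← pow_two, ha]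
  have binv : b⁻¹ = b := by rw [inv_eq_iff_mul_eq_one, ← pow_two, hb]
  have cinv : c⁻¹ = c := by rw [inv_eq_iff_mul_eq_one, ← pow_two, hc]
  have hnorm : ∀ x : G, x⁻¹ = x → (∀ s ∈ S, x * s * x⁻¹ ∈ Subgroup.closure S) →
      x ∈ Subgroup.normalizer (Subgroup.closure S : Set G) := by
    intro x hxi hx
    have h1 := conj_mem_closure S x hx
    refine mem_normalizer_of_conj _ x h1 ?_
    intro w hw
    have h := h1 w hw
    rw [hxi] at h ⊢
    exact h
  have hzp : ∀ (q : G) (k : ℕ), q ^ 2 ^ k = 1 → IsPGroup 2 (Subgroup.zpowers q) := by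
    intro q k hq
    rintro ⟨x, hx⟩
    obtain ⟨j, rfl⟩ := hx
    refine ⟨k, Subtype.ext ?_⟩
    show (q ^ j) ^ 2 ^ k = 1
    rw [← zpow_natCast, ← zpow_mul, mul_comm, zpow_mul, zpow_natCast, hq, one_zpow]
  have hP1 : IsPGroup 2 (Subgroup.zpowers (a * b)) := hzp (a * b) 2 hab
  have hP0 : IsPGroup 2 (Subgroup.zpowers a) := hzp a 1 (by rw [pow_one]; exact ha)
  have hPc : IsPGroup 2 (Subgroup.zpowers c) := hzp c 1 (by rw [pow_one]; exact hc)
  have hN1 : Subgroup.zpowers a ≤ Subgroup.normalizer (Subgroup.zpowers (a * b) : Set G) := by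
    rw [Subgroup.zpowers_le]
    have e : a * (a * b) * a⁻¹ = (a * b)⁻¹ := by
      have e0 : a * (a⁻¹ * b⁻¹) * a⁻¹ = (a * b)⁻¹ := by group
      rw [ainv, binv] at e0
      rw [ainv]; exact e0
    refine mem_normalizer_zpowers ?_ ?_
    · rw [e]; exact Subgroup.inv_mem _ (Subgroup.mem_zpowers _)
    · have e' : a⁻¹ * (a * b) * a = a * (a * b) * a⁻¹ := by rw [ainv]
      rw [e', e]; exact Subgroup.inv_mem _ (Subgroup.mem_zpowers _)
  have hP2 : IsPGroup 2 (Subgroup.zpowers a ⊔ Subgroup.zpowers (a * b) : Subgroup G) :=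
    IsPGroup.to_sup_of_normal_right' hP0 hP1 hN1
  have hcent : (Subgroup.zpowers a ⊔ Subgroup.zpowers (a * b) : Subgroup G)
      ≤ Subgroup.centralizer {c} := by
    rw [sup_le_iff, Subgroup.zpowers_le, Subgroup.zpowers_le, Subgroup.mem_centralizer_iff,
      Subgroup.mem_centralizer_iff]
    constructor
    · intro h hh
      rw [Set.mem_singleton_iff] at hh
      rw [hh]; exact hac.symm
    · intro h hh
      rw [Set.mem_singleton_iff] at hh
      rw [hh, ← mul_assoc, ← hac, mul_assoc, ← hbc, mul_assoc]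
  have hN2 : Subgroup.zpowers c ≤ Subgroup.normalizer
      ((Subgroup.zpowers a ⊔ Subgroup.zpowers (a * b) : Subgroup G) : Set G) := by
    rw [Subgroup.zpowers_le]
    have hcm : ∀ w ∈ (Subgroup.zpowers a ⊔ Subgroup.zpowers (a * b) : Subgroup G),
        c * w = w * c := by
      intro w hw
      exact Subgroup.mem_centralizer_iff.mp (hcent hw) c rfl
    refine mem_normalizer_of_conj _ c ?_ ?_
    · intro w hw; rw [hcm w hw, mul_inv_cancel_right]; exact hw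
    · intro w hw; rw [mul_assoc, ← hcm w hw, inv_mul_cancel_left]; exact hw
  have hP3 : IsPGroup 2 (Subgroup.zpowers c ⊔ (Subgroup.zpowers a ⊔ Subgroup.zpowers (a * b))
      : Subgroup G) := IsPGroup.to_sup_of_normal_right' hPc hP2 hN2
  have hD : Subgroup.closure ({a, b, c} : Set G)
      ≤ Subgroup.zpowers c ⊔ (Subgroup.zpowers a ⊔ Subgroup.zpowers (a * b)) := by
    rw [Subgroup.closure_le]
    intro x hx
    have ha' : a ∈ (Subgroup.zpowers a ⊔ Subgroup.zpowers (a * b) : Subgroup G) :=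
      Subgroup.mem_sup_left (Subgroup.mem_zpowers a)
    have hab' : a * b ∈ (Subgroup.zpowers a ⊔ Subgroup.zpowers (a * b) : Subgroup G) :=
      Subgroup.mem_sup_right (Subgroup.mem_zpowers _)
    rcases hx with h | h | h
    · rw [h]; exact Subgroup.mem_sup_right ha'
    · have e : x = a⁻¹ * (a * b) := by rw [h]; group
      rw [e]
      exact Subgroup.mem_sup_right (Subgroup.mul_mem _ (Subgroup.inv_mem _ ha') hab')
    · rw [h]; exact Subgroup.mem_sup_left (Subgroup.mem_zpowers c)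
  have hPD : IsPGroup 2 (Subgroup.closure ({a, b, c} : Set G)) := hP3.to_le hD
  have hDN : Subgroup.closure ({a, b, c} : Set G)
      ≤ Subgroup.normalizer (Subgroup.closure S : Set G) := by
    rw [Subgroup.closure_le]
    intro x hx
    rcases hx with h | h | h
    · rw [h]; exact hnorm a ainv haS
    · rw [h]; exact hnorm b binv hbS
    · rw [h]; exact hnorm c cinv hcS
  have hPU : IsPGroup 2
      (Subgroup.closure S ⊔ Subgroup.closure ({a, b, c} : Set G) : Subgroup G) := by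
    rw [sup_comm]; exact IsPGroup.to_sup_of_normal_right' hPD hPE hDN
  obtain ⟨k, hk⟩ := IsPGroup.iff_card.mp hPU
  have h1 := Subgroup.card_mul_index
    (Subgroup.closure S ⊔ Subgroup.closure ({a, b, c} : Set G) : Subgroup G)
  rw [hk, hG] at h1
  rw [hk] at hU
  have hkn : n ≤ k := (Nat.pow_le_pow_iff_right (by norm_num)).mp hU
  have hd : 2 ^ k ∣ 2 ^ n * m := Dvd.intro _ h1
  have hcop : Nat.Coprime (2 ^ k) m := Nat.Coprime.pow_left k (Nat.coprime_two_left.mpr hm)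
  have hd2 : 2 ^ k ∣ 2 ^ n := hcop.dvd_of_dvd_mul_right hd
  have hkn2 : k ≤ n := (Nat.pow_dvd_pow_iff_le_right (by norm_num : 1 < 2)).mp hd2
  have hkeq : k = n := le_antisymm hkn2 hkn
  rw [hkeq] at h1
  exact Nat.eq_of_mul_eq_mul_left (by positivity) h1

/-- The 2-part killer. -/
theorem two_part {Γ : Type u} {G : Type v} [Group Γ] [Group G] [Finite G] (σ : Γ →* G)
    (hσ : Cfsg.IsStemExtension σ)
    (hinv : ∀ y : Γ, σ y ^ 2 = 1 → y ^ 2 = 1)
    (S : Set G) (hS2 : ∀ s ∈ S, s ^ 2 = 1) (hSc : ∀ s ∈ S, ∀ t ∈ S, s * t = t * s)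
    (g a b c : G)
    (hgS : ∀ s ∈ S, g * s * g⁻¹ ∈ Subgroup.closure S)
    (hfpf : ∀ s ∈ S, s * (g * s * g⁻¹) * (g⁻¹ * s * g) = 1)
    (ha : a ^ 2 = 1) (hb : b ^ 2 = 1) (hc : c ^ 2 = 1) (hab : (a * b) ^ 4 = 1)
    (hac : a * c = c * a) (hbc : b * c = c * b)
    (haS : ∀ s ∈ S, a * s * a⁻¹ ∈ Subgroup.closure S)
    (hbS : ∀ s ∈ S, b * s * b⁻¹ ∈ Subgroup.closure S)
    (hcS : ∀ s ∈ S, c * s * c⁻¹ ∈ Subgroup.closure S)
    (hag : a * g * a⁻¹ = g ∨ a * g * a⁻¹ = g⁻¹)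
    (hbg : b * g * b⁻¹ = g ∨ b * g * b⁻¹ = g⁻¹)
    (hcg : c * g * c⁻¹ = g ∨ c * g * c⁻¹ = g⁻¹)
    (habE : (a * b) ^ 2 ∉ Subgroup.closure S)
    (n m : ℕ) (hm : Odd m) (hG : Nat.card G = 2 ^ n * m)
    (hU : 2 ^ n ≤ Nat.card
      (Subgroup.closure S ⊔ Subgroup.closure ({a, b, c} : Set G) : Subgroup G)) :
    σ.ker = ⊥ := by
  have hidx := index_odd S hS2 hSc a b c ha hb hc hab hac hbc haS hbS hcS n m hm hG hU
  have hcz : ∀ {k : Γ}, k ∈ σ.ker → ∀ r : Γ, r * k = k * r := fun hk r =>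
    Subgroup.mem_center_iff.mp (hσ.2.1 hk) r
  obtain ⟨E, hEdef⟩ : ∃ E : Subgroup G, E = Subgroup.closure S := ⟨_, rfl⟩
  rw [← hEdef] at hgS haS hbS hcS habE hidx
  have hE2 : ∀ e ∈ E, e ^ 2 = 1 := by rw [hEdef]; exact closure_sq S hS2 hSc
  have hgE : ∀ e ∈ E, g * e * g⁻¹ ∈ E := by
    rw [hEdef]; exact conj_mem_closure S g (by rw [← hEdef]; exact hgS)
  have haE : ∀ e ∈ E, a * e * a⁻¹ ∈ E := by
    rw [hEdef]; exact conj_mem_closure S a (by rw [← hEdef]; exact haS)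
  have hbE : ∀ e ∈ E, b * e * b⁻¹ ∈ E := by
    rw [hEdef]; exact conj_mem_closure S b (by rw [← hEdef]; exact hbS)
  have hcE : ∀ e ∈ E, c * e * c⁻¹ ∈ E := by
    rw [hEdef]; exact conj_mem_closure S c (by rw [← hEdef]; exact hcS)
  have hfpfE : ∀ e ∈ E, e * (g * e * g⁻¹) * (g⁻¹ * e * g) = 1 := by
    rw [hEdef]; exact fpf_closure S hSc g (by rw [← hEdef]; exact hgE) hfpf
  have hgE' : ∀ e ∈ E, g⁻¹ * e * g ∈ E := by
    intro e he
    have h := hfpfE e he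
    have e1 : g⁻¹ * e * g = (e * (g * e * g⁻¹))⁻¹ := eq_inv_of_mul_eq_one_right h
    rw [e1]; exact E.inv_mem (E.mul_mem he (hgE e he))
  -- lifts
  obtain ⟨t, rfl⟩ := hσ.1 g
  obtain ⟨x, rfl⟩ := hσ.1 a
  obtain ⟨y, rfl⟩ := hσ.1 b
  obtain ⟨w, rfl⟩ := hσ.1 c
  have F1 : ∀ v : Γ, σ v ∈ E → v ^ 2 = 1 := fun v hv => hinv v (hE2 _ hv)
  have F2 : ∀ v v' : Γ, σ v ∈ E → σ v' ∈ E → v * v' = v' * v := by
    intro v v' hv hv'
    exact comm_of_good (F1 v hv) (F1 v' hv')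
      (F1 (v * v') (by rw [map_mul]; exact E.mul_mem hv hv'))
  have Ft : ∀ v : Γ, σ v ∈ E → σ (t * v * t⁻¹) ∈ E := by
    intro v hv; rw [map_mul, map_mul, map_inv]; exact hgE _ hv
  have Ft' : ∀ v : Γ, σ v ∈ E → σ (t⁻¹ * v * t) ∈ E := by
    intro v hv; rw [map_mul, map_mul, map_inv]; exact hgE' _ hv
  -- the norm map
  obtain ⟨Nm, hNm⟩ : ∃ Nm : Γ → Γ, ∀ v, Nm v = v * (t * v * t⁻¹) * (t⁻¹ * v * t) := ⟨_, fun _ => rfl⟩
  have Nm1 : Nm 1 = 1 := by rw [hNm]; group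
  have F4 : ∀ v : Γ, σ v ∈ E → Nm v ∈ σ.ker := by
    intro v hv
    rw [MonoidHom.mem_ker, hNm]
    simp only [map_mul, map_inv]
    exact hfpfE _ hv
  have F5 : ∀ v v' : Γ, σ v ∈ E → σ v' ∈ E → Nm (v * v') = Nm v * Nm v' := by
    intro v v' hv hv'
    rw [hNm, hNm, hNm]
    have e1 : t * (v * v') * t⁻¹ = (t * v * t⁻¹) * (t * v' * t⁻¹) := by group
    have e2 : t⁻¹ * (v * v') * t = (t⁻¹ * v * t) * (t⁻¹ * v' * t) := by group
    rw [e1, e2]
    calc v * v' * (t * v * t⁻¹ * (t * v' * t⁻¹)) * (t⁻¹ * v * t * (t⁻¹ * v' * t))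
        = v * (v' * (t * v * t⁻¹)) * (t * v' * t⁻¹) * (t⁻¹ * v * t) * (t⁻¹ * v' * t) := by group
      _ = v * ((t * v * t⁻¹) * v') * (t * v' * t⁻¹) * (t⁻¹ * v * t) * (t⁻¹ * v' * t) := by
          rw [F2 v' (t * v * t⁻¹) hv' (Ft v hv)]
      _ = v * (t * v * t⁻¹) * ((v' * (t * v' * t⁻¹)) * (t⁻¹ * v * t)) * (t⁻¹ * v' * t) := by
          group
      _ = v * (t * v * t⁻¹) * ((t⁻¹ * v * t) * (v' * (t * v' * t⁻¹))) * (t⁻¹ * v' * t) := by
          rw [F2 (v' * (t * v' * t⁻¹)) (t⁻¹ * v * t)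
            (by rw [map_mul]; exact E.mul_mem hv' (Ft v' hv')) (Ft' v hv)]
      _ = _ := by group
  have F6 : ∀ k ∈ σ.ker, Nm k = k := by
    intro k hk
    rw [hNm, hcz hk t, mul_inv_cancel_right, mul_assoc t⁻¹, ← hcz hk t, inv_mul_cancel_left]
    have h2 := F1 k (by rw [MonoidHom.mem_ker.mp hk]; exact E.one_mem)
    rw [← pow_two, h2, one_mul]
  have NmInv : ∀ v, σ v ∈ E → Nm v⁻¹ = (Nm v)⁻¹ := by
    intro v hv
    have h := F5 v⁻¹ v (by rw [map_inv]; exact E.inv_mem hv) hv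
    rw [inv_mul_cancel, Nm1] at h
    exact eq_inv_of_mul_eq_one_left h.symm
  -- conjugation invariance of the norm map
  have F7 : ∀ r : Γ, (∀ e ∈ E, σ r * e * (σ r)⁻¹ ∈ E) →
      (σ r * σ t * (σ r)⁻¹ = σ t ∨ σ r * σ t * (σ r)⁻¹ = (σ t)⁻¹) →
      ∀ v : Γ, σ v ∈ E → σ (r * v * r⁻¹) ∈ E ∧ Nm (r * v * r⁻¹) = Nm v := by
    intro r hrE hrt v hv
    have hv' : σ (r * v * r⁻¹) ∈ E := by rw [map_mul, map_mul, map_inv]; exact hrE _ hv
    refine ⟨hv', ?_⟩
    have h0 : Nm v = r * Nm v * r⁻¹ := by rw [hcz (F4 v hv) r, mul_inv_cancel_right]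
    have h1 : r * Nm v * r⁻¹ = (r * v * r⁻¹) *
        ((r * t * r⁻¹) * (r * v * r⁻¹) * (r * t * r⁻¹)⁻¹) *
        ((r * t * r⁻¹)⁻¹ * (r * v * r⁻¹) * (r * t * r⁻¹)) := by
      rw [hNm]; group
    rw [h0, h1]
    rcases hrt with h | h
    · obtain ⟨k, hk, hk'⟩ : ∃ k ∈ σ.ker, r * t * r⁻¹ = t * k := by
        refine ⟨t⁻¹ * (r * t * r⁻¹), ?_, by group⟩
        rw [MonoidHom.mem_ker]
        simp only [map_mul, map_inv]
        rw [h, inv_mul_cancel]
      rw [hk', conj_mul_central (hcz hk), conj_mul_central' (hcz hk), hNm]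
    · obtain ⟨k, hk, hk'⟩ : ∃ k ∈ σ.ker, r * t * r⁻¹ = t⁻¹ * k := by
        refine ⟨t * (r * t * r⁻¹), ?_, by group⟩
        rw [MonoidHom.mem_ker]
        simp only [map_mul, map_inv]
        rw [h, mul_inv_cancel]
      have e := F2 _ _ (Ft _ hv') (Ft' _ hv')
      rw [hk', conj_mul_central (hcz hk), conj_mul_central' (hcz hk), hNm, inv_inv,
        mul_assoc (r * v * r⁻¹) (t * (r * v * r⁻¹) * t⁻¹), e, ← mul_assoc]
  -- the subgroup E₀
  let E0 : Subgroup Γ :=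
    { carrier := {v | σ v ∈ E ∧ Nm v = 1}
      mul_mem' := by
        rintro v v' ⟨hv, hv1⟩ ⟨hv', hv1'⟩
        exact ⟨by rw [map_mul]; exact E.mul_mem hv hv', by rw [F5 v v' hv hv', hv1, hv1', one_mul]⟩
      one_mem' := ⟨by rw [map_one]; exact E.one_mem, Nm1⟩
      inv_mem' := by
        rintro v ⟨hv, hv1⟩
        exact ⟨by rw [map_inv]; exact E.inv_mem hv, by rw [NmInv v hv, hv1, inv_one]⟩ }
  have hE0 : ∀ v, v ∈ E0 ↔ σ v ∈ E ∧ Nm v = 1 := fun v => Iff.rfl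
  have F10 : ∀ v v' : Γ, σ v ∈ E → σ v' ∈ E → Nm v = Nm v' → v * v'⁻¹ ∈ E0 := by
    intro v v' hv hv' h
    have hv'' : σ v'⁻¹ ∈ E := by rw [map_inv]; exact E.inv_mem hv'
    exact ⟨by rw [map_mul]; exact E.mul_mem hv hv'',
      by rw [F5 v v'⁻¹ hv hv'', NmInv v' hv', h, mul_inv_cancel]⟩
  -- the dihedral part
  have hx2 : x ^ 2 = 1 := hinv x ha
  have hy2 : y ^ 2 = 1 := hinv y hb
  have hw2 : w ^ 2 = 1 := hinv w hc
  have hxw : x * w = w * x := comm_of_good hx2 hw2 (hinv _ (by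
    have hcm : Commute (σ x) (σ w) := hac
    rw [map_mul, hcm.mul_pow, ha, hc, one_mul]))
  have hyw : y * w = w * y := comm_of_good hy2 hw2 (hinv _ (by
    have hcm : Commute (σ y) (σ w) := hbc
    rw [map_mul, hcm.mul_pow, hb, hc, one_mul]))
  have xinv : x⁻¹ = x := by rw [inv_eq_iff_mul_eq_one, ← pow_two, hx2]
  have yinv : y⁻¹ = y := by rw [inv_eq_iff_mul_eq_one, ← pow_two, hy2]
  have winv : w⁻¹ = w := by rw [inv_eq_iff_mul_eq_one, ← pow_two, hw2]
  obtain ⟨X2, hX2⟩ : ∃ X2 : Γ, X2 = (x * y) ^ 2 := ⟨_, rfl⟩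
  have hX22 : X2 ^ 2 = 1 := hinv _ (by
    rw [hX2, map_pow, map_mul, ← pow_mul]; exact hab)
  have X2inv : X2⁻¹ = X2 := by rw [inv_eq_iff_mul_eq_one, ← pow_two, hX22]
  have hσX2 : σ X2 = (σ x * σ y) ^ 2 := by rw [hX2, map_pow, map_mul]
  have hxX : x * X2 * x⁻¹ = X2⁻¹ := by
    have e : x * (x⁻¹ * y⁻¹ * (x⁻¹ * y⁻¹)) * x⁻¹ = (x * y * (x * y))⁻¹ := by group
    rw [xinv, yinv] at e
    rw [xinv, hX2, pow_two]; exact e
  have hyX : y * X2 * y⁻¹ = X2⁻¹ := by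
    have e : y * (x⁻¹ * y⁻¹ * (x⁻¹ * y)) * y⁻¹ = (x * y * (x * y⁻¹))⁻¹ := by group
    rw [xinv, yinv] at e
    rw [yinv, hX2, pow_two]; exact e
  have hwX : w * X2 * w⁻¹ = X2 := by
    have hcm : Commute w (x * y) := by
      show w * (x * y) = x * y * w
      rw [← mul_assoc, ← hxw, mul_assoc, ← hyw, mul_assoc]
    have hcm2 : Commute w X2 := by rw [hX2]; exact hcm.pow_right 2
    rw [hcm2.eq, mul_inv_cancel_right]
  have hxy : x * y * x⁻¹ * y⁻¹ = X2 := by rw [xinv, yinv, hX2, pow_two, mul_assoc]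
  -- N-preserving conjugators
  have Px := F7 x haE hag
  have Py := F7 y hbE hbg
  have Pw := F7 w hcE hcg
  have Pmul : ∀ r r' : Γ,
      (∀ v : Γ, σ v ∈ E → σ (r * v * r⁻¹) ∈ E ∧ Nm (r * v * r⁻¹) = Nm v) →
      (∀ v : Γ, σ v ∈ E → σ (r' * v * r'⁻¹) ∈ E ∧ Nm (r' * v * r'⁻¹) = Nm v) →
      ∀ v : Γ, σ v ∈ E → σ (r * r' * v * (r * r')⁻¹) ∈ E ∧ Nm (r * r' * v * (r * r')⁻¹) = Nm v := by
    intro r r' h h' v hv
    have e : r * r' * v * (r * r')⁻¹ = r * (r' * v * r'⁻¹) * r⁻¹ := by group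
    rw [e]
    exact ⟨(h _ (h' v hv).1).1, ((h _ (h' v hv).1).2).trans (h' v hv).2⟩
  have PX2 : ∀ v : Γ, σ v ∈ E → σ (X2 * v * X2⁻¹) ∈ E ∧ Nm (X2 * v * X2⁻¹) = Nm v := by
    rw [hX2, pow_two]
    exact Pmul _ _ (Pmul _ _ Px Py) (Pmul _ _ Px Py)
  have PE : ∀ s : Γ, σ s ∈ E →
      ∀ v : Γ, σ v ∈ E → σ (s * v * s⁻¹) ∈ E ∧ Nm (s * v * s⁻¹) = Nm v := by
    intro s hs v hv
    have e : s * v * s⁻¹ = v := by rw [F2 s v hs hv, mul_inv_cancel_right]
    rw [e]; exact ⟨hv, rfl⟩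
  have conjE0 : ∀ r : Γ,
      (∀ v : Γ, σ v ∈ E → σ (r * v * r⁻¹) ∈ E ∧ Nm (r * v * r⁻¹) = Nm v) →
      ∀ u ∈ E0, r * u * r⁻¹ ∈ E0 := by
    intro r h u hu
    exact ⟨(h u hu.1).1, ((h u hu.1).2).trans hu.2⟩
  have commE0 : ∀ r : Γ,
      (∀ v : Γ, σ v ∈ E → σ (r * v * r⁻¹) ∈ E ∧ Nm (r * v * r⁻¹) = Nm v) →
      ∀ v : Γ, σ v ∈ E → r * v * r⁻¹ * v⁻¹ ∈ E0 ∧ v * r * v⁻¹ * r⁻¹ ∈ E0 := by
    intro r h v hv
    refine ⟨F10 _ v (h v hv).1 hv (h v hv).2, ?_⟩
    have e : v * r * v⁻¹ * r⁻¹ = v * (r * v * r⁻¹)⁻¹ := by group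
    rw [e]
    exact F10 v _ hv (h v hv).1 (h v hv).2.symm
  -- the subgroup M
  obtain ⟨M, hM⟩ : ∃ M : Subgroup Γ, M = Subgroup.zpowers X2 ⊔ E0 := ⟨_, rfl⟩
  have hE0M : E0 ≤ M := by rw [hM]; exact le_sup_right
  have hX2M : X2 ∈ M := by rw [hM]; exact Subgroup.mem_sup_left (Subgroup.mem_zpowers X2)
  have normInv : ∀ r : Γ, r⁻¹ = r → r * X2 * r⁻¹ ∈ M → (∀ u ∈ E0, r * u * r⁻¹ ∈ E0) →
      r ∈ Subgroup.normalizer (M : Set Γ) := by
    intro r hri h1 h3
    rw [hM] at h1 ⊢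
    refine mem_normalizer_sup_zpowers E0 X2 r h1 ?_ h3 ?_
    · have e : r⁻¹ * X2 * r = r * X2 * r⁻¹ := by rw [hri]
      rw [e]; exact h1
    · intro u hu
      have e : r⁻¹ * u * r = r * u * r⁻¹ := by rw [hri]
      rw [e]; exact h3 u hu
  have hvM : ∀ v : Γ, σ v ∈ E → v * X2 * v⁻¹ ∈ M := by
    intro v hv
    have e : v * X2 * v⁻¹ = (v * (X2 * v * X2⁻¹)⁻¹) * X2 := by group
    rw [e]
    exact M.mul_mem (hE0M (F10 v _ hv (PX2 v hv).1 (PX2 v hv).2.symm)) hX2M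
  have normE : ∀ v : Γ, σ v ∈ E → v ∈ Subgroup.normalizer (M : Set Γ) := by
    intro v hv
    have hv' : σ v⁻¹ ∈ E := by rw [map_inv]; exact E.inv_mem hv
    rw [hM]
    refine mem_normalizer_sup_zpowers E0 X2 v ?_ ?_ ?_ ?_
    · rw [← hM]; exact hvM v hv
    · have h := hvM v⁻¹ hv'
      rw [inv_inv, hM] at h
      exact h
    · exact conjE0 v (PE v hv)
    · intro u hu
      have h := conjE0 v⁻¹ (PE v⁻¹ hv') u hu
      rwa [inv_inv] at h
  have normx : x ∈ Subgroup.normalizer (M : Set Γ) :=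
    normInv x xinv (by rw [hxX]; exact M.inv_mem hX2M) (conjE0 x Px)
  have normy : y ∈ Subgroup.normalizer (M : Set Γ) :=
    normInv y yinv (by rw [hyX]; exact M.inv_mem hX2M) (conjE0 y Py)
  have normw : w ∈ Subgroup.normalizer (M : Set Γ) :=
    normInv w winv (by rw [hwX]; exact hX2M) (conjE0 w Pw)
  -- generators
  obtain ⟨S', hS'⟩ : ∃ S' : Set Γ, S' = {v | σ v ∈ E} ∪ {x, y, w} := ⟨_, rfl⟩
  have hS'mem : ∀ s, s ∈ S' ↔ (σ s ∈ E ∨ s = x ∨ s = y ∨ s = w) := by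
    intro s; rw [hS']; rfl
  have hSN : ∀ s ∈ S', s ∈ Subgroup.normalizer (M : Set Γ) := by
    intro s hs
    rcases (hS'mem s).mp hs with h | h | h | h
    · exact normE s h
    · rw [h]; exact normx
    · rw [h]; exact normy
    · rw [h]; exact normw
  have hcomm1 : ∀ s t : Γ, s * t = t * s → s * t * s⁻¹ * t⁻¹ ∈ M := by
    intro s t h
    have e : s * t * s⁻¹ * t⁻¹ = 1 := by rw [h]; group
    rw [e]; exact M.one_mem
  have hyx : y * x * y⁻¹ * x⁻¹ ∈ M := by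
    have e : y * x * y⁻¹ * x⁻¹ = (x * y * x⁻¹ * y⁻¹)⁻¹ := by group
    rw [e, hxy]; exact M.inv_mem hX2M
  have hD3 : ∀ s : Γ, (s = x ∨ s = y ∨ s = w) → ∀ t : Γ, (t = x ∨ t = y ∨ t = w) →
      s * t * s⁻¹ * t⁻¹ ∈ M := by
    intro s hs t ht
    rcases hs with hs | hs | hs <;> rcases ht with ht | ht | ht <;> rw [hs, ht]
    · exact hcomm1 _ _ rfl
    · rw [hxy]; exact hX2M
    · exact hcomm1 _ _ hxw
    · exact hyx
    · exact hcomm1 _ _ rfl
    · exact hcomm1 _ _ hyw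
    · exact hcomm1 _ _ hxw.symm
    · exact hcomm1 _ _ hyw.symm
    · exact hcomm1 _ _ rfl
  have hP3 : ∀ s : Γ, (s = x ∨ s = y ∨ s = w) →
      ∀ v : Γ, σ v ∈ E → σ (s * v * s⁻¹) ∈ E ∧ Nm (s * v * s⁻¹) = Nm v := by
    intro s hs
    rcases hs with hs | hs | hs <;> rw [hs]
    · exact Px
    · exact Py
    · exact Pw
  have hcS' : ∀ s ∈ S', ∀ t ∈ S', s * t * s⁻¹ * t⁻¹ ∈ M := by
    intro s hs t ht
    rcases (hS'mem s).mp hs with h | h
    · rcases (hS'mem t).mp ht with h' | h'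
      · exact hE0M (commE0 t (PE t h') s h).2
      · exact hE0M (commE0 t (hP3 t h') s h).2
    · rcases (hS'mem t).mp ht with h' | h'
      · exact hE0M (commE0 s (hP3 s h) t h').1
      · exact hD3 s h t h'
  have hcomm := commutator_closure_le S' M (fun s hs m hm =>
    ⟨(Subgroup.mem_normalizer_iff.mp (hSN s hs) m).mp hm, by
      have h := (Subgroup.mem_normalizer_iff.mp (Subgroup.inv_mem _ (hSN s hs)) m).mp hm
      rwa [inv_inv] at h⟩) hcS'
  -- the preimage of U is generated by S'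
  have hU_le : E ⊔ Subgroup.closure ({σ x, σ y, σ w} : Set G) ≤ (Subgroup.closure S').map σ := by
    rw [sup_le_iff]
    constructor
    · intro e he
      obtain ⟨v, rfl⟩ := hσ.1 e
      exact ⟨v, Subgroup.subset_closure ((hS'mem v).mpr (Or.inl he)), rfl⟩
    · rw [Subgroup.closure_le]
      intro q hq
      rcases hq with h | h | h
      · exact ⟨x, Subgroup.subset_closure ((hS'mem x).mpr (Or.inr (Or.inl rfl))), h.symm⟩
      · exact ⟨y, Subgroup.subset_closure ((hS'mem y).mpr (Or.inr (Or.inr (Or.inl rfl)))),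
          h.symm⟩
      · exact ⟨w, Subgroup.subset_closure ((hS'mem w).mpr (Or.inr (Or.inr (Or.inr rfl)))),
          h.symm⟩
  have hH_le : (E ⊔ Subgroup.closure ({σ x, σ y, σ w} : Set G)).comap σ
      ≤ Subgroup.closure S' := by
    intro h hh
    obtain ⟨h', hh', e⟩ := hU_le hh
    have hk : h'⁻¹ * h ∈ σ.ker := by
      rw [MonoidHom.mem_ker, map_mul, map_inv, e, inv_mul_cancel]
    have e2 : h = h' * (h'⁻¹ * h) := by group
    rw [e2]
    exact Subgroup.mul_mem _ hh' (Subgroup.subset_closure ((hS'mem _).mpr (Or.inl (by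
      rw [MonoidHom.mem_ker.mp hk]; exact E.one_mem))))
  -- conclusion
  have hLE : Subgroup.zpowers X2 ≤ Subgroup.normalizer (E0 : Set Γ) := by
    rw [Subgroup.zpowers_le]
    refine mem_normalizer_of_conj E0 X2 (conjE0 X2 PX2) ?_
    intro u hu
    have h := conjE0 X2 PX2 u hu
    rw [X2inv] at h ⊢
    exact h
  rw [eq_bot_iff]
  intro z hz
  rw [Subgroup.mem_bot]
  have hz2 : z ^ 2 = 1 := F1 z (by rw [MonoidHom.mem_ker.mp hz]; exact E.one_mem)
  have h1 := pow_index_mem σ hσ (E ⊔ Subgroup.closure ({σ x, σ y, σ w} : Set G)) hz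
  rw [hidx] at h1
  have hzm : z ^ m = z := by
    obtain ⟨j, rfl⟩ := hm
    rw [pow_succ, pow_mul, hz2, one_pow, one_mul]
  rw [hzm] at h1
  have hzM : z ∈ M := hcomm (Subgroup.commutator_mono hH_le hH_le h1)
  have hset := Subgroup.coe_mul_of_left_le_normalizer_right (Subgroup.zpowers X2) E0 hLE
  have hzM' : z ∈ ((Subgroup.zpowers X2 ⊔ E0 : Subgroup Γ) : Set Γ) := by
    rw [← hM]; exact hzM
  rw [hset] at hzM'
  obtain ⟨p, hp, u, hu, hpu⟩ := Set.mem_mul.mp hzM'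
  obtain ⟨i, hi⟩ := hp
  have hi' : X2 ^ i = p := hi
  have hcases : p = 1 ∨ p = X2 := by
    have hsq : X2 ^ (2 : ℤ) = 1 := by exact_mod_cast hX22
    obtain ⟨j, hj | hj⟩ := Int.even_or_odd' i
    · left; rw [← hi', hj, zpow_mul, hsq, one_zpow]
    · right; rw [← hi', hj, zpow_add, zpow_mul, hsq, one_zpow, one_mul, zpow_one]
  have hu' : u ∈ E0 := hu
  rcases hcases with h | h
  · rw [h, one_mul] at hpu
    have h6 := F6 z hz
    rw [← hpu] at h6 ⊢
    rw [← h6]; exact hu'.2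
  · exfalso
    apply habE
    have h3 : σ (p * u) = 1 := by rw [hpu]; exact hz
    rw [map_mul, h, hσX2] at h3
    have h4 : (σ x * σ y) ^ 2 = (σ u)⁻¹ := eq_inv_of_mul_eq_one_left h3
    rw [h4]
    exact E.inv_mem hu'.1

end twopart

section es27

theorem pow_mul_of_comm {Γ : Type u} [Group Γ] {x y d : Γ} (h : x * y = d * y * x)
    (hxd : x * d = d * x) (k : ℕ) : x ^ k * y = d ^ k * y * x ^ k := by
  induction k with
  | zero => simp
  | succ k ih =>
    have hcm : Commute x (d ^ k) := (show Commute x d from hxd).pow_right k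
    calc x ^ (k + 1) * y = x * (x ^ k * y) := by rw [pow_succ']; group
      _ = x * (d ^ k * y * x ^ k) := by rw [ih]
      _ = (x * d ^ k) * y * x ^ k := by group
      _ = d ^ k * (x * y) * x ^ k := by rw [hcm.eq]; group
      _ = d ^ k * (d * y * x) * x ^ k := by rw [h]
      _ = d ^ (k + 1) * y * x ^ (k + 1) := by rw [pow_succ, pow_succ']; group

theorem comm_mul_central {Γ : Type u} [Group Γ] {p q k1 k2 : Γ} (h1 : ∀ r : Γ, r * k1 = k1 * r)
    (h2 : ∀ r : Γ, r * k2 = k2 * r) :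
    (p * k1) * (q * k2) * (p * k1)⁻¹ * (q * k2)⁻¹ = p * q * p⁻¹ * q⁻¹ := by
  calc (p * k1) * (q * k2) * (p * k1)⁻¹ * (q * k2)⁻¹
      = p * (q * k2) * p⁻¹ * (q * k2)⁻¹ := by rw [conj_mul_central h1]
    _ = p * q * (k2 * p⁻¹) * (q * k2)⁻¹ := by group
    _ = p * q * (p⁻¹ * k2) * (q * k2)⁻¹ := by rw [← h2 p⁻¹]
    _ = p * q * p⁻¹ * q⁻¹ := by group

/-- Transfer to a group `⟨a, b⟩` of exponent three and class two admitting an element inverting
`a` and `b`. -/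
theorem es27_pow_index {Γ : Type u} {G : Type v} [Group Γ] [Group G] [Finite G] (σ : Γ →* G)
    (hσ : Cfsg.IsStemExtension σ) (a b c t : G)
    (ha : a ^ 3 = 1) (hb : b ^ 3 = 1) (hc1 : c ≠ 1) (hc3 : c ^ 3 = 1)
    (hab : a * b = c * b * a) (hac : a * c = c * a) (hbc : b * c = c * b)
    (hta : t * a * t⁻¹ = a⁻¹) (htb : t * b * t⁻¹ = b⁻¹)
    {z : Γ} (hz : z ∈ σ.ker) : z ^ (Subgroup.closure ({a, b} : Set G)).index = 1 := by
  have hcdef : c = a * b * a⁻¹ * b⁻¹ := by rw [hab]; group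
  have htc : t * c * t⁻¹ = c := by
    have e : t * c * t⁻¹ = (t * a * t⁻¹) * (t * b * t⁻¹) * (t * a * t⁻¹)⁻¹ * (t * b * t⁻¹)⁻¹ := by
      rw [hcdef]; group
    rw [e, hta, htb, inv_inv, inv_inv]
    have e2 : a⁻¹ * b⁻¹ * a * b = (b * a)⁻¹ * (a * b) := by group
    rw [e2, hab]
    have e3 : (b * a)⁻¹ * (c * b * a) = (b * a)⁻¹ * (c * (b * a)) := by group
    have hcm : Commute c (b * a) := by
      show c * (b * a) = b * a * c
      rw [← mul_assoc, ← hbc, mul_assoc, ← hac, mul_assoc]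
    rw [e3, hcm.eq, inv_mul_cancel_left]
  obtain ⟨x, rfl⟩ := hσ.1 a
  obtain ⟨y, rfl⟩ := hσ.1 b
  obtain ⟨s, rfl⟩ := hσ.1 t
  have hcz : ∀ {k : Γ}, k ∈ σ.ker → ∀ r : Γ, r * k = k * r := fun hk r =>
    Subgroup.mem_center_iff.mp (hσ.2.1 hk) r
  obtain ⟨d, hd⟩ : ∃ d : Γ, d = x * y * x⁻¹ * y⁻¹ := ⟨_, rfl⟩
  have hσd : σ d = c := by
    rw [hd]; simp only [map_mul, map_inv]; exact hcdef.symm
  have hxy : x * y = d * y * x := by rw [hd]; group
  obtain ⟨u, hu⟩ : ∃ u : Γ, u = x * d * x⁻¹ * d⁻¹ := ⟨_, rfl⟩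
  obtain ⟨v, hv⟩ : ∃ v : Γ, v = y * d * y⁻¹ * d⁻¹ := ⟨_, rfl⟩
  have huk : u ∈ σ.ker := by
    rw [MonoidHom.mem_ker, hu]; simp only [map_mul, map_inv]; rw [hσd, hac]; group
  have hvk : v ∈ σ.ker := by
    rw [MonoidHom.mem_ker, hv]; simp only [map_mul, map_inv]; rw [hσd, hbc]; group
  have hxd : x * d = u * d * x := by rw [hu]; group
  have hyd : y * d = v * d * y := by rw [hv]; group
  have hx3 : x ^ 3 ∈ σ.ker := by rw [MonoidHom.mem_ker, map_pow, ha]
  have hy3 : y ^ 3 ∈ σ.ker := by rw [MonoidHom.mem_ker, map_pow, hb]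
  have hu3 : u ^ 3 = 1 := by
    have h1 := pow_mul_of_comm hxd (hcz huk x) 3
    rw [mul_assoc, hcz hx3 d] at h1
    exact mul_eq_right.mp h1.symm
  have hv3 : v ^ 3 = 1 := by
    have h1 := pow_mul_of_comm hyd (hcz hvk y) 3
    rw [mul_assoc, hcz hy3 d] at h1
    exact mul_eq_right.mp h1.symm
  -- conjugation by the inverting element
  obtain ⟨k1, hk1, hsx⟩ : ∃ k ∈ σ.ker, s * x * s⁻¹ = x⁻¹ * k := by
    refine ⟨x * (s * x * s⁻¹), ?_, by group⟩
    rw [MonoidHom.mem_ker]; simp only [map_mul, map_inv]; rw [hta, mul_inv_cancel]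
  obtain ⟨k2, hk2, hsy⟩ : ∃ k ∈ σ.ker, s * y * s⁻¹ = y⁻¹ * k := by
    refine ⟨y * (s * y * s⁻¹), ?_, by group⟩
    rw [MonoidHom.mem_ker]; simp only [map_mul, map_inv]; rw [htb, mul_inv_cancel]
  obtain ⟨k3, hk3, hsd⟩ : ∃ k ∈ σ.ker, s * d * s⁻¹ = d * k := by
    refine ⟨d⁻¹ * (s * d * s⁻¹), ?_, by group⟩
    rw [MonoidHom.mem_ker]; simp only [map_mul, map_inv]; rw [hσd, htc, inv_mul_cancel]
  have inv_of_conj : ∀ q : Γ, q ∈ σ.ker → s * q * s⁻¹ = q⁻¹ → q ^ 3 = 1 → q = 1 := by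
    intro q hq h1 h3
    have h2 : s * q * s⁻¹ = q := by rw [hcz hq s, mul_inv_cancel_right]
    have h4 : q = q⁻¹ := h2.symm.trans h1
    have h5 : q ^ 2 = 1 := by
      calc q ^ 2 = q * q := pow_two q
        _ = q * q⁻¹ := by rw [← h4]
        _ = 1 := mul_inv_cancel q
    have h6 : q ^ 3 = q ^ 2 * q := pow_succ q 2
    rw [h3, h5, one_mul] at h6
    exact h6.symm
  have hu1 : u = 1 := by
    apply inv_of_conj u huk _ hu3
    have e : s * u * s⁻¹ = (s * x * s⁻¹) * (s * d * s⁻¹) * (s * x * s⁻¹)⁻¹ * (s * d * s⁻¹)⁻¹ := by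
      rw [hu]; group
    rw [e, hsx, hsd, comm_mul_central (hcz hk1) (hcz hk3), inv_inv]
    have e1 : x⁻¹ * d * x * d⁻¹ = x⁻¹ * (x * d * x⁻¹ * d⁻¹)⁻¹ * x := by group
    rw [e1, ← hu, mul_assoc, ← hcz (σ.ker.inv_mem huk) x, inv_mul_cancel_left]
  have hv1 : v = 1 := by
    apply inv_of_conj v hvk _ hv3
    have e : s * v * s⁻¹ = (s * y * s⁻¹) * (s * d * s⁻¹) * (s * y * s⁻¹)⁻¹ * (s * d * s⁻¹)⁻¹ := by
      rw [hv]; group
    rw [e, hsy, hsd, comm_mul_central (hcz hk2) (hcz hk3), inv_inv]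
    have e1 : y⁻¹ * d * y * d⁻¹ = y⁻¹ * (y * d * y⁻¹ * d⁻¹)⁻¹ * y := by group
    rw [e1, ← hv, mul_assoc, ← hcz (σ.ker.inv_mem hvk) y, inv_mul_cancel_left]
  rw [hu1, one_mul] at hxd
  rw [hv1, one_mul] at hyd
  have hd3 : d ^ 3 = 1 := by
    have h1 := pow_mul_of_comm hxy hxd 3
    rw [mul_assoc, hcz hx3 y] at h1
    exact mul_eq_right.mp h1.symm
  -- the commutator subgroup of the preimage
  have hSd : ∀ q ∈ (({x, y} : Set Γ) ∪ (σ.ker : Set Γ)), q * d = d * q := by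
    intro q hq
    rcases hq with (h | h) | h
    · rw [h]; exact hxd
    · rw [Set.mem_singleton_iff] at h; rw [h]; exact hyd
    · exact (hcz h d).symm ▸ rfl
  have hcomm := commutator_closure_le (({x, y} : Set Γ) ∪ (σ.ker : Set Γ)) (Subgroup.zpowers d)
    (by
      intro q hq w hw
      obtain ⟨i, rfl⟩ := hw
      have hcm : Commute q (d ^ i) := (show Commute q d from hSd q hq).zpow_right i
      constructor
      · rw [hcm.eq, mul_inv_cancel_right]; exact ⟨i, rfl⟩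
      · rw [mul_assoc, ← hcm.eq, inv_mul_cancel_left]; exact ⟨i, rfl⟩)
    (by
      have h1 : ∀ q r : Γ, q * r = r * q → q * r * q⁻¹ * r⁻¹ ∈ Subgroup.zpowers d := by
        intro q r h
        have e : q * r * q⁻¹ * r⁻¹ = 1 := by rw [h]; group
        rw [e]; exact Subgroup.one_mem _
      intro q hq r hr
      rcases hq with (h | h) | h
      · rcases hr with (h' | h') | h'
        · rw [h, h']; exact h1 _ _ rfl
        · rw [Set.mem_singleton_iff] at h'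
          rw [h, h', ← hd]; exact Subgroup.mem_zpowers d
        · exact h1 _ _ (hcz h' q)
      · rw [Set.mem_singleton_iff] at h
        rcases hr with (h' | h') | h'
        · rw [h, h']
          have e : y * x * y⁻¹ * x⁻¹ = (x * y * x⁻¹ * y⁻¹)⁻¹ := by group
          rw [e, ← hd]; exact Subgroup.inv_mem _ (Subgroup.mem_zpowers d)
        · rw [Set.mem_singleton_iff] at h'
          rw [h, h']; exact h1 _ _ rfl
        · exact h1 _ _ (hcz h' q)
      · exact h1 _ _ (hcz h r).symm)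
  have h1 := pow_index_mem σ hσ (Subgroup.closure ({σ x, σ y} : Set G)) hz
  rw [comap_closure_pair] at h1
  have e : Subgroup.closure ({x, y} : Set Γ) ⊔ σ.ker
      = Subgroup.closure (({x, y} : Set Γ) ∪ (σ.ker : Set Γ)) := by
    rw [Subgroup.closure_union, Subgroup.closure_eq]
  rw [e] at h1
  obtain ⟨i, hi⟩ := hcomm h1
  have hi' : d ^ i = z ^ (Subgroup.closure ({σ x, σ y} : Set G)).index := hi
  have h2 : σ (d ^ i) = 1 := by
    rw [hi', map_pow, MonoidHom.mem_ker.mp hz, one_pow]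
  rw [map_zpow, hσd] at h2
  have ho : orderOf c = 3 := by
    have : Fact (Nat.Prime 3) := ⟨by norm_num⟩
    exact orderOf_eq_prime hc3 hc1
  have hdvd : ((3 : ℕ) : ℤ) ∣ i := by
    rw [← ho]; exact orderOf_dvd_iff_zpow_eq_one.mpr h2
  obtain ⟨j, hj⟩ := hdvd
  have hd3' : d ^ ((3 : ℕ) : ℤ) = 1 := by rw [zpow_natCast]; exact hd3
  rw [← hi', hj, zpow_mul, hd3', one_zpow]

/-- The group `⟨a, b⟩` of the previous statement is a 3-group. -/
theorem es27_isPGroup {G : Type v} [Group G] (a b c : G)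
    (ha : a ^ 3 = 1) (hb : b ^ 3 = 1) (hc3 : c ^ 3 = 1)
    (hab : a * b = c * b * a) (hac : a * c = c * a) (hbc : b * c = c * b) :
    IsPGroup 3 (Subgroup.closure ({a, b} : Set G)) := by
  have : Fact (Nat.Prime 3) := ⟨by norm_num⟩
  have hzp : ∀ (q : G), q ^ 3 = 1 → IsPGroup 3 (Subgroup.zpowers q) := by
    intro q hq
    rintro ⟨x, hx⟩
    obtain ⟨j, rfl⟩ := hx
    refine ⟨1, Subtype.ext ?_⟩
    show (q ^ j) ^ 3 ^ 1 = 1
    rw [pow_one, ← zpow_natCast, ← zpow_mul, mul_comm, zpow_mul, zpow_natCast, hq, one_zpow]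
  have hcW : ∀ q : G, q * c = c * q → ∀ w ∈ Subgroup.zpowers c,
      q * w * q⁻¹ ∈ Subgroup.zpowers c ∧ q⁻¹ * w * q ∈ Subgroup.zpowers c := by
    intro q hq w hw
    obtain ⟨i, rfl⟩ := hw
    have hcm : Commute q (c ^ i) := (show Commute q c from hq).zpow_right i
    constructor
    · rw [hcm.eq, mul_inv_cancel_right]; exact ⟨i, rfl⟩
    · rw [mul_assoc, ← hcm.eq, inv_mul_cancel_left]; exact ⟨i, rfl⟩
  have hN1 : Subgroup.zpowers a ≤ Subgroup.normalizer (Subgroup.zpowers c : Set G) := by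
    rw [Subgroup.zpowers_le]
    exact mem_normalizer_of_conj _ a (fun w hw => (hcW a hac w hw).1) (fun w hw => (hcW a hac w hw).2)
  have hP2 : IsPGroup 3 (Subgroup.zpowers a ⊔ Subgroup.zpowers c : Subgroup G) :=
    IsPGroup.to_sup_of_normal_right' (hzp a ha) (hzp c hc3) hN1
  have hN2 : Subgroup.zpowers b ≤ Subgroup.normalizer
      ((Subgroup.zpowers a ⊔ Subgroup.zpowers c : Subgroup G) : Set G) := by
    rw [Subgroup.zpowers_le]
    have ha' : a ∈ (Subgroup.zpowers a ⊔ Subgroup.zpowers c : Subgroup G) :=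
      Subgroup.mem_sup_left (Subgroup.mem_zpowers a)
    have hc' : c ∈ (Subgroup.zpowers a ⊔ Subgroup.zpowers c : Subgroup G) :=
      Subgroup.mem_sup_right (Subgroup.mem_zpowers c)
    refine mem_normalizer_sup_zpowers (Subgroup.zpowers c) a b ?_ ?_
      (fun w hw => (hcW b hbc w hw).1) (fun w hw => (hcW b hbc w hw).2)
    · have e : b * a * b⁻¹ = c⁻¹ * a := by
        have e1 : b * a * b⁻¹ = c⁻¹ * (c * b * a) * b⁻¹ := by group
        rw [e1, ← hab]; group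
      rw [e]; exact Subgroup.mul_mem _ (Subgroup.inv_mem _ hc') ha'
    · have e : b⁻¹ * a * b = c * a := by
        have e2 : b⁻¹ * c = c * b⁻¹ := by
          have h := hbc
          calc b⁻¹ * c = b⁻¹ * (c * b) * b⁻¹ := by group
            _ = b⁻¹ * (b * c) * b⁻¹ := by rw [h]
            _ = c * b⁻¹ := by group
        calc b⁻¹ * a * b = b⁻¹ * (a * b) := by group
          _ = b⁻¹ * (c * b * a) := by rw [hab]
          _ = (b⁻¹ * c) * b * a := by group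
          _ = (c * b⁻¹) * b * a := by rw [e2]
          _ = c * a := by group
      rw [e]; exact Subgroup.mul_mem _ hc' ha'
  have hP3 : IsPGroup 3 (Subgroup.zpowers b ⊔ (Subgroup.zpowers a ⊔ Subgroup.zpowers c)
      : Subgroup G) := IsPGroup.to_sup_of_normal_right' (hzp b hb) hP2 hN2
  refine hP3.to_le ?_
  rw [Subgroup.closure_le]
  intro x hx
  rcases hx with h | h
  · rw [h]
    exact Subgroup.mem_sup_right (Subgroup.mem_sup_left (Subgroup.mem_zpowers a))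
  · rw [Set.mem_singleton_iff] at h
    rw [h]; exact Subgroup.mem_sup_left (Subgroup.mem_zpowers b)

/-- A `p`-group with at least `p ^ n` elements has order divisible by `p ^ n`. -/
theorem pow_dvd_card_of_le {G : Type v} [Group G] [Finite G] (p : ℕ) [Fact p.Prime]
    (U : Subgroup G)
    (hU : IsPGroup p U) (n : ℕ) (h : p ^ n ≤ Nat.card U) : p ^ n ∣ Nat.card U := by
  obtain ⟨k, hk⟩ := IsPGroup.iff_card.mp hU
  rw [hk] at h ⊢
  have hp : 1 < p := (Fact.out : p.Prime).one_lt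
  exact pow_dvd_pow p ((Nat.pow_le_pow_iff_right hp).mp h)

end es27

end Cfsg.Agent.Lib.helper27.StemTwo
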