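import Cfsg.Agent.Lib.helper27.OutM23
import Cfsg.Agent.Lib.helper27.GolayInv
import Cfsg.Agent.Lib.helper27.StemTwo
import Cfsg.Agent.Lib.helper28.GolaySimpleC
import Cfsg.Agent.Lib.helper28.GolayGen

set_option autoImplicit false

/-! Table-driven versions of the transfer tools, for the subgroups `stabM Inv` of the group of the
length-24 code: all hypotheses are equalities of tables. -/

namespace Cfsg.Agent.Lib.helper27.MSB

open Cfsg Cfsg.Agent.Lib.helper28 Cfsg.Agent.Lib.helper27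
open scoped Pointwise

section base

/-- The element of `stabM Inv` with a given table. -/
def el (Inv l : List ℕ) (h : tabIn Inv l = true) : ↥(stabM Inv) := ⟨tp Inv l h, tp_mem Inv l h⟩

theorem isTable_el (Inv l : List ℕ) (h : tabIn Inv l = true) :
    IsTable (el Inv l h : Equiv.Perm GolayPt) l := isTable_tp Inv l h

variable {Inv : List ℕ}

theorem eq_of_tables {x y : ↥(stabM Inv)} {l : List ℕ}
    (hx : IsTable (x : Equiv.Perm GolayPt) l) (hy : IsTable (y : Equiv.Perm GolayPt) l) : x = y :=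
  Subtype.ext (eq_of_isTable hx hy)

theorem isTable_mul {x y : ↥(stabM Inv)} {l1 l2 : List ℕ}
    (hx : IsTable (x : Equiv.Perm GolayPt) l1) (hy : IsTable (y : Equiv.Perm GolayPt) l2) :
    IsTable ((x * y : ↥(stabM Inv)) : Equiv.Perm GolayPt) (mulTab l1 l2) := isTable_mulTab hx hy

theorem isTable_one_sub : IsTable ((1 : ↥(stabM Inv)) : Equiv.Perm GolayPt) idTab := isTable_one

theorem isTable_pow {x : ↥(stabM Inv)} {l : List ℕ} (hx : IsTable (x : Equiv.Perm GolayPt) l)
    (n : ℕ) : IsTable ((x ^ n : ↥(stabM Inv)) : Equiv.Perm GolayPt) (powTab l n) :=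
  isTable_powTab hx n

theorem eq_one_of_table {x : ↥(stabM Inv)} (hx : IsTable (x : Equiv.Perm GolayPt) idTab) :
    x = 1 := eq_of_tables hx isTable_one_sub

theorem setOf_inj' {a b : ℕ} (ha : a < 2 ^ 24) (hb : b < 2 ^ 24) (h : setOf a = setOf b) :
    a = b := by
  rw [← maskS_setOf ha, ← maskS_setOf hb, h]

/-- The set of the elements whose table is in a list. -/
def SL (Inv : List ℕ) (L : List (List ℕ)) : Set ↥(stabM Inv) :=
  {s | ∃ l ∈ L, IsTable (s : Equiv.Perm GolayPt) l}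

/-- Lower bound for the order of a subgroup containing elements with given tables, through a
chain of transversals computed by a straight-line program. -/
theorem card_ge_of_chain (U : Subgroup ↥(stabM Inv)) (gens : List (List ℕ))
    (prog : List (ℕ × ℕ)) (idx : List (ℕ × ℕ × List ℕ)) (N : ℕ)
    (hgens : ∀ l ∈ gens, ∃ x ∈ U, IsTable (x : Equiv.Perm GolayPt) l)
    (hchain : chainGen [] (slpChain (slpTabs prog gens) idx) = true)
    (hprod : chainProd (slpChain (slpTabs prog gens) idx) = N) : N ≤ Nat.card U := by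
  have hgensH : ∀ l ∈ gens, ∃ p ∈ U.map (Subgroup.subtype (stabM Inv)), IsTable p l := by
    intro l hl
    obtain ⟨x, hx, hxl⟩ := hgens l hl
    exact ⟨_, ⟨x, hx, rfl⟩, hxl⟩
  have h1 := chainProd_le_card (U.map (Subgroup.subtype (stabM Inv))) _ [] hchain (by
    intro c hc l hl
    rw [slpChain, List.mem_map] at hc
    obtain ⟨c', _, rfl⟩ := hc
    rw [List.mem_map] at hl
    obtain ⟨i, _, rfl⟩ := hl
    exact getD_idTab_mem _ _ (slpTabs_sound _ prog gens hgensH) i)
  rw [hprod] at h1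
  have h2 : Nat.card ↥(U.map (Subgroup.subtype (stabM Inv)) ⊓ stabM [] :
      Subgroup (Equiv.Perm GolayPt)) ≤ Nat.card ↥(U.map (Subgroup.subtype (stabM Inv))) :=
    Subgroup.card_le_of_le inf_le_left
  rw [Subgroup.card_map_of_injective (Subgroup.subtype_injective _)] at h2
  exact h1.trans h2

/-- The 2-part killer, from tables. -/
theorem two_part_tab (Inv : List ℕ) {Γ : Type} [Group Γ] (σ : Γ →* ↥(stabM Inv))
    (hσ : Cfsg.IsStemExtension σ) (hinv : ∀ y : Γ, σ y ^ 2 = 1 → y ^ 2 = 1)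
    (L : List (List ℕ)) (tg ta tb tc : List ℕ) (T : ℕ) (gens : List (List ℕ))
    (prog : List (ℕ × ℕ)) (idx : List (ℕ × ℕ × List ℕ))
    (n m : ℕ) (hm : Odd m) (hG : Nat.card ↥(stabM Inv) = 2 ^ n * m)
    (hL : L.all (tabIn Inv) = true)
    (hg : tabIn Inv tg = true) (ha : tabIn Inv ta = true) (hb : tabIn Inv tb = true)
    (hc : tabIn Inv tc = true)
    (c2 : L.all (fun l => mulTab l l == idTab) = true)
    (cc : L.all (fun l => L.all (fun l' => mulTab l l' == mulTab l' l)) = true)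
    (cf : L.all (fun l => mulTab (mulTab l (mulTab (mulTab tg l) (mulTab tg tg)))
      (mulTab (mulTab (mulTab tg tg) l) tg) == idTab) = true)
    (cg : L.all (fun l => L.any (fun l' => mulTab tg l == mulTab l' tg)) = true)
    (ca : L.all (fun l => L.any (fun l' => mulTab ta l == mulTab l' ta)) = true)
    (cb : L.all (fun l => L.any (fun l' => mulTab tb l == mulTab l' tb)) = true)
    (ccc : L.all (fun l => L.any (fun l' => mulTab tc l == mulTab l' tc)) = true)
    (g3 : powTab tg 3 = idTab) (a2 : mulTab ta ta = idTab) (b2 : mulTab tb tb = idTab)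
    (cc2 : mulTab tc tc = idTab) (ab4 : powTab (mulTab ta tb) 4 = idTab)
    (ac : mulTab ta tc = mulTab tc ta) (bc : mulTab tb tc = mulTab tc tb)
    (ag : mulTab ta tg = mulTab tg ta ∨ mulTab ta tg = mulTab (mulTab tg tg) ta)
    (bg : mulTab tb tg = mulTab tg tb ∨ mulTab tb tg = mulTab (mulTab tg tg) tb)
    (cgg : mulTab tc tg = mulTab tg tc ∨ mulTab tc tg = mulTab (mulTab tg tg) tc)
    (hT : T < 2 ^ 24) (LT : L.all (fun l => preMask l T == T) = true)
    (abT : preMask (powTab (mulTab ta tb) 2) T ≠ T)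
    (hgens : gens.all (fun l => L.any (fun l' => l == l') || (l == ta) || (l == tb) || (l == tc))
      = true)
    (hchain : chainGen [] (slpChain (slpTabs prog gens) idx) = true)
    (hprod : chainProd (slpChain (slpTabs prog gens) idx) = 2 ^ n) : σ.ker = ⊥ := by
  have tg_ : IsTable (el Inv tg hg : Equiv.Perm GolayPt) tg := isTable_el Inv tg hg
  have ta_ : IsTable (el Inv ta ha : Equiv.Perm GolayPt) ta := isTable_el Inv ta ha
  have tb_ : IsTable (el Inv tb hb : Equiv.Perm GolayPt) tb := isTable_el Inv tb hb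
  have tc_ : IsTable (el Inv tc hc : Equiv.Perm GolayPt) tc := isTable_el Inv tc hc
  obtain ⟨g, hgd⟩ : ∃ g : ↥(stabM Inv), g = el Inv tg hg := ⟨_, rfl⟩
  obtain ⟨a, had⟩ : ∃ a : ↥(stabM Inv), a = el Inv ta ha := ⟨_, rfl⟩
  obtain ⟨b, hbd⟩ : ∃ b : ↥(stabM Inv), b = el Inv tb hb := ⟨_, rfl⟩
  obtain ⟨c, hcd⟩ : ∃ c : ↥(stabM Inv), c = el Inv tc hc := ⟨_, rfl⟩
  rw [← hgd] at tg_
  rw [← had] at ta_
  rw [← hbd] at tb_
  rw [← hcd] at tc_
  have hg3 : g ^ 3 = 1 := eq_one_of_table (by rw [← g3]; exact isTable_pow tg_ 3)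
  have ginv : g⁻¹ = g * g := by
    rw [inv_eq_iff_mul_eq_one, ← mul_assoc, ← pow_two, ← pow_succ]; exact hg3
  have ha2 : a ^ 2 = 1 := eq_one_of_table (by rw [← a2, pow_two]; exact isTable_mul ta_ ta_)
  have hb2 : b ^ 2 = 1 := eq_one_of_table (by rw [← b2, pow_two]; exact isTable_mul tb_ tb_)
  have hc2 : c ^ 2 = 1 := eq_one_of_table (by rw [← cc2, pow_two]; exact isTable_mul tc_ tc_)
  have hab4 : (a * b) ^ 4 = 1 :=
    eq_one_of_table (by rw [← ab4]; exact isTable_pow (isTable_mul ta_ tb_) 4)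
  have hac : a * c = c * a :=
    eq_of_tables (isTable_mul ta_ tc_) (by rw [ac]; exact isTable_mul tc_ ta_)
  have hbc : b * c = c * b :=
    eq_of_tables (isTable_mul tb_ tc_) (by rw [bc]; exact isTable_mul tc_ tb_)
  have hS2 : ∀ s ∈ SL Inv L, s ^ 2 = 1 := by
    rintro s ⟨l, hl, hs⟩
    have h := beq_iff_eq.mp (List.all_eq_true.mp c2 l hl)
    exact eq_one_of_table (by rw [← h, pow_two]; exact isTable_mul hs hs)
  have hSc : ∀ s ∈ SL Inv L, ∀ t ∈ SL Inv L, s * t = t * s := by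
    rintro s ⟨l, hl, hs⟩ t ⟨l', hl', ht⟩
    have h := beq_iff_eq.mp (List.all_eq_true.mp (List.all_eq_true.mp cc l hl) l' hl')
    exact eq_of_tables (isTable_mul hs ht) (by rw [h]; exact isTable_mul ht hs)
  have hconj : ∀ (x : ↥(stabM Inv)) (tx : List ℕ), IsTable (x : Equiv.Perm GolayPt) tx →
      L.all (fun l => L.any (fun l' => mulTab tx l == mulTab l' tx)) = true →
      ∀ s ∈ SL Inv L, x * s * x⁻¹ ∈ Subgroup.closure (SL Inv L) := by
    rintro x tx hx hchk s ⟨l, hl, hs⟩
    obtain ⟨l', hl', he⟩ := List.any_eq_true.mp (List.all_eq_true.mp hchk l hl)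
    rw [beq_iff_eq] at he
    have h' := List.all_eq_true.mp hL l' hl'
    have e : x * s = el Inv l' h' * x :=
      eq_of_tables (isTable_mul hx hs) (by rw [he]; exact isTable_mul (isTable_el Inv l' h') hx)
    rw [e, mul_inv_cancel_right]
    exact Subgroup.subset_closure ⟨l', hl', isTable_el Inv l' h'⟩
  have hfpf : ∀ s ∈ SL Inv L, s * (g * s * g⁻¹) * (g⁻¹ * s * g) = 1 := by
    rintro s ⟨l, hl, hs⟩
    have h := beq_iff_eq.mp (List.all_eq_true.mp cf l hl)
    rw [ginv]
    exact eq_one_of_table (by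
      rw [← h]
      exact isTable_mul (isTable_mul hs (isTable_mul (isTable_mul tg_ hs) (isTable_mul tg_ tg_)))
        (isTable_mul (isTable_mul (isTable_mul tg_ tg_) hs) tg_))
  have hxg : ∀ (x : ↥(stabM Inv)) (tx : List ℕ), IsTable (x : Equiv.Perm GolayPt) tx →
      (mulTab tx tg = mulTab tg tx ∨ mulTab tx tg = mulTab (mulTab tg tg) tx) →
      x * g * x⁻¹ = g ∨ x * g * x⁻¹ = g⁻¹ := by
    intro x tx hx h
    rcases h with h | h
    · left
      have e : x * g = g * x :=
        eq_of_tables (isTable_mul hx tg_) (by rw [h]; exact isTable_mul tg_ hx)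
      rw [e, mul_inv_cancel_right]
    · right
      have e : x * g = g * g * x :=
        eq_of_tables (isTable_mul hx tg_) (by rw [h]; exact isTable_mul (isTable_mul tg_ tg_) hx)
      rw [e, mul_inv_cancel_right, ginv]
  have habE : (a * b) ^ 2 ∉ Subgroup.closure (SL Inv L) := by
    have hle : Subgroup.closure (SL Inv L)
        ≤ (stabM [T]).comap (Subgroup.subtype (stabM Inv)) := by
      rw [Subgroup.closure_le]
      rintro s ⟨l, hl, hs⟩
      show (s : Equiv.Perm GolayPt) ∈ stabM [T]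
      have h1 := List.all_eq_true.mp hL l hl
      unfold tabIn at h1
      simp only [Bool.and_eq_true] at h1
      have h2 := List.all_eq_true.mp LT l hl
      exact mem_stabM_of_table hs h1.1.2 (by rw [invOK]; simp [h2])
    intro hmem
    have h1 : (((a * b) ^ 2 : ↥(stabM Inv)) : Equiv.Perm GolayPt) ∈ stabM [T] := hle hmem
    have h2 := (mem_stabM_cons.mp h1).2
    have h3 := inv_smul_setOf (isTable_pow (isTable_mul ta_ tb_) 2) T
    have h4 : (((a * b) ^ 2 : ↥(stabM Inv)) : Equiv.Perm GolayPt)⁻¹ • setOf T = setOf T :=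
      inv_smul_eq_iff.mpr h2.symm
    exact abT (setOf_inj' hT (preMask_lt _ _) (h4.symm.trans h3)).symm
  have hU : 2 ^ n ≤ Nat.card
      (Subgroup.closure (SL Inv L) ⊔ Subgroup.closure ({a, b, c} : Set ↥(stabM Inv)) :
        Subgroup ↥(stabM Inv)) := by
    apply card_ge_of_chain _ gens prog idx (2 ^ n) _ hchain hprod
    intro l hl
    have h := List.all_eq_true.mp hgens l hl
    simp only [Bool.or_eq_true, List.any_eq_true, beq_iff_eq] at h
    rcases h with ((⟨l', hl', h⟩ | h) | h) | h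
    · have h' := List.all_eq_true.mp hL l' hl'
      rw [h]
      exact ⟨el Inv l' h', Subgroup.mem_sup_left
        (Subgroup.subset_closure ⟨l', hl', isTable_el Inv l' h'⟩), isTable_el Inv l' h'⟩
    · rw [h]
      exact ⟨a, Subgroup.mem_sup_right (Subgroup.subset_closure (by simp)), ta_⟩
    · rw [h]
      exact ⟨b, Subgroup.mem_sup_right (Subgroup.subset_closure (by simp)), tb_⟩
    · rw [h]
      exact ⟨c, Subgroup.mem_sup_right (Subgroup.subset_closure (by simp)), tc_⟩
  exact StemTwo.two_part σ hσ hinv (SL Inv L) hS2 hSc g a b c (hconj g tg tg_ cg) hfpf ha2 hb2 hc2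
    hab4 hac hbc (hconj a ta ta_ ca) (hconj b tb tb_ cb) (hconj c tc tc_ ccc) (hxg a ta ta_ ag)
    (hxg b tb tb_ bg) (hxg c tc tc_ cgg) habE n m hm hG hU

end base

section odd

theorem orderOf_el (Inv l : List ℕ) (h : tabIn Inv l = true) (p : ℕ) [Fact p.Prime]
    (hp : powTab l p = idTab) (i : ℕ) (hi : i < 24) (hne : l.getD i 0 ≠ i) :
    orderOf (el Inv l h) = p :=
  orderOf_eq_prime (eq_one_of_table (by rw [← hp]; exact isTable_pow (isTable_el Inv l h) p))
    (fun e => ne_one_of_table (isTable_el Inv l h) hi hne (congrArg Subtype.val e))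

/-- Transfer to a cyclic subgroup of prime order, from a table. -/
theorem cyc_tab (Inv : List ℕ) {Γ : Type} [Group Γ] (σ : Γ →* ↥(stabM Inv))
    (hσ : Cfsg.IsStemExtension σ) (l : List ℕ) (h : tabIn Inv l = true) (p : ℕ) [Fact p.Prime]
    (hp : powTab l p = idTab) (i : ℕ) (hi : i < 24) (hne : l.getD i 0 ≠ i) (m : ℕ)
    (hm : m * p = Nat.card ↥(stabM Inv)) {z : Γ} (hz : z ∈ σ.ker) : z ^ m = 1 :=
  Stem.cyc_pow σ hσ (el Inv l h) m (by rw [orderOf_el Inv l h p hp i hi hne]; exact hm) hz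

/-- Transfer to an elementary abelian subgroup of order nine, from tables. -/
theorem ab2_tab (Inv : List ℕ) {Γ : Type} [Group Γ] (σ : Γ →* ↥(stabM Inv))
    (hσ : Cfsg.IsStemExtension σ) (al be gi : List ℕ) (hal : tabIn Inv al = true)
    (hbe : tabIn Inv be = true) (hgi : tabIn Inv gi = true)
    (al3 : powTab al 3 = idTab) (be3 : powTab be 3 = idTab)
    (i j : ℕ) (hi : i < 24) (hj : j < 24) (ali : al.getD i 0 ≠ i) (bej : be.getD j 0 ≠ j)
    (c1 : mulTab al be = mulTab be al) (c2 : mulTab gi al = mulTab (mulTab al al) gi)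
    (c3 : mulTab gi be = mulTab be gi) (m : ℕ) (hm : m * 9 = Nat.card ↥(stabM Inv))
    {z : Γ} (hz : z ∈ σ.ker) : z ^ m = 1 := by
  have : Fact (Nat.Prime 3) := ⟨by norm_num⟩
  have ta_ := isTable_el Inv al hal
  have tb_ := isTable_el Inv be hbe
  have tg_ := isTable_el Inv gi hgi
  have ha3 : el Inv al hal ^ 3 = 1 := eq_one_of_table (by rw [← al3]; exact isTable_pow ta_ 3)
  have hb3 : el Inv be hbe ^ 3 = 1 := eq_one_of_table (by rw [← be3]; exact isTable_pow tb_ 3)
  have ha1 : el Inv al hal ≠ 1 := fun e => ne_one_of_table ta_ hi ali (congrArg Subtype.val e)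
  have hb1 : el Inv be hbe ≠ 1 := fun e => ne_one_of_table tb_ hj bej (congrArg Subtype.val e)
  have hab : el Inv al hal * el Inv be hbe = el Inv be hbe * el Inv al hal :=
    eq_of_tables (isTable_mul ta_ tb_) (by rw [c1]; exact isTable_mul tb_ ta_)
  have ainv : (el Inv al hal)⁻¹ = el Inv al hal * el Inv al hal := by
    rw [inv_eq_iff_mul_eq_one, ← mul_assoc, ← pow_two, ← pow_succ]; exact ha3
  have hg1 : el Inv gi hgi * el Inv al hal * (el Inv gi hgi)⁻¹ = (el Inv al hal)⁻¹ := by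
    have e : el Inv gi hgi * el Inv al hal = el Inv al hal * el Inv al hal * el Inv gi hgi :=
      eq_of_tables (isTable_mul tg_ ta_) (by rw [c2]; exact isTable_mul (isTable_mul ta_ ta_) tg_)
    rw [e, mul_inv_cancel_right, ainv]
  have hg2 : el Inv gi hgi * el Inv be hbe * (el Inv gi hgi)⁻¹ = el Inv be hbe := by
    have e : el Inv gi hgi * el Inv be hbe = el Inv be hbe * el Inv gi hgi :=
      eq_of_tables (isTable_mul tg_ tb_) (by rw [c3]; exact isTable_mul tb_ tg_)
    rw [e, mul_inv_cancel_right]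
  exact Stem.pow_of_card_dvd _ (3 ^ 2) m
    (Stem.ab2_card 3 (by norm_num) _ _ _ ha3 ha1 hb3 hb1 hab hg1 hg2) (by rw [← hm]; norm_num)
    (Stem.ab2_pow_index σ hσ _ _ _ 3 (by decide) ha3 hab hg1 hg2 hz)

/-- Transfer to an extraspecial subgroup of order 27, from tables. -/
theorem es27_tab (Inv : List ℕ) {Γ : Type} [Group Γ] (σ : Γ →* ↥(stabM Inv))
    (hσ : Cfsg.IsStemExtension σ) (ta tb tc tt : List ℕ) (ha : tabIn Inv ta = true)
    (hb : tabIn Inv tb = true) (hc : tabIn Inv tc = true) (ht : tabIn Inv tt = true)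
    (a3 : powTab ta 3 = idTab) (b3 : powTab tb 3 = idTab) (c3 : powTab tc 3 = idTab)
    (i : ℕ) (hi : i < 24) (ci : tc.getD i 0 ≠ i)
    (r1 : mulTab ta tb = mulTab (mulTab tc tb) ta) (r2 : mulTab ta tc = mulTab tc ta)
    (r3 : mulTab tb tc = mulTab tc tb) (r4 : mulTab tt ta = mulTab (mulTab ta ta) tt)
    (r5 : mulTab tt tb = mulTab (mulTab tb tb) tt)
    (prog : List (ℕ × ℕ)) (idx : List (ℕ × ℕ × List ℕ))
    (hchain : chainGen [] (slpChain (slpTabs prog [ta, tb]) idx) = true)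
    (hprod : chainProd (slpChain (slpTabs prog [ta, tb]) idx) = 27)
    (m : ℕ) (hm : m * 27 = Nat.card ↥(stabM Inv)) {z : Γ} (hz : z ∈ σ.ker) : z ^ m = 1 := by
  have : Fact (Nat.Prime 3) := ⟨by norm_num⟩
  have ta_ : IsTable (el Inv ta ha : Equiv.Perm GolayPt) ta := isTable_el Inv ta ha
  have tb_ : IsTable (el Inv tb hb : Equiv.Perm GolayPt) tb := isTable_el Inv tb hb
  have tc_ : IsTable (el Inv tc hc : Equiv.Perm GolayPt) tc := isTable_el Inv tc hc
  have tt_ : IsTable (el Inv tt ht : Equiv.Perm GolayPt) tt := isTable_el Inv tt ht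
  obtain ⟨a, had⟩ : ∃ a : ↥(stabM Inv), a = el Inv ta ha := ⟨_, rfl⟩
  obtain ⟨b, hbd⟩ : ∃ b : ↥(stabM Inv), b = el Inv tb hb := ⟨_, rfl⟩
  obtain ⟨c, hcd⟩ : ∃ c : ↥(stabM Inv), c = el Inv tc hc := ⟨_, rfl⟩
  obtain ⟨t, htd⟩ : ∃ t : ↥(stabM Inv), t = el Inv tt ht := ⟨_, rfl⟩
  rw [← had] at ta_
  rw [← hbd] at tb_
  rw [← hcd] at tc_
  rw [← htd] at tt_
  have ha3 : a ^ 3 = 1 := eq_one_of_table (by rw [← a3]; exact isTable_pow ta_ 3)
  have hb3 : b ^ 3 = 1 := eq_one_of_table (by rw [← b3]; exact isTable_pow tb_ 3)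
  have hc3 : c ^ 3 = 1 := eq_one_of_table (by rw [← c3]; exact isTable_pow tc_ 3)
  have hc1 : c ≠ 1 := fun e => ne_one_of_table tc_ hi ci (congrArg Subtype.val e)
  have hab : a * b = c * b * a :=
    eq_of_tables (isTable_mul ta_ tb_) (by rw [r1]; exact isTable_mul (isTable_mul tc_ tb_) ta_)
  have hac : a * c = c * a :=
    eq_of_tables (isTable_mul ta_ tc_) (by rw [r2]; exact isTable_mul tc_ ta_)
  have hbc : b * c = c * b :=
    eq_of_tables (isTable_mul tb_ tc_) (by rw [r3]; exact isTable_mul tc_ tb_)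
  have ainv : a⁻¹ = a * a := by
    rw [inv_eq_iff_mul_eq_one, ← mul_assoc, ← pow_two, ← pow_succ]; exact ha3
  have binv : b⁻¹ = b * b := by
    rw [inv_eq_iff_mul_eq_one, ← mul_assoc, ← pow_two, ← pow_succ]; exact hb3
  have hta : t * a * t⁻¹ = a⁻¹ := by
    have e : t * a = a * a * t :=
      eq_of_tables (isTable_mul tt_ ta_) (by rw [r4]; exact isTable_mul (isTable_mul ta_ ta_) tt_)
    rw [e, mul_inv_cancel_right, ainv]
  have htb : t * b * t⁻¹ = b⁻¹ := by
    have e : t * b = b * b * t :=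
      eq_of_tables (isTable_mul tt_ tb_) (by rw [r5]; exact isTable_mul (isTable_mul tb_ tb_) tt_)
    rw [e, mul_inv_cancel_right, binv]
  have h1 := StemTwo.es27_pow_index σ hσ a b c t ha3 hb3 hc1 hc3 hab hac hbc hta htb hz
  have hP := StemTwo.es27_isPGroup a b c ha3 hb3 hc3 hab hac hbc
  have hcard : 3 ^ 3 ≤ Nat.card (Subgroup.closure ({a, b} : Set ↥(stabM Inv))) := by
    apply card_ge_of_chain _ [ta, tb] prog idx (3 ^ 3) _ hchain hprod
    intro l hl
    simp only [List.mem_cons, List.not_mem_nil, or_false] at hl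
    rcases hl with h | h
    · rw [h]; exact ⟨a, Subgroup.subset_closure (by simp), ta_⟩
    · rw [h]; exact ⟨b, Subgroup.subset_closure (by simp), tb_⟩
  have hd := StemTwo.pow_dvd_card_of_le 3 _ hP 3 hcard
  exact Stem.pow_of_card_dvd _ (3 ^ 3) m hd (by rw [← hm]; norm_num) h1

end odd

section good

/-- Test that a table is an involution with a fixed point. -/
def invChk (l : List ℕ) : Bool :=
  (mulTab l l == idTab) && (List.range 24).any (fun i => l.getD i 0 == i) &&
    (List.range 24).any (fun i => l.getD i 0 != i)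

theorem props_of_invChk {Inv : List ℕ} {x : ↥(stabM Inv)} {l : List ℕ}
    (hx : IsTable (x : Equiv.Perm GolayPt) l) (h : invChk l = true) :
    x ^ 2 = 1 ∧ x ≠ 1 ∧ ∃ p, (x : Equiv.Perm GolayPt) p = p := by
  unfold invChk at h
  simp only [Bool.and_eq_true, beq_iff_eq, List.any_eq_true, List.mem_range, bne_iff_ne] at h
  obtain ⟨⟨h1, i, hi, hfix⟩, j, hj, hmov⟩ := h
  refine ⟨eq_one_of_table (by rw [← h1, pow_two]; exact isTable_mul hx hx),
    fun e => ne_one_of_table hx hj hmov (congrArg Subtype.val e), pt i, ?_⟩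
  rw [apply_of_table hx hi, hfix]

/-- If all involutions with a fixed point are conjugate to `u`, and an elementary abelian group
of order eight consisting of such involutions is given by tables, then `u` lifts to
involutions. -/
theorem good_u (Inv : List ℕ) (u : ↥(stabM Inv)) (hu2 : u ^ 2 = 1)
    (hconj : ∀ x : ↥(stabM Inv), x ^ 2 = 1 → x ≠ 1 → (∃ p, (x : Equiv.Perm GolayPt) p = p) →
      ∃ k : ↥(stabM Inv), k * x * k⁻¹ = u)
    {Γ : Type} [Group Γ] (σ : Γ →* ↥(stabM Inv)) (hσ : Cfsg.IsStemExtension σ)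
    (hK2 : ∀ k ∈ σ.ker, k ^ 2 = 1)
    (e f f' : List ℕ) (he : tabIn Inv e = true) (hf : tabIn Inv f = true)
    (hf' : tabIn Inv f' = true)
    (hchk : [e, f, f', mulTab e f, mulTab e f', mulTab f f', mulTab e (mulTab f f')].all invChk
      = true) : StemTwo.Good σ u := by
  simp only [List.all_cons, List.all_nil, Bool.and_true, Bool.and_eq_true] at hchk
  obtain ⟨c1, c2, c3, c4, c5, c6, c7⟩ := hchk
  have te := isTable_el Inv e he
  have tf := isTable_el Inv f hf
  have tf' := isTable_el Inv f' hf'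
  have key : ∀ (x : ↥(stabM Inv)) (l : List ℕ), IsTable (x : Equiv.Perm GolayPt) l →
      invChk l = true → ∃ k : ↥(stabM Inv), k * x * k⁻¹ = u := by
    intro x l hx h
    obtain ⟨p1, p2, p3⟩ := props_of_invChk hx h
    exact hconj x p1 p2 p3
  exact StemTwo.good_of_seven σ hσ.1 hσ.2.1 hK2 (el Inv e he) (el Inv f hf) (el Inv f' hf') u hu2
    (key _ _ te c1) (key _ _ tf c2) (key _ _ tf' c3) (key _ _ (isTable_mul te tf) c4)
    (key _ _ (isTable_mul te tf') c5) (key _ _ (isTable_mul tf tf') c6)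
    (key _ _ (isTable_mul te (isTable_mul tf tf')) c7)

/-- Involutions with a fixed point are good once `u` is. -/
theorem good_fix (Inv : List ℕ) (u : ↥(stabM Inv))
    (hconj : ∀ x : ↥(stabM Inv), x ^ 2 = 1 → x ≠ 1 → (∃ p, (x : Equiv.Perm GolayPt) p = p) →
      ∃ k : ↥(stabM Inv), k * x * k⁻¹ = u)
    {Γ : Type} [Group Γ] (σ : Γ →* ↥(stabM Inv)) (hσ : Cfsg.IsStemExtension σ)
    (hGu : StemTwo.Good σ u) (x : ↥(stabM Inv)) (l : List ℕ)
    (hx : IsTable (x : Equiv.Perm GolayPt) l) (h : invChk l = true) : StemTwo.Good σ x := by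
  obtain ⟨p1, p2, p3⟩ := props_of_invChk hx h
  obtain ⟨k, hk⟩ := hconj x p1 p2 p3
  exact StemTwo.good_conj σ hσ.1 k hk hGu

end good

end Cfsg.Agent.Lib.helper27.MSB
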