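import Cfsg.Agent.Lib.helper27.OutM22
import Cfsg.Agent.Lib.helper28.GolayTrans

/-!
The two-point stabilizer of the group of the length-24 code has no subgroup of order 7920 or 2112:
Sylow counting for the primes 11 and 5 forces such a subgroup to contain generators of the whole
stabilizer.
-/

set_option autoImplicit false

namespace Cfsg.Agent.Lib.helper27.NS22

open Cfsg Cfsg.Agent.Lib.helper28 Cfsg.Agent.Lib.helper27

/-- Sylow counting for an element of prime order `p` when `p ^ 2` does not divide the order. -/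
theorem sylow_count_gen {G : Type*} [Group G] [Finite G] (p : ℕ) [Fact p.Prime] (y : G)
    (hy : orderOf y = p) (hp : ¬ p ^ 2 ∣ Nat.card G) :
    ∃ N : Subgroup G, (∀ x ∈ N, ∃ k : ℕ, x * y * x⁻¹ = y ^ k) ∧ y ∈ N ∧
      ∃ n, n % p = 1 ∧ Nat.card N * n = Nat.card G := by
  have hPg : IsPGroup p (Subgroup.zpowers y) :=
    IsPGroup.of_card (n := 1) (by rw [Nat.card_zpowers, hy, pow_one])
  obtain ⟨P, hP⟩ := hPg.exists_le_sylow
  have hPeq : (P : Subgroup G) = Subgroup.zpowers y := by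
    symm
    apply Subgroup.eq_of_le_of_card_ge hP
    rw [Nat.card_zpowers, hy]
    obtain ⟨n, hn⟩ := P.isPGroup'.exists_card_eq
    have hdvd : p ^ n ∣ Nat.card G := hn ▸ Subgroup.card_subgroup_dvd_card (P : Subgroup G)
    have hn1 : n ≤ 1 := by
      by_contra hcon
      exact hp ((pow_dvd_pow p (by omega)).trans hdvd)
    rw [hn]
    calc p ^ n ≤ p ^ 1 := Nat.pow_le_pow_right (Fact.out : p.Prime).pos hn1
      _ = p := pow_one p
  refine ⟨Subgroup.normalizer ((P : Subgroup G) : Set G), ?_, ?_, Nat.card (Sylow p G), ?_, ?_⟩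
  · intro x hx
    have h1 : x * y * x⁻¹ ∈ (P : Subgroup G) :=
      (Subgroup.mem_normalizer_iff.mp hx y).mp (hP (Subgroup.mem_zpowers y))
    rw [hPeq] at h1
    obtain ⟨n, hn⟩ := (Submonoid.mem_powers_iff _ _).mp (mem_powers_iff_mem_zpowers.mpr h1)
    exact ⟨n, hn.symm⟩
  · exact Subgroup.le_normalizer (hP (Subgroup.mem_zpowers y))
  · have h := card_sylow_modEq_one p G
    have h1 : 1 % p = 1 := Nat.mod_eq_of_lt (Fact.out : p.Prime).one_lt
    rw [← h1]
    exact h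
  · rw [Sylow.card_eq_index_normalizer P]
    exact Subgroup.card_mul_index _

/-- A subgroup all of whose elements are given by a parametrization has at most as many elements
as there are parameters, and in case of equality every parameter occurs. -/
theorem card_le_of_param {G : Type*} [Group G] (N : Subgroup G) {ι : Type*} [Finite ι]
    {α : Type*} (v : G → α) (hv : Function.Injective v) (f : ι → α)
    (h : ∀ x ∈ N, ∃ i, v x = f i) :
    Nat.card N ≤ Nat.card ι ∧ (Nat.card N = Nat.card ι → ∀ i, ∃ x ∈ N, v x = f i) := by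
  choose g hg using fun x : ↥N => h x.1 x.2
  have hinj : Function.Injective g := by
    intro a b hab
    apply Subtype.ext
    apply hv
    rw [hg a, hg b, hab]
  refine ⟨Nat.card_le_card_of_injective g hinj, fun hc i => ?_⟩
  have hbij : Function.Bijective g := (Nat.bijective_iff_injective_and_card g).mpr ⟨hinj, hc⟩
  obtain ⟨x, hx⟩ := hbij.2 i
  exact ⟨x.1, x.2, by rw [hg x, hx]⟩

theorem pow_mod_of {G : Type*} [Monoid G] {y : G} {n : ℕ} (h : y ^ n = 1) (k : ℕ) :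
    y ^ k = y ^ (k % n) := by
  conv_lhs => rw [← Nat.div_add_mod k n]
  rw [pow_add, pow_mul, h, one_pow, one_mul]

theorem pY_in : pY ∈ stabM [2 ^ 0, 2 ^ 23] := by
  rw [mem_stabM_22]
  exact ⟨pY_mem, by rw [apply_tab isTable_pY (by norm_num)]; rfl,
    by rw [apply_tab isTable_pY (by norm_num)]; rfl⟩

theorem D_in : cubeTwist ∈ stabM [2 ^ 0, 2 ^ 23] := by
  rw [mem_stabM_22]
  exact ⟨cubeTwist_mem_M24, by rw [apply_tab isTable_D (by norm_num)]; rfl,
    by rw [apply_tab isTable_D (by norm_num)]; rfl⟩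

theorem D5 : cubeTwist ^ 5 = 1 := pow_eq_one_of_powTab isTable_D 5 (by decide +kernel)

theorem D_ne1 : cubeTwist ≠ 1 := ne_one_of_table isTable_D (i := 1) (by norm_num) (by decide)

theorem G4 : pG22 ^ 4 = 1 := pow_eq_one_of_powTab isTable_pG22 4 (by decide +kernel)

theorem rel_gd : pG22 * cubeTwist = cubeTwist ^ 2 * pG22 :=
  eq_of_isTable (isTable_mulTab isTable_pG22 isTable_D)
    (by rw [tab_gd22]; exact isTable_mulTab (isTable_powTab isTable_D 2) isTable_pG22)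

theorem numeric5 : ∀ k < 5, k ≠ 0 → ∃ j < 4, (2 ^ j * k) % 5 = 1 := by decide

theorem projInv_not_mem22 : projInv ∉ stabM [2 ^ 0, 2 ^ 23] := by
  rw [mem_stabM_22]
  rintro ⟨_, h23, _⟩
  rw [apply_tab isTable_S (by norm_num)] at h23
  exact absurd h23 (by decide)

/-- Elements of the two-point stabilizer normalizing the subgroup of order 11. -/
theorem norm11 {x : Equiv.Perm GolayPt} (hx : x ∈ stabM [2 ^ 0, 2 ^ 23]) {k : ℕ}
    (hk : x * pY * x⁻¹ = pY ^ k) :
    ∃ j : Fin 5, ∃ a : Fin 11, x = cubeTwist ^ (j : ℕ) * pY ^ (a : ℕ) := by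
  have hxM : x ∈ M24 := ((mem_stabM_22 x).mp hx).1
  have hk' : x * pY * x⁻¹ = pY ^ (k % 11) := by rw [hk]; exact pow_mod_of pY_pow k
  have hk0 : k % 11 ≠ 0 := by
    intro h0
    rw [h0, pow_zero] at hk'
    apply pY_ne_one
    have : pY = x⁻¹ * (x * pY * x⁻¹) * x := by group
    rw [this, hk']; group
  obtain ⟨j, hj, hj1⟩ := numeric11 (k % 11) (Nat.mod_lt _ (by norm_num)) hk0
  have hz : (cubeTwist ^ j * x) * pY * (cubeTwist ^ j * x)⁻¹
      = pY ^ ((3 ^ j * (k % 11)) % 11) := by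
    have h1 : (cubeTwist ^ j * x) * pY * (cubeTwist ^ j * x)⁻¹
        = cubeTwist ^ j * (x * pY * x⁻¹) * (cubeTwist ^ j)⁻¹ := by group
    rw [h1, hk', ← conj_pow, conj_pow_rel_gen rel_dy, ← pow_mul]
    exact pow_mod_of pY_pow _
  have hzM : cubeTwist ^ j * x ∈ M24 := M24.mul_mem (M24.pow_mem cubeTwist_mem_M24 j) hxM
  rcases hj1 with h | h
  · rw [h, pow_one] at hz
    have hc : (cubeTwist ^ j * x) * pY = pY * (cubeTwist ^ j * x) := by
      calc (cubeTwist ^ j * x) * pY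
          = ((cubeTwist ^ j * x) * pY * (cubeTwist ^ j * x)⁻¹) * (cubeTwist ^ j * x) := by group
        _ = pY * (cubeTwist ^ j * x) := by rw [hz]
    obtain ⟨a, ha, hca⟩ := centY hzM isTable_pY hc
    refine ⟨⟨(5 - j) % 5, Nat.mod_lt _ (by norm_num)⟩, ⟨a, ha⟩, ?_⟩
    have hinv : cubeTwist ^ ((5 - j) % 5) = (cubeTwist ^ j)⁻¹ := by
      rw [← pow_mod_of D5 (5 - j)]
      apply eq_inv_of_mul_eq_one_left
      rw [← pow_add, Nat.sub_add_cancel (by omega), D5]
    show x = cubeTwist ^ ((5 - j) % 5) * pY ^ a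
    rw [hinv, ← hca]; group
  · exfalso
    rw [h] at hz
    have hs : projInv * pY * projInv⁻¹ = pY ^ 10 := by rw [rel_sy]; group
    have hc : ((cubeTwist ^ j * x)⁻¹ * projInv) * pY
        = pY * ((cubeTwist ^ j * x)⁻¹ * projInv) := by
      have e1 : pY = (cubeTwist ^ j * x)⁻¹ * pY ^ 10 * (cubeTwist ^ j * x) := by
        rw [← hz]; group
      calc ((cubeTwist ^ j * x)⁻¹ * projInv) * pY
          = (cubeTwist ^ j * x)⁻¹ * (projInv * pY * projInv⁻¹) * projInv := by group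
        _ = (cubeTwist ^ j * x)⁻¹ * pY ^ 10 * (cubeTwist ^ j * x)
            * ((cubeTwist ^ j * x)⁻¹ * projInv) := by rw [hs]; group
        _ = pY * ((cubeTwist ^ j * x)⁻¹ * projInv) := by rw [← e1]
    obtain ⟨a, _, hca⟩ := centY (M24.mul_mem (M24.inv_mem hzM) projInv_mem_M24) isTable_pY hc
    apply projInv_not_mem22
    have : projInv = (cubeTwist ^ j * x) * pY ^ a := by rw [← hca]; group
    rw [this]
    exact Subgroup.mul_mem _ (Subgroup.mul_mem _ (Subgroup.pow_mem _ D_in j) hx)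
      (Subgroup.pow_mem _ pY_in a)

/-- Elements of the two-point stabilizer normalizing the subgroup of order 5. -/
theorem norm5 {x : Equiv.Perm GolayPt} (hx : x ∈ stabM [2 ^ 0, 2 ^ 23]) {k : ℕ}
    (hk : x * cubeTwist * x⁻¹ = cubeTwist ^ k) :
    ∃ j : Fin 4, ∃ i : Fin 5, x = pG22 ^ (j : ℕ) * cubeTwist ^ (i : ℕ) := by
  have hk' : x * cubeTwist * x⁻¹ = cubeTwist ^ (k % 5) := by rw [hk]; exact pow_mod_of D5 k
  have hk0 : k % 5 ≠ 0 := by
    intro h0
    rw [h0, pow_zero] at hk'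
    apply D_ne1
    have : cubeTwist = x⁻¹ * (x * cubeTwist * x⁻¹) * x := by group
    rw [this, hk']; group
  obtain ⟨j, hj, hj1⟩ := numeric5 (k % 5) (Nat.mod_lt _ (by norm_num)) hk0
  have hz : (pG22 ^ j * x) * cubeTwist * (pG22 ^ j * x)⁻¹ = cubeTwist := by
    have h1 : (pG22 ^ j * x) * cubeTwist * (pG22 ^ j * x)⁻¹
        = pG22 ^ j * (x * cubeTwist * x⁻¹) * (pG22 ^ j)⁻¹ := by group
    rw [h1, hk', ← conj_pow, conj_pow_rel_gen rel_gd, ← pow_mul,
      pow_mod_of D5 (2 ^ j * (k % 5)), hj1, pow_one]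
  have hzK : pG22 ^ j * x ∈ stabM [2 ^ 0, 2 ^ 23] :=
    Subgroup.mul_mem _ (Subgroup.pow_mem _ pG22_mem j) hx
  have hc : (pG22 ^ j * x) * cubeTwist = cubeTwist * (pG22 ^ j * x) := by
    calc (pG22 ^ j * x) * cubeTwist
        = ((pG22 ^ j * x) * cubeTwist * (pG22 ^ j * x)⁻¹) * (pG22 ^ j * x) := by group
      _ = cubeTwist * (pG22 ^ j * x) := by rw [hz]
  obtain ⟨i, hi, hci⟩ := cent22 hzK hc
  refine ⟨⟨(4 - j) % 4, Nat.mod_lt _ (by norm_num)⟩, ⟨i, hi⟩, ?_⟩
  have hinv : pG22 ^ ((4 - j) % 4) = (pG22 ^ j)⁻¹ := by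
    rw [← pow_mod_of G4 (4 - j)]
    apply eq_inv_of_mul_eq_one_left
    rw [← pow_add, Nat.sub_add_cancel (by omega), G4]
  show x = pG22 ^ ((4 - j) % 4) * cubeTwist ^ i
  rw [hinv, ← hci]; group

/-- No subgroup of order 7920 or 2112 containing the element of order 11. -/
theorem no_sub_aux (H : Subgroup (Equiv.Perm GolayPt)) (hH : H ≤ stabM [2 ^ 0, 2 ^ 23])
    (hY : pY ∈ H) (hc : Nat.card H = 7920 ∨ Nat.card H = 2112) : False := by
  have : Fact (Nat.Prime 11) := ⟨by norm_num⟩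
  have : Fact (Nat.Prime 5) := ⟨by norm_num⟩
  obtain ⟨y, hy⟩ : ∃ y : ↥H, (y : Equiv.Perm GolayPt) = pY := ⟨⟨pY, hY⟩, rfl⟩
  have hyord : orderOf y = 11 := by
    apply orderOf_eq_prime
    · apply Subtype.ext
      rw [Subgroup.coe_pow, hy, pY_pow]; rfl
    · intro h1
      apply pY_ne_one
      rw [← hy, h1]; rfl
  have hp11 : ¬ 11 ^ 2 ∣ Nat.card ↥H := by rcases hc with h | h <;> rw [h] <;> norm_num
  obtain ⟨N, hN, hyN, n, hn1, hn2⟩ := sylow_count_gen 11 y hyord hp11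
  have hpar : ∀ x ∈ N, ∃ i : Fin 5 × Fin 11,
      ((x : ↥H) : Equiv.Perm GolayPt) = cubeTwist ^ (i.1 : ℕ) * pY ^ (i.2 : ℕ) := by
    intro x hx
    obtain ⟨k, hk⟩ := hN x hx
    have hk' : (x : Equiv.Perm GolayPt) * pY * (x : Equiv.Perm GolayPt)⁻¹ = pY ^ k := by
      have := congrArg Subtype.val hk
      rw [← hy]; exact this
    obtain ⟨j, a, hja⟩ := norm11 (hH x.2) hk'
    exact ⟨(j, a), hja⟩
  obtain ⟨hle, hsurj⟩ := card_le_of_param N (fun x : ↥H => (x : Equiv.Perm GolayPt))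
    Subtype.val_injective (fun i : Fin 5 × Fin 11 => cubeTwist ^ (i.1 : ℕ) * pY ^ (i.2 : ℕ)) hpar
  have hcard55 : Nat.card (Fin 5 × Fin 11) = 55 := by simp
  rw [hcard55] at hle hsurj
  have h11N : 11 ∣ Nat.card N := by
    have h := orderOf_dvd_natCard (⟨y, hyN⟩ : ↥N)
    rw [← Subgroup.orderOf_coe] at h
    rw [← hyord]; exact h
  have hN55 : Nat.card N = 55 ∧ Nat.card H = 7920 := by
    obtain ⟨m, hm⟩ := h11N
    rw [hm] at hle hn2
    have hm5 : m ≤ 5 := by omega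
    rcases hc with h | h
    · rw [h] at hn2
      interval_cases m
      all_goals first | (exfalso; omega) | exact ⟨by omega, h⟩
    · rw [h] at hn2
      interval_cases m <;> (exfalso; omega)
  obtain ⟨hN55c, hH7920⟩ := hN55
  obtain ⟨xD, hxDN, hxD⟩ := hsurj hN55c (⟨1, by norm_num⟩, ⟨0, by norm_num⟩)
  have hD : cubeTwist ∈ H := by
    have h1 : (xD : Equiv.Perm GolayPt) = cubeTwist := by
      have h2 := hxD
      simpa using h2
    rw [← h1]; exact xD.2
  obtain ⟨d, hd⟩ : ∃ d : ↥H, (d : Equiv.Perm GolayPt) = cubeTwist := ⟨⟨cubeTwist, hD⟩, rfl⟩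
  have hdord : orderOf d = 5 := by
    apply orderOf_eq_prime
    · apply Subtype.ext
      rw [Subgroup.coe_pow, hd, D5]; rfl
    · intro h1
      apply D_ne1
      rw [← hd, h1]; rfl
  have hp5 : ¬ 5 ^ 2 ∣ Nat.card ↥H := by rw [hH7920]; norm_num
  obtain ⟨N2, hN2, hdN2, n2, hn21, hn22⟩ := sylow_count_gen 5 d hdord hp5
  have hpar2 : ∀ x ∈ N2, ∃ i : Fin 4 × Fin 5,
      ((x : ↥H) : Equiv.Perm GolayPt) = pG22 ^ (i.1 : ℕ) * cubeTwist ^ (i.2 : ℕ) := by
    intro x hx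
    obtain ⟨k, hk⟩ := hN2 x hx
    have hk' : (x : Equiv.Perm GolayPt) * cubeTwist * (x : Equiv.Perm GolayPt)⁻¹
        = cubeTwist ^ k := by
      have := congrArg Subtype.val hk
      rw [← hd]; exact this
    obtain ⟨j, i, hji⟩ := norm5 (hH x.2) hk'
    exact ⟨(j, i), hji⟩
  obtain ⟨hle2, hsurj2⟩ := card_le_of_param N2 (fun x : ↥H => (x : Equiv.Perm GolayPt))
    Subtype.val_injective (fun i : Fin 4 × Fin 5 => pG22 ^ (i.1 : ℕ) * cubeTwist ^ (i.2 : ℕ))
    hpar2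
  have hcard20 : Nat.card (Fin 4 × Fin 5) = 20 := by simp
  rw [hcard20] at hle2 hsurj2
  have h5N : 5 ∣ Nat.card N2 := by
    have h := orderOf_dvd_natCard (⟨d, hdN2⟩ : ↥N2)
    rw [← Subgroup.orderOf_coe] at h
    rw [← hdord]; exact h
  have hN20 : Nat.card N2 = 20 := by
    obtain ⟨m, hm⟩ := h5N
    rw [hm] at hle2 hn22
    rw [hH7920] at hn22
    have hm4 : m ≤ 4 := by omega
    interval_cases m
    all_goals first | (exfalso; omega) | omega
  obtain ⟨xG, hxGN, hxG⟩ := hsurj2 hN20 (⟨1, by norm_num⟩, ⟨0, by norm_num⟩)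
  have hG : pG22 ∈ H := by
    have h1 : (xG : Equiv.Perm GolayPt) = pG22 := by
      have h2 := hxG
      simpa using h2
    rw [← h1]; exact xG.2
  have hgen : stabM [2 ^ 0, 2 ^ 23] ≤ H := by
    refine m22_gen.trans ?_
    rw [Subgroup.closure_le]
    intro z hz
    rcases hz with rfl | rfl | rfl
    · exact hY
    · exact hD
    · exact hG
  have hcardle := Subgroup.card_le_of_le hgen
  rw [card_stabM_22, hH7920] at hcardle
  omega

/-- The two-point stabilizer has no subgroup of order 7920 or 2112. -/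
theorem no_sub (H : Subgroup (Equiv.Perm GolayPt)) (hH : H ≤ stabM [2 ^ 0, 2 ^ 23])
    (hc : Nat.card H = 7920 ∨ Nat.card H = 2112) : False := by
  have : Fact (Nat.Prime 11) := ⟨by norm_num⟩
  have h11 : 11 ∣ Nat.card ↥H := by rcases hc with h | h <;> rw [h] <;> norm_num
  obtain ⟨h, hh⟩ := exists_prime_orderOf_dvd_card' 11 h11
  have hp2 : ¬ 11 ^ 2 ∣ Nat.card ↥(stabM [2 ^ 0, 2 ^ 23]) := by
    rw [card_stabM_22]; norm_num
  have hA : Nat.card (Subgroup.zpowers (⟨h.1, hH h.2⟩ : ↥(stabM [2 ^ 0, 2 ^ 23]))) = 11 := by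
    rw [Nat.card_zpowers, ← Subgroup.orderOf_coe]
    show orderOf (h : Equiv.Perm GolayPt) = 11
    rw [Subgroup.orderOf_coe]; exact hh
  have hB : Nat.card (Subgroup.zpowers (⟨pY, pY_in⟩ : ↥(stabM [2 ^ 0, 2 ^ 23]))) = 11 := by
    rw [Nat.card_zpowers]
    apply orderOf_eq_prime
    · apply Subtype.ext
      show pY ^ 11 = 1
      exact pY_pow
    · intro h1
      exact pY_ne_one (congrArg Subtype.val h1)
  obtain ⟨g, hg⟩ := exists_conj_of_card_prime hp2 _ _ hA hB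
  have hmem : (⟨pY, pY_in⟩ : ↥(stabM [2 ^ 0, 2 ^ 23])) ∈
      (Subgroup.zpowers (⟨h.1, hH h.2⟩ : ↥(stabM [2 ^ 0, 2 ^ 23]))).map
        (MulAut.conj g).toMonoidHom := by
    rw [hg]; exact Subgroup.mem_zpowers _
  obtain ⟨a, ha, hga⟩ := Subgroup.mem_map.mp hmem
  obtain ⟨m, hm⟩ := Subgroup.mem_zpowers_iff.mp ha
  have hpY : pY = (g : Equiv.Perm GolayPt) * (h : Equiv.Perm GolayPt) ^ m
      * (g : Equiv.Perm GolayPt)⁻¹ := by
    have h1 := congrArg Subtype.val hga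
    rw [← hm] at h1
    exact h1.symm
  apply no_sub_aux (H.map (MulAut.conj (g : Equiv.Perm GolayPt)).toMonoidHom)
  · rintro _ ⟨x, hx, rfl⟩
    show (g : Equiv.Perm GolayPt) * x * (g : Equiv.Perm GolayPt)⁻¹ ∈ stabM [2 ^ 0, 2 ^ 23]
    exact Subgroup.mul_mem _ (Subgroup.mul_mem _ g.2 (hH hx)) (Subgroup.inv_mem _ g.2)
  · rw [hpY]
    exact ⟨(h : Equiv.Perm GolayPt) ^ m, H.zpow_mem h.2 m, rfl⟩
  · rw [Subgroup.card_map_of_injective (MulAut.conj (g : Equiv.Perm GolayPt)).injective]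
    exact hc

end Cfsg.Agent.Lib.helper27.NS22
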