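import Cfsg.Agent.Lib.helper27.StemCover

set_option autoImplicit false

/-! Transfer to a dihedral Sylow 2-subgroup of order eight: if the involutions lift to involutions
in a stem extension with a kernel of exponent two, the kernel is trivial. -/

namespace Cfsg.Agent.Lib.helper27.StemD8

open Cfsg.Agent.Lib.helper20 Cfsg.Agent.Lib.helper27.Stem Cfsg.Agent.Lib.helper27.StemTwo

universe u v

/-- An involution whose product with `ξ` is an involution inverts `ξ`. -/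
theorem inv_of_sq {G : Type v} [Group G] (ξ η : G) (h2 : η ^ 2 = 1) (h : (η * ξ) ^ 2 = 1) :
    η * ξ * η⁻¹ = ξ⁻¹ := by
  have ηinv : η⁻¹ = η := by rw [inv_eq_iff_mul_eq_one, ← pow_two, h2]
  rw [ηinv]
  have h1 : η * ξ * (η * ξ) = 1 := by rw [← pow_two]; exact h
  have h2 : η * ξ * η * ξ = 1 := by rw [mul_assoc (η * ξ) η ξ]; exact h1
  exact eq_inv_of_mul_eq_one_left h2

/-- A dihedral subgroup `⟨ξ, η⟩` of order eight has order divisible by eight. -/
theorem d8_card {G : Type v} [Group G] [Finite G] (ξ η : G) (h2 : η ^ 2 = 1)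
    (hrel : η * ξ * η⁻¹ = ξ⁻¹) (h4 : ξ ^ 4 = 1) (hξ2 : ξ ^ 2 ≠ 1) :
    8 ∣ Nat.card (Subgroup.closure ({ξ, η} : Set G)) := by
  have : Fact (Nat.Prime 2) := ⟨Nat.prime_two⟩
  have ho : orderOf ξ = 4 := orderOf_eq_prime_pow (p := 2) (n := 1) hξ2 h4
  have hP1 : IsPGroup 2 (Subgroup.zpowers ξ) :=
    IsPGroup.of_card (n := 2) (by rw [Nat.card_zpowers, ho]; norm_num)
  have hP2 : IsPGroup 2 (Subgroup.zpowers η) := by
    rintro ⟨g, hg⟩
    obtain ⟨k, rfl⟩ := hg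
    refine ⟨1, Subtype.ext ?_⟩
    show (η ^ k) ^ 2 ^ 1 = 1
    rw [pow_one, ← zpow_natCast, ← zpow_mul, mul_comm, zpow_mul, zpow_natCast, h2, one_zpow]
  have hηinv : η⁻¹ = η := by rw [inv_eq_iff_mul_eq_one, ← pow_two, h2]
  have hN : Subgroup.zpowers η ≤ Subgroup.normalizer (Subgroup.zpowers ξ : Set G) := by
    rw [Subgroup.zpowers_le]
    refine mem_normalizer_zpowers ?_ ?_
    · rw [hrel]; exact Subgroup.inv_mem _ (Subgroup.mem_zpowers ξ)
    · have : η⁻¹ * ξ * η = η * ξ * η⁻¹ := by rw [hηinv]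
      rw [this, hrel]; exact Subgroup.inv_mem _ (Subgroup.mem_zpowers ξ)
  have hP : IsPGroup 2 (Subgroup.closure ({ξ, η} : Set G)) := by
    rw [closure_pair_eq_sup]; exact IsPGroup.to_sup_of_normal_right' hP2 hP1 hN
  obtain ⟨k, hk⟩ := IsPGroup.iff_card.mp hP
  have hle : Subgroup.zpowers ξ ≤ Subgroup.closure ({ξ, η} : Set G) := by
    rw [Subgroup.zpowers_le]; exact Subgroup.subset_closure (by simp)
  have hd := Subgroup.card_dvd_of_le hle
  rw [Nat.card_zpowers, ho, hk] at hd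
  have h2k : 2 ≤ k :=
    (Nat.pow_dvd_pow_iff_le_right (by norm_num : 1 < 2)).mp (by simpa using hd)
  rw [hk]
  rcases Nat.lt_or_ge 2 k with h | h
  · exact pow_dvd_pow 2 (show 3 ≤ k by omega)
  · exfalso
    have hk2 : k = 2 := le_antisymm h h2k
    have heq : Subgroup.zpowers ξ = Subgroup.closure ({ξ, η} : Set G) :=
      Subgroup.eq_of_le_of_card_ge hle (by rw [hk, hk2, Nat.card_zpowers, ho]; norm_num)
    have hη : η ∈ Subgroup.zpowers ξ := by rw [heq]; exact Subgroup.subset_closure (by simp)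
    obtain ⟨j, rfl⟩ := hη
    have e : ξ ^ j * ξ * (ξ ^ j)⁻¹ = ξ := by
      rw [(Commute.zpow_self ξ j).eq, mul_inv_cancel_right]
    rw [e] at hrel
    apply hξ2
    calc ξ ^ 2 = ξ * ξ := pow_two ξ
      _ = ξ⁻¹ * ξ := by rw [← hrel]
      _ = 1 := inv_mul_cancel ξ

/-- A dihedral subgroup of order eight has odd index in a group of order `8 * m`, `m` odd. -/
theorem d8_index_odd {G : Type v} [Group G] [Finite G] (ξ η : G) (h2 : η ^ 2 = 1)
    (hrel : η * ξ * η⁻¹ = ξ⁻¹) (h4 : ξ ^ 4 = 1) (hξ2 : ξ ^ 2 ≠ 1) (m : ℕ) (hm : Odd m)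
    (hG : Nat.card G = 8 * m) : Odd (Subgroup.closure ({ξ, η} : Set G)).index := by
  obtain ⟨t, ht⟩ := d8_card ξ η h2 hrel h4 hξ2
  have h1 := Subgroup.card_mul_index (Subgroup.closure ({ξ, η} : Set G))
  rw [ht, hG] at h1
  have h3 : t * (Subgroup.closure ({ξ, η} : Set G)).index = m := by
    have h' : 8 * (t * (Subgroup.closure ({ξ, η} : Set G)).index) = 8 * m := by
      rw [← mul_assoc]; exact h1
    exact Nat.eq_of_mul_eq_mul_left (by norm_num) h'
  rw [← h3] at hm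
  exact (Nat.odd_mul.mp hm).2

/-- Transfer to a dihedral subgroup `⟨ξ, η⟩` of odd index in which `η`, `η * ξ` and `ξ ^ 2` lift
to involutions only: a kernel of exponent two is trivial. -/
theorem d8_part {Γ : Type u} {G : Type v} [Group Γ] [Group G] [Finite G] (σ : Γ →* G)
    (hσ : Cfsg.IsStemExtension σ) (hK2 : ∀ k ∈ σ.ker, k ^ 2 = 1)
    (ξ η : G) (hξ2 : ξ ^ 2 ≠ 1)
    (Gη : Good σ η) (Gηξ : Good σ (η * ξ)) (Gξ2 : Good σ (ξ ^ 2))
    (hidx : Odd (Subgroup.closure ({ξ, η} : Set G)).index) : σ.ker = ⊥ := by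
  have hcz : ∀ {k : Γ}, k ∈ σ.ker → ∀ r : Γ, r * k = k * r := fun hk r =>
    Subgroup.mem_center_iff.mp (hσ.2.1 hk) r
  obtain ⟨x, hx⟩ := hσ.1 ξ
  obtain ⟨y, hy⟩ := hσ.1 η
  have hy2 : y ^ 2 = 1 := Gη y hy
  have yinv : y⁻¹ = y := by rw [inv_eq_iff_mul_eq_one, ← pow_two, hy2]
  have hyx : (y * x) ^ 2 = 1 := Gηξ _ (by rw [map_mul, hy, hx])
  have hx4 : (x ^ 2) ^ 2 = 1 := Gξ2 _ (by rw [map_pow, hx])
  have hconj : y * x * y⁻¹ = x⁻¹ := inv_of_sq x y hy2 hyx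
  have hx2inv : (x ^ 2)⁻¹ = x ^ 2 := by rw [inv_eq_iff_mul_eq_one, ← pow_two, hx4]
  let W : Subgroup Γ :=
    { carrier := {e | e = 1 ∨ e = x ^ 2}
      mul_mem' := by
        rintro a b (ha | ha) (hb | hb)
        · left; rw [ha, hb, mul_one]
        · right; rw [ha, hb, one_mul]
        · right; rw [ha, hb, mul_one]
        · left; rw [ha, hb, ← pow_two]; exact hx4
      one_mem' := Or.inl rfl
      inv_mem' := by
        rintro a (ha | ha)
        · left; rw [ha, inv_one]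
        · right; rw [ha]; exact hx2inv }
  have hW : ∀ e, e ∈ W ↔ (e = 1 ∨ e = x ^ 2) := fun e => Iff.rfl
  have hx2W : x ^ 2 ∈ W := (hW _).mpr (Or.inr rfl)
  have hyx2 : y * x ^ 2 * y⁻¹ = x ^ 2 := by
    rw [← conj_pow, hconj, inv_pow, hx2inv]
  have hxx2 : x * x ^ 2 * x⁻¹ = x ^ 2 := by group
  have hxx2' : x⁻¹ * x ^ 2 * x = x ^ 2 := by group
  obtain ⟨S', hS'⟩ : ∃ S' : Set Γ, S' = {e | e = x ∨ e = y ∨ e ∈ σ.ker} := ⟨_, rfl⟩
  have hS'mem : ∀ e, e ∈ S' ↔ (e = x ∨ e = y ∨ e ∈ σ.ker) := by intro e; rw [hS']; rfl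
  have hn : ∀ r ∈ S', ∀ e ∈ W, r * e * r⁻¹ ∈ W ∧ r⁻¹ * e * r ∈ W := by
    intro r hr e he
    rcases (hW e).mp he with h0 | h0
    · rw [h0]
      refine ⟨?_, ?_⟩
      · rw [mul_one, mul_inv_cancel]; exact W.one_mem
      · rw [mul_one, inv_mul_cancel]; exact W.one_mem
    · rw [h0]
      rcases (hS'mem r).mp hr with h | h | h
      · rw [h, hxx2, hxx2']; exact ⟨hx2W, hx2W⟩
      · have h' : y⁻¹ * x ^ 2 * y = y * x ^ 2 * y⁻¹ := by rw [yinv]
        rw [h, h', hyx2]; exact ⟨hx2W, hx2W⟩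
      · have e1 : r * x ^ 2 * r⁻¹ = x ^ 2 := by rw [← hcz h (x ^ 2), mul_inv_cancel_right]
        have e2 : r⁻¹ * x ^ 2 * r = x ^ 2 := by
          rw [mul_assoc, hcz h (x ^ 2), inv_mul_cancel_left]
        rw [e1, e2]; exact ⟨hx2W, hx2W⟩
  have hcomm1 : ∀ p q : Γ, p * q = q * p → p * q * p⁻¹ * q⁻¹ ∈ W := by
    intro p q h
    have e : p * q * p⁻¹ * q⁻¹ = 1 := by rw [h]; group
    rw [e]; exact W.one_mem
  have hxy : x * y * x⁻¹ * y⁻¹ = x ^ 2 := by
    have h : y * x⁻¹ * y⁻¹ = x := by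
      have h' : y * x⁻¹ * y⁻¹ = (y * x * y⁻¹)⁻¹ := by group
      rw [h', hconj, inv_inv]
    calc x * y * x⁻¹ * y⁻¹ = x * (y * x⁻¹ * y⁻¹) := by group
      _ = x ^ 2 := by rw [h, pow_two]
  have hyx' : y * x * y⁻¹ * x⁻¹ = x ^ 2 := by
    rw [hconj, ← hx2inv, pow_two, mul_inv_rev]
  have hcS' : ∀ p ∈ S', ∀ q ∈ S', p * q * p⁻¹ * q⁻¹ ∈ W := by
    intro p hp q hq
    rcases (hS'mem p).mp hp with h | h | h
    · rcases (hS'mem q).mp hq with h' | h' | h'
      · rw [h, h']; exact hcomm1 _ _ rfl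
      · rw [h, h', hxy]; exact hx2W
      · exact hcomm1 _ _ (hcz h' p)
    · rcases (hS'mem q).mp hq with h' | h' | h'
      · rw [h, h', hyx']; exact hx2W
      · rw [h, h']; exact hcomm1 _ _ rfl
      · exact hcomm1 _ _ (hcz h' p)
    · exact hcomm1 _ _ (hcz h q).symm
  have hcomm := commutator_closure_le S' W hn hcS'
  have hH_le : (Subgroup.closure ({ξ, η} : Set G)).comap σ ≤ Subgroup.closure S' := by
    have h1 : Subgroup.closure ({ξ, η} : Set G) ≤ (Subgroup.closure S').map σ := by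
      rw [Subgroup.closure_le]
      intro q hq
      rcases hq with h | h
      · exact ⟨x, Subgroup.subset_closure ((hS'mem x).mpr (Or.inl rfl)), by rw [hx, h]⟩
      · rw [Set.mem_singleton_iff] at h
        exact ⟨y, Subgroup.subset_closure ((hS'mem y).mpr (Or.inr (Or.inl rfl))), by rw [hy, h]⟩
    intro h hh
    obtain ⟨h', hh', e⟩ := h1 hh
    have hk : h'⁻¹ * h ∈ σ.ker := by
      rw [MonoidHom.mem_ker, map_mul, map_inv, e, inv_mul_cancel]
    have e2 : h = h' * (h'⁻¹ * h) := by group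
    rw [e2]
    exact Subgroup.mul_mem _ hh'
      (Subgroup.subset_closure ((hS'mem _).mpr (Or.inr (Or.inr hk))))
  rw [eq_bot_iff]
  intro z hz
  rw [Subgroup.mem_bot]
  have hz2 := hK2 z hz
  have h1 := pow_index_mem σ hσ (Subgroup.closure ({ξ, η} : Set G)) hz
  have hzm : z ^ (Subgroup.closure ({ξ, η} : Set G)).index = z := by
    obtain ⟨j, hj⟩ := hidx
    rw [hj, pow_succ, pow_mul, hz2, one_pow, one_mul]
  rw [hzm] at h1
  have hzW : z ∈ W := hcomm (Subgroup.commutator_mono hH_le hH_le h1)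
  rcases (hW z).mp hzW with h | h
  · exact h
  · exfalso
    apply hξ2
    rw [← hx, ← map_pow, ← h]
    exact MonoidHom.mem_ker.mp hz

end Cfsg.Agent.Lib.helper27.StemD8
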