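import Mathlib
import Cfsg.Agent.Lib.helper28.TernGolay2

set_option autoImplicit false

/-! The monomial automorphism group of the ternary code of length 12: generators and
5-transitivity of its permutation parts. -/

namespace Cfsg.Agent.Lib.helper27.TM12

open Cfsg
open Cfsg.Agent.Lib.helper28.TG

/-- the monomial maps preserving the code -/
def PM (σ : Equiv.Perm ArrayPt) (c : ArrayPt → (ZMod 3)ˣ) : Prop :=
  ∀ x ∈ ternaryGolayCode, monomialMap σ c x ∈ ternaryGolayCode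

theorem PM_one : PM 1 1 := by
  intro x hx
  have : monomialMap 1 1 x = x := by
    funext i
    show ((1 : (ZMod 3)ˣ) : ZMod 3) * x ((1 : Equiv.Perm ArrayPt).symm i) = x i
    rw [Units.val_one, one_mul]
    rfl
  rw [this]; exact hx

theorem monomialMap_mul (σ τ : Equiv.Perm ArrayPt) (c d : ArrayPt → (ZMod 3)ˣ)
    (x : ArrayPt → ZMod 3) :
    monomialMap (σ * τ) (fun i => c i * d (σ.symm i)) x =
      monomialMap σ c (monomialMap τ d x) := by
  funext i
  simp only [monomialMap, Units.val_mul]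
  rw [mul_assoc]
  rfl

theorem PM_mul {σ τ : Equiv.Perm ArrayPt} {c d : ArrayPt → (ZMod 3)ˣ} (h1 : PM σ c)
    (h2 : PM τ d) : PM (σ * τ) (fun i => c i * d (σ.symm i)) := by
  intro x hx
  rw [monomialMap_mul]
  exact h1 _ (h2 x hx)

theorem PM_surj {σ : Equiv.Perm ArrayPt} {c : ArrayPt → (ZMod 3)ˣ} (h : PM σ c)
    (y : ArrayPt → ZMod 3) (hy : y ∈ ternaryGolayCode) :
    ∃ x ∈ ternaryGolayCode, monomialMap σ c x = y := by
  let f : ternaryGolayCode → ternaryGolayCode := fun x => ⟨monomialMap σ c x.1, h x.1 x.2⟩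
  have hinj : Function.Injective f := by
    intro x1 x2 h12
    have h' : monomialMap σ c x1.1 = monomialMap σ c x2.1 := congrArg Subtype.val h12
    apply Subtype.ext
    funext i
    have h3 := congrFun h' (σ i)
    simp only [monomialMap, Equiv.symm_apply_apply] at h3
    exact (Units.mul_right_inj _).mp h3
  have hsurj := Finite.surjective_of_injective hinj
  obtain ⟨x, hx⟩ := hsurj ⟨y, hy⟩
  exact ⟨x.1, x.2, congrArg Subtype.val hx⟩

theorem PM_inv {σ : Equiv.Perm ArrayPt} {c : ArrayPt → (ZMod 3)ˣ} (h : PM σ c) :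
    PM σ⁻¹ (fun i => (c (σ i))⁻¹) := by
  intro y hy
  obtain ⟨x, hx, rfl⟩ := PM_surj h y hy
  have : monomialMap σ⁻¹ (fun i => (c (σ i))⁻¹) (monomialMap σ c x) = x := by
    funext i
    show ((c (σ i))⁻¹ : (ZMod 3)ˣ) * ((c (σ⁻¹.symm i) : ZMod 3) * x (σ.symm (σ⁻¹.symm i))) = x i
    have e1 : σ⁻¹.symm i = σ i := rfl
    rw [e1, Equiv.symm_apply_apply, ← mul_assoc, ← Units.val_mul, inv_mul_cancel, Units.val_one,
      one_mul]
  rw [this]
  exact hx

theorem PM_neg {σ : Equiv.Perm ArrayPt} {c : ArrayPt → (ZMod 3)ˣ} (h : PM σ c) :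
    PM σ (fun i => -c i) := by
  intro x hx
  have : monomialMap σ (fun i => -c i) x = -monomialMap σ c x := by
    funext i
    simp [monomialMap]
  rw [this]
  exact neg_mem (h x hx)

/-- the group of the permutation parts -/
def Gm : Subgroup (Equiv.Perm ArrayPt) where
  carrier := {σ | ∃ c, PM σ c}
  mul_mem' := by
    rintro σ τ ⟨c, hc⟩ ⟨d, hd⟩
    exact ⟨_, PM_mul hc hd⟩
  one_mem' := ⟨1, PM_one⟩
  inv_mem' := by
    rintro σ ⟨c, hc⟩
    exact ⟨_, PM_inv hc⟩

theorem mem_Gm {σ : Equiv.Perm ArrayPt} : σ ∈ Gm ↔ ∃ c, PM σ c := Iff.rfl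

theorem supp_monomial (σ : Equiv.Perm ArrayPt) (c : ArrayPt → (ZMod 3)ˣ) (x : ArrayPt → ZMod 3) :
    ternarySupport (monomialMap σ c x) = (ternarySupport x).image σ := by
  ext i
  rw [mem_tsupp, Finset.mem_image]
  constructor
  · intro h
    refine ⟨σ.symm i, ?_, by simp⟩
    rw [mem_tsupp]
    intro h0
    apply h
    show (c i : ZMod 3) * x (σ.symm i) = 0
    rw [h0, mul_zero]
  · rintro ⟨j, hj, rfl⟩
    rw [mem_tsupp] at hj
    show (c (σ j) : ZMod 3) * x (σ.symm (σ j)) ≠ 0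
    rw [Equiv.symm_apply_apply]
    exact mul_ne_zero (Units.ne_zero _) hj

/-- elements of the group map hexads to hexads -/
theorem Gm_hex {σ : Equiv.Perm ArrayPt} (hσ : σ ∈ Gm) (b : Finset ArrayPt) (hb : b ∈ hexF) :
    b.image σ ∈ hexF := by
  obtain ⟨c, hc⟩ := hσ
  rw [mem_hexF] at hb ⊢
  obtain ⟨x, hx, rfl, hcard⟩ := hb
  refine ⟨monomialMap σ c x, hc x hx, supp_monomial σ c x, ?_⟩
  rw [Finset.card_image_of_injective _ σ.injective]
  exact hcard

/-- index to point -/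
def pA (n : ℕ) : ArrayPt := (Fin.ofNat 4 (n / 3), (n : ZMod 3))

/-- point to index -/
def iA (p : ArrayPt) : ℕ := 3 * p.1.val + ZMod.val p.2

/-- a permutation from its table and the table of its inverse -/
def mkPerm (l li : List ℕ)
    (h : ∀ p : ArrayPt, pA (li.getD (iA (pA (l.getD (iA p) 0))) 0) = p ∧
      pA (l.getD (iA (pA (li.getD (iA p) 0))) 0) = p) : Equiv.Perm ArrayPt where
  toFun p := pA (l.getD (iA p) 0)
  invFun p := pA (li.getD (iA p) 0)
  left_inv p := (h p).1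
  right_inv p := (h p).2

/-- a sign vector from a list -/
def mkSign (s : List Bool) : ArrayPt → (ZMod 3)ˣ := fun p => if s.getD (iA p) false then -1 else 1

/-- the information coordinates of a word -/
def info (y : ArrayPt → ZMod 3) : P6 := (y (0, 0), y (0, 1), y (0, 2), y (1, 0), y (1, 1), y (2, 0))

theorem PM_of_check (σ : Equiv.Perm ArrayPt) (c : ArrayPt → (ZMod 3)ˣ)
    (h : ∀ p : P6, encP (info (monomialMap σ c (encP p))) = monomialMap σ c (encP p)) :
    PM σ c := by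
  intro x hx
  obtain ⟨p, rfl⟩ := (mem_code_iff x).mp hx
  exact (mem_code_iff _).mpr ⟨_, h p⟩

/-- generator 0 -/
def g0 : Equiv.Perm ArrayPt := mkPerm [5, 2, 6, 0, 1, 10, 4, 11, 3, 8, 7, 9] [3, 4, 1, 8, 6, 0, 2, 10, 9, 11, 5, 7] (by decide)

/-- signs of generator 0 -/
def s0 : List Bool := [false, true, true, false, true, true, true, true, false, false, false, false]

/-- generator 1 -/
def g1 : Equiv.Perm ArrayPt := mkPerm [8, 1, 5, 0, 3, 7, 6, 11, 4, 9, 10, 2] [3, 1, 11, 4, 8, 2, 6, 5, 0, 9, 10, 7] (by decide)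

/-- signs of generator 1 -/
def s1 : List Bool := [false, false, true, true, false, true, false, true, true, true, true, true]

/-- generator 2 -/
def g2 : Equiv.Perm ArrayPt := mkPerm [0, 1, 6, 9, 10, 4, 7, 2, 8, 11, 5, 3] [0, 1, 7, 11, 5, 10, 2, 6, 8, 3, 4, 9] (by decide)

/-- signs of generator 2 -/
def s2 : List Bool := [false, false, true, true, false, true, true, false, false, true, true, false]

/-- generator 3 -/
def g3 : Equiv.Perm ArrayPt := mkPerm [3, 4, 1, 8, 6, 0, 2, 10, 9, 11, 5, 7] [5, 2, 6, 0, 1, 10, 4, 11, 3, 8, 7, 9] (by decide)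

/-- signs of generator 3 -/
def s3 : List Bool := [false, false, false, true, false, true, false, true, true, true, false, true]

/-- generator 4 -/
def g4 : Equiv.Perm ArrayPt := mkPerm [3, 1, 11, 4, 8, 2, 6, 5, 0, 9, 10, 7] [8, 1, 5, 0, 3, 7, 6, 11, 4, 9, 10, 2] (by decide)

/-- signs of generator 4 -/
def s4 : List Bool := [false, true, false, true, false, false, true, false, true, false, false, false]

/-- generator 5 -/
def g5 : Equiv.Perm ArrayPt := mkPerm [0, 1, 7, 11, 5, 10, 2, 6, 8, 3, 4, 9] [0, 1, 6, 9, 10, 4, 7, 2, 8, 11, 5, 3] (by decide)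

/-- signs of generator 5 -/
def s5 : List Bool := [false, false, true, true, true, false, false, true, false, false, true, true]

/-- the transversal words -/
def words : List (List (List ℕ)) := [
  [[], [0, 1, 1], [4, 0], [3], [1, 1], [0], [0, 4, 0], [1, 0], [1], [2, 3], [0, 0], [5, 3]],
  [[], [0, 4], [1, 3], [0, 1, 2, 0], [1, 0, 1], [0, 0, 1], [5, 0, 4], [4, 3, 4], [2, 1, 3], [0, 5, 3, 1], [5, 1, 3]],
  [[], [2, 4, 5, 1, 2], [4, 2, 1, 5], [2, 4, 5, 1], [2], [5], [4, 2, 1], [4, 5, 1, 5], [4, 5, 1], [4, 5, 1, 2]],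
  [[], [2, 0, 0, 4, 2, 0], [0, 5, 4, 2, 3], [3, 1, 3, 3, 4, 3], [0, 1, 3, 1, 0, 2, 0], [2, 3, 5, 1, 3, 3], [0, 0, 4, 2, 0, 5], [0, 5, 1, 2, 3], [0, 1, 0, 0, 4, 0]],
  [[], [1, 2, 0, 5, 1, 0, 1, 0], [1, 5, 4, 2, 1, 1, 2, 1], [0, 0, 5, 1, 1, 0, 1], [0, 0, 4, 0, 0, 1, 5, 4], [0, 1, 2, 4, 3, 5, 4, 2], [1, 2, 4, 3, 3, 1, 3, 3], [4, 3, 1, 1, 2, 3, 3]]]

theorem g0_PM : PM g0 (mkSign s0) := PM_of_check _ _ (by decide +kernel)
theorem g1_PM : PM g1 (mkSign s1) := PM_of_check _ _ (by decide +kernel)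
theorem g2_PM : PM g2 (mkSign s2) := PM_of_check _ _ (by decide +kernel)
theorem g3_PM : PM g3 (mkSign s3) := PM_of_check _ _ (by decide +kernel)
theorem g4_PM : PM g4 (mkSign s4) := PM_of_check _ _ (by decide +kernel)
theorem g5_PM : PM g5 (mkSign s5) := PM_of_check _ _ (by decide +kernel)

/-- the generators by number -/
def gen : ℕ → Equiv.Perm ArrayPt
  | 0 => g0
  | 1 => g1
  | 2 => g2
  | 3 => g3
  | 4 => g4
  | 5 => g5
  | _ => 1

theorem gen_mem (i : ℕ) : gen i ∈ Gm := by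
  match i with
  | 0 => exact ⟨_, g0_PM⟩
  | 1 => exact ⟨_, g1_PM⟩
  | 2 => exact ⟨_, g2_PM⟩
  | 3 => exact ⟨_, g3_PM⟩
  | 4 => exact ⟨_, g4_PM⟩
  | 5 => exact ⟨_, g5_PM⟩
  | (n + 6) => exact Gm.one_mem

/-- the value of a word -/
def ev : List ℕ → Equiv.Perm ArrayPt
  | [] => 1
  | i :: w => gen i * ev w

theorem ev_mem (w : List ℕ) : ev w ∈ Gm := by
  induction w with
  | nil => exact Gm.one_mem
  | cons i w ih => exact Gm.mul_mem (gen_mem i) ih

theorem lev_cert : ∀ k < 5, ∀ y : ArrayPt, (∀ j < k, y ≠ pA j) →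
    ∃ w ∈ words.getD k [], (∀ j < k, ev w (pA j) = pA j) ∧ ev w (pA k) = y := by
  decide +kernel

/-- 5-transitivity on the base points -/
theorem trans_step : ∀ k ≤ 5, ∀ y : ℕ → ArrayPt, (∀ i < 5, ∀ j < 5, y i = y j → i = j) →
    ∃ g ∈ Gm, ∀ j < k, g (pA j) = y j := by
  intro k
  induction k with
  | zero => intro _ y _; exact ⟨1, Gm.one_mem, fun j hj => absurd hj (Nat.not_lt_zero j)⟩
  | succ k ih =>
    intro hk y hy
    obtain ⟨g, hg, hgy⟩ := ih (by omega) y hy
    have hz : ∀ j < k, g⁻¹ (y k) ≠ pA j := by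
      intro j hj h
      have h1 : y k = g (pA j) := by rw [← h]; simp
      rw [hgy j hj] at h1
      have := hy k (by omega) j (by omega) h1
      omega
    obtain ⟨w, -, hw1, hw2⟩ := lev_cert k (by omega) (g⁻¹ (y k)) hz
    refine ⟨g * ev w, Gm.mul_mem hg (ev_mem w), ?_⟩
    intro j hj
    rw [Equiv.Perm.mul_apply]
    rcases Nat.lt_succ_iff_lt_or_eq.mp hj with h | h
    · rw [hw1 j h, hgy j h]
    · rw [h, hw2]; simp

end Cfsg.Agent.Lib.helper27.TM12
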