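import Mathlib
import Cfsg.Agent.Lib.helper27.TM12A

set_option autoImplicit false

/-! An automorphism of the hexad system of the ternary code of length 12 fixing five base points
is trivial. -/

namespace Cfsg.Agent.Lib.helper27.TM12

open Cfsg
open Cfsg.Agent.Lib.helper28.TG

/-- the set of points with the listed indices -/
def fs (l : List ℕ) : Finset ArrayPt := (l.map pA).toFinset

/-- a witness for a pair of points outside the base hexad -/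
structure Wit where
  x : ℕ
  y : ℕ
  x' : ℕ
  z1 : ℕ
  z2 : ℕ
  S1 : List ℕ
  S2 : List ℕ
  p1 : P6
  p2 : P6
  p3 : P6
  p4 : P6

/-- the base hexad -/
def H0 : Finset ArrayPt := fs [0, 1, 2, 3, 4, 5]

/-- the conditions on a witness -/
def witOK (e : Wit) : Prop :=
  ternarySupport (encP e.p1) = insert (pA e.x) (insert (pA e.x') (fs e.S1)) ∧
  ternarySupport (encP e.p2) = insert (pA e.x) (insert (pA e.x') (fs e.S2)) ∧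
  ternarySupport (encP e.p3) = insert (pA e.y) (insert (pA e.z1) (fs e.S1)) ∧
  ternarySupport (encP e.p4) = insert (pA e.y) (insert (pA e.z2) (fs e.S2)) ∧
  (ternarySupport (encP e.p1)).card = 6 ∧ (ternarySupport (encP e.p2)).card = 6 ∧
  (ternarySupport (encP e.p3)).card = 6 ∧ (ternarySupport (encP e.p4)).card = 6 ∧
  pA e.z1 ≠ pA e.z2 ∧ fs e.S1 ⊆ H0 ∧ fs e.S2 ⊆ H0 ∧ pA e.x' ∉ fs e.S1 ∧ pA e.x' ∉ fs e.S2 ∧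
  pA e.x' ≠ pA e.x ∧ (insert (pA e.y) (fs e.S1)).card = 5 ∧ (insert (pA e.y) (fs e.S2)).card = 5

instance : DecidablePred witOK := fun e => by unfold witOK; infer_instance

/-- the witnesses -/
def witList : List Wit := [
  ⟨6, 7, 8, 9, 11, [0, 1, 3, 4], [0, 2, 4, 5], (1, 2, 0, 1, 2, 1), (1, 0, 2, 0, 2, 2), (1, 1, 0, 1, 1, 0), (1, 0, 1, 0, 1, 0)⟩,
  ⟨6, 8, 7, 10, 9, [0, 1, 4, 5], [0, 2, 3, 5], (1, 2, 0, 0, 1, 2), (1, 0, 2, 1, 0, 1), (1, 1, 0, 0, 1, 0), (1, 0, 1, 1, 0, 0)⟩,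
  ⟨6, 9, 7, 11, 8, [0, 1, 4, 5], [0, 2, 3, 5], (1, 2, 0, 0, 1, 2), (1, 0, 2, 1, 0, 1), (1, 2, 0, 0, 2, 0), (1, 0, 1, 1, 0, 0)⟩,
  ⟨6, 10, 7, 8, 11, [0, 1, 4, 5], [0, 2, 3, 5], (1, 2, 0, 0, 1, 2), (1, 0, 2, 1, 0, 1), (1, 1, 0, 0, 1, 0), (1, 0, 2, 2, 0, 0)⟩,
  ⟨6, 11, 7, 9, 10, [0, 1, 4, 5], [0, 2, 3, 5], (1, 2, 0, 0, 1, 2), (1, 0, 2, 1, 0, 1), (1, 2, 0, 0, 2, 0), (1, 0, 2, 2, 0, 0)⟩,
  ⟨7, 6, 8, 11, 10, [0, 1, 3, 5], [0, 2, 3, 4], (1, 2, 0, 2, 0, 0), (1, 0, 2, 2, 1, 0), (1, 1, 0, 1, 0, 2), (1, 0, 1, 1, 1, 2)⟩,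
  ⟨7, 8, 6, 10, 9, [0, 1, 4, 5], [0, 2, 3, 5], (1, 2, 0, 0, 1, 2), (1, 0, 2, 1, 0, 1), (1, 1, 0, 0, 1, 0), (1, 0, 1, 1, 0, 0)⟩,
  ⟨7, 9, 6, 11, 8, [0, 1, 4, 5], [0, 2, 3, 5], (1, 2, 0, 0, 1, 2), (1, 0, 2, 1, 0, 1), (1, 2, 0, 0, 2, 0), (1, 0, 1, 1, 0, 0)⟩,
  ⟨7, 10, 6, 8, 11, [0, 1, 4, 5], [0, 2, 3, 5], (1, 2, 0, 0, 1, 2), (1, 0, 2, 1, 0, 1), (1, 1, 0, 0, 1, 0), (1, 0, 2, 2, 0, 0)⟩,
  ⟨7, 11, 6, 9, 10, [0, 1, 4, 5], [0, 2, 3, 5], (1, 2, 0, 0, 1, 2), (1, 0, 2, 1, 0, 1), (1, 2, 0, 0, 2, 0), (1, 0, 2, 2, 0, 0)⟩,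
  ⟨8, 6, 7, 11, 10, [0, 1, 3, 5], [0, 2, 3, 4], (1, 2, 0, 2, 0, 0), (1, 0, 2, 2, 1, 0), (1, 1, 0, 1, 0, 2), (1, 0, 1, 1, 1, 2)⟩,
  ⟨8, 7, 6, 9, 11, [0, 1, 3, 4], [0, 2, 4, 5], (1, 2, 0, 1, 2, 1), (1, 0, 2, 0, 2, 2), (1, 1, 0, 1, 1, 0), (1, 0, 1, 0, 1, 0)⟩,
  ⟨8, 9, 6, 7, 10, [0, 1, 3, 4], [0, 2, 4, 5], (1, 2, 0, 1, 2, 1), (1, 0, 2, 0, 2, 2), (1, 1, 0, 1, 1, 0), (1, 0, 2, 0, 1, 0)⟩,
  ⟨8, 10, 6, 11, 9, [0, 1, 3, 4], [0, 2, 4, 5], (1, 2, 0, 1, 2, 1), (1, 0, 2, 0, 2, 2), (1, 2, 0, 2, 1, 0), (1, 0, 2, 0, 1, 0)⟩,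
  ⟨8, 11, 6, 10, 7, [0, 1, 3, 4], [0, 2, 4, 5], (1, 2, 0, 1, 2, 1), (1, 0, 2, 0, 2, 2), (1, 2, 0, 2, 1, 0), (1, 0, 1, 0, 1, 0)⟩,
  ⟨9, 6, 7, 10, 8, [0, 1, 2, 5], [0, 1, 3, 4], (1, 1, 2, 0, 0, 0), (1, 1, 0, 1, 1, 0), (1, 2, 1, 0, 0, 1), (1, 2, 0, 1, 2, 1)⟩,
  ⟨9, 7, 6, 11, 10, [0, 1, 2, 3], [0, 3, 4, 5], (1, 2, 2, 2, 0, 2), (1, 0, 0, 2, 1, 1), (1, 2, 1, 1, 0, 0), (1, 0, 0, 1, 2, 0)⟩,
  ⟨9, 8, 6, 10, 11, [0, 1, 2, 3], [0, 3, 4, 5], (1, 2, 2, 2, 0, 2), (1, 0, 0, 2, 1, 1), (1, 1, 2, 1, 0, 0), (1, 0, 0, 1, 1, 0)⟩,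
  ⟨9, 10, 6, 8, 7, [0, 1, 2, 3], [0, 3, 4, 5], (1, 2, 2, 2, 0, 2), (1, 0, 0, 2, 1, 1), (1, 1, 2, 1, 0, 0), (1, 0, 0, 1, 2, 0)⟩,
  ⟨9, 11, 6, 7, 8, [0, 1, 2, 3], [0, 3, 4, 5], (1, 2, 2, 2, 0, 2), (1, 0, 0, 2, 1, 1), (1, 2, 1, 1, 0, 0), (1, 0, 0, 1, 1, 0)⟩,
  ⟨10, 6, 7, 11, 9, [0, 1, 2, 4], [0, 3, 4, 5], (1, 2, 2, 0, 2, 0), (1, 0, 0, 1, 2, 0), (1, 1, 2, 0, 1, 1), (1, 0, 0, 2, 1, 1)⟩,
  ⟨10, 7, 6, 9, 8, [0, 1, 2, 5], [0, 2, 3, 4], (1, 2, 1, 0, 0, 1), (1, 0, 1, 1, 1, 2), (1, 1, 2, 0, 0, 0), (1, 0, 2, 2, 1, 0)⟩,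
  ⟨10, 8, 6, 11, 7, [0, 1, 2, 5], [0, 2, 3, 4], (1, 2, 1, 0, 0, 1), (1, 0, 1, 1, 1, 2), (1, 2, 2, 0, 0, 0), (1, 0, 2, 2, 1, 0)⟩,
  ⟨10, 9, 6, 7, 11, [0, 1, 2, 5], [0, 2, 3, 4], (1, 2, 1, 0, 0, 1), (1, 0, 1, 1, 1, 2), (1, 1, 2, 0, 0, 0), (1, 0, 2, 1, 2, 0)⟩,
  ⟨10, 11, 6, 8, 9, [0, 1, 2, 5], [0, 2, 3, 4], (1, 2, 1, 0, 0, 1), (1, 0, 1, 1, 1, 2), (1, 2, 2, 0, 0, 0), (1, 0, 2, 1, 2, 0)⟩,
  ⟨11, 6, 7, 9, 8, [0, 1, 2, 3], [0, 2, 4, 5], (1, 2, 1, 1, 0, 0), (1, 0, 1, 0, 1, 0), (1, 2, 2, 2, 0, 2), (1, 0, 2, 0, 2, 2)⟩,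
  ⟨11, 7, 6, 10, 8, [0, 1, 2, 4], [0, 1, 3, 5], (1, 1, 2, 0, 1, 1), (1, 1, 0, 1, 0, 2), (1, 2, 2, 0, 2, 0), (1, 2, 0, 2, 0, 0)⟩,
  ⟨11, 8, 6, 9, 7, [0, 1, 2, 4], [0, 1, 3, 5], (1, 1, 2, 0, 1, 1), (1, 1, 0, 1, 0, 2), (1, 2, 1, 0, 1, 0), (1, 2, 0, 2, 0, 0)⟩,
  ⟨11, 9, 6, 8, 10, [0, 1, 2, 4], [0, 1, 3, 5], (1, 1, 2, 0, 1, 1), (1, 1, 0, 1, 0, 2), (1, 2, 1, 0, 1, 0), (1, 2, 0, 1, 0, 0)⟩,
  ⟨11, 10, 6, 7, 9, [0, 1, 2, 4], [0, 1, 3, 5], (1, 1, 2, 0, 1, 1), (1, 1, 0, 1, 0, 2), (1, 2, 2, 0, 2, 0), (1, 2, 0, 1, 0, 0)⟩]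

/-- the code word of the base hexad -/
def p0 : P6 := (1, 1, 1, 2, 2, 0)

theorem wit_ok : ∀ e ∈ witList, witOK e := by decide +kernel

theorem wit_cover : ∀ x y : ArrayPt, x ∉ H0 → y ∉ H0 → x ≠ y →
    ∃ e ∈ witList, pA e.x = x ∧ pA e.y = y := by decide +kernel

theorem H0_hex : ternarySupport (encP p0) = H0 ∧ (ternarySupport (encP p0)).card = 6 := by
  decide +kernel

theorem H0_mem : ∀ s : ArrayPt, s ∈ H0 → (s = pA 0 ∨ s = pA 1 ∨ s = pA 2 ∨ s = pA 3 ∨ s = pA 4 ∨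
    s = pA 5) := by decide +kernel

theorem H0_eq : insert (pA 0) (insert (pA 5) (fs [1, 2, 3, 4])) = H0 ∧
    (insert (pA 0) (fs [1, 2, 3, 4])).card = 5 ∧ pA 5 ≠ pA 0 ∧ pA 5 ∉ fs [1, 2, 3, 4] ∧
    ∀ s ∈ fs [1, 2, 3, 4], s = pA 1 ∨ s = pA 2 ∨ s = pA 3 ∨ s = pA 4 := by decide +kernel

theorem hexF_of_supp (p : P6) (h : Finset ArrayPt) (h1 : ternarySupport (encP p) = h)
    (h2 : (ternarySupport (encP p)).card = 6) : h ∈ hexF :=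
  (mem_hexF h).mpr ⟨encP p, (mem_code_iff _).mpr ⟨p, rfl⟩, h1, h1 ▸ h2⟩

theorem not_mem_of_fixed (σ : Equiv.Perm ArrayPt) (S : Finset ArrayPt) (hS : ∀ s ∈ S, σ s = s)
    (a : ArrayPt) (ha : a ∉ S) : σ a ∉ S := by
  intro h
  have h1 := hS _ h
  exact ha (σ.injective h1 ▸ h)

theorem sixth_unique (σ : Equiv.Perm ArrayPt) (hσ : ∀ b ∈ hexF, b.image σ ∈ hexF)
    (S : Finset ArrayPt) (hS : ∀ s ∈ S, σ s = s) (X X' Y Z : ArrayPt)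
    (h1 : insert X (insert X' S) ∈ hexF) (h2 : insert Y (insert Z S) ∈ hexF) (hXY : σ X = Y)
    (hcard : (insert Y S).card = 5) (hX' : σ X' ≠ Y) (hX'S : σ X' ∉ S) : σ X' = Z := by
  have h3 := hσ _ h1
  have hSimg : S.image σ = S := by
    ext a
    rw [Finset.mem_image]
    constructor
    · rintro ⟨s, hs, rfl⟩
      rw [hS s hs]; exact hs
    · intro ha
      exact ⟨a, ha, hS a ha⟩
  rw [Finset.image_insert, Finset.image_insert, hSimg, hXY] at h3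
  have hsub : ∀ W : ArrayPt, insert Y S ⊆ insert Y (insert W S) := by
    intro W a ha
    rw [Finset.mem_insert] at ha ⊢
    rcases ha with h | h
    · left; exact h
    · right; exact Finset.mem_insert_of_mem h
  have h4 := hexF_unique h2 h3 (insert Y S) hcard (hsub Z) (hsub (σ X'))
  have h5 : σ X' ∈ insert Y (insert (σ X') S) := by simp
  rw [h4, Finset.mem_insert, Finset.mem_insert] at h5
  rcases h5 with h | h | h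
  · exact absurd h hX'
  · exact h
  · exact absurd h hX'S

/-- an automorphism fixing the five base points is trivial -/
theorem fix_all (σ : Equiv.Perm ArrayPt) (hσ : ∀ b ∈ hexF, b.image σ ∈ hexF)
    (hfix : ∀ j < 5, σ (pA j) = pA j) : σ = 1 := by
  have hH0 := H0_hex
  have hH0mem : H0 ∈ hexF := hexF_of_supp p0 H0 hH0.1 hH0.2
  obtain ⟨e1, e2, e3, e4, e5⟩ := H0_eq
  have hSfix : ∀ s ∈ fs [1, 2, 3, 4], σ s = s := by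
    intro s hs
    rcases e5 s hs with h | h | h | h <;> rw [h] <;> exact hfix _ (by norm_num)
  have h5 : σ (pA 5) = pA 5 := by
    refine sixth_unique σ hσ (fs [1, 2, 3, 4]) hSfix (pA 0) (pA 5) (pA 0) (pA 5) ?_ ?_
      (hfix 0 (by norm_num)) e2 ?_ (not_mem_of_fixed σ _ hSfix _ e4)
    · rw [e1]; exact hH0mem
    · rw [e1]; exact hH0mem
    · intro h
      have h' : σ (pA 5) = σ (pA 0) := by rw [h, hfix 0 (by norm_num)]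
      exact e3 (σ.injective h')
  have hfixH : ∀ s ∈ H0, σ s = s := by
    intro s hs
    rcases H0_mem s hs with h | h | h | h | h | h
    · rw [h]; exact hfix _ (by norm_num)
    · rw [h]; exact hfix _ (by norm_num)
    · rw [h]; exact hfix _ (by norm_num)
    · rw [h]; exact hfix _ (by norm_num)
    · rw [h]; exact hfix _ (by norm_num)
    · rw [h]; exact h5
  apply Equiv.ext
  intro x
  by_contra hx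
  have hx' : σ x ≠ x := hx
  have hxH : x ∉ H0 := fun h => hx' (hfixH x h)
  have hyH : σ x ∉ H0 := not_mem_of_fixed σ H0 hfixH x hxH
  obtain ⟨e, he, hex, hey⟩ := wit_cover x (σ x) hxH hyH (Ne.symm hx')
  obtain ⟨q1, q2, q3, q4, c1, c2, c3, c4, hz, hS1, hS2, hx1, hx2, hxx, k1, k2⟩ := wit_ok e he
  have hS1fix : ∀ s ∈ fs e.S1, σ s = s := fun s hs => hfixH s (hS1 hs)
  have hS2fix : ∀ s ∈ fs e.S2, σ s = s := fun s hs => hfixH s (hS2 hs)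
  have hne : σ (pA e.x') ≠ pA e.y := by
    rw [hey]
    intro h
    apply hxx
    rw [hex]
    exact σ.injective h
  have hXY : σ (pA e.x) = pA e.y := by rw [hex, hey]
  have r1 := sixth_unique σ hσ (fs e.S1) hS1fix (pA e.x) (pA e.x') (pA e.y) (pA e.z1)
    (hexF_of_supp e.p1 _ q1 c1) (hexF_of_supp e.p3 _ q3 c3) hXY k1 hne
    (not_mem_of_fixed σ _ hS1fix _ hx1)
  have r2 := sixth_unique σ hσ (fs e.S2) hS2fix (pA e.x) (pA e.x') (pA e.y) (pA e.z2)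
    (hexF_of_supp e.p2 _ q2 c2) (hexF_of_supp e.p4 _ q4 c4) hXY k2 hne
    (not_mem_of_fixed σ _ hS2fix _ hx2)
  exact hz (r1.symm.trans r2)

end Cfsg.Agent.Lib.helper27.TM12
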