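import Mathlib
import Cfsg.Agent.Lib.helper27.TM12B

set_option autoImplicit false

/-! The monomial automorphism group of the ternary code of length 12 has order 190080 and its
permutation parts are the automorphisms of the hexad system. -/

namespace Cfsg.Agent.Lib.helper27.TM12

open Cfsg
open Cfsg.Agent.Lib.helper28.TG
open scoped Pointwise

/-- the hexad system -/
abbrev Hx : Set (Finset ArrayPt) :=
  {h | ∃ x ∈ ternaryGolayCode, ternarySupport x = h ∧ h.card = 6}

theorem Hx_eq : Hx = ↑hexF := by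
  ext h
  rw [Finset.mem_coe, mem_hexF]
  rfl

theorem aut_iff (σ : Equiv.Perm ArrayPt) :
    σ ∈ setSystemAut Hx ↔ ∀ b ∈ hexF, b.image σ ∈ hexF := by
  rw [Hx_eq]
  show σ ∈ MulAction.stabilizer (Equiv.Perm ArrayPt) (↑hexF : Set (Finset ArrayPt)) ↔ _
  rw [MulAction.mem_stabilizer_set_iff_smul_set_subset (Finset.finite_toSet hexF)]
  constructor
  · intro h b hb
    have h1 : σ • b ∈ σ • (↑hexF : Set (Finset ArrayPt)) :=
      Set.smul_mem_smul_set (Finset.mem_coe.mpr hb)
    exact h h1
  · rintro h _ ⟨b, hb, rfl⟩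
    exact h b hb

theorem pA_inj : ∀ i < 12, ∀ j < 12, pA i = pA j → i = j := by decide

theorem Gm_eq_aut :
    (Gm : Set (Equiv.Perm ArrayPt)) = (setSystemAut Hx : Set (Equiv.Perm ArrayPt)) := by
  ext σ
  simp only [SetLike.mem_coe]
  constructor
  · intro h
    exact (aut_iff σ).mpr (Gm_hex h)
  · intro h
    have hinj : ∀ i < 5, ∀ j < 5, σ (pA i) = σ (pA j) → i = j := by
      intro i hi j hj hij
      exact pA_inj i (by omega) j (by omega) (σ.injective hij)
    obtain ⟨g, hg, hgy⟩ := trans_step 5 le_rfl (fun j => σ (pA j)) hinj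
    have hg' := (aut_iff g).mpr (Gm_hex hg)
    have h1 : g⁻¹ * σ = 1 := by
      apply fix_all
      · exact (aut_iff _).mp ((setSystemAut Hx).mul_mem ((setSystemAut Hx).inv_mem hg') h)
      · intro j hj
        rw [Equiv.Perm.mul_apply, ← hgy j hj]
        simp
    have h2 : σ = g := by
      rw [inv_mul_eq_one] at h1
      exact h1.symm
    rw [h2]
    exact hg

/-- the base points as an embedding -/
def baseEmb : Fin 5 ↪ ArrayPt :=
  ⟨fun j => pA j.val, by
    intro i j h
    exact Fin.ext (pA_inj _ (by omega) _ (by omega) h)⟩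

/-- the images of the base points -/
def toEmb (σ : Gm) : Fin 5 ↪ ArrayPt := baseEmb.trans σ.1.toEmbedding

theorem toEmb_apply (σ : Gm) (j : Fin 5) : toEmb σ j = σ.1 (pA j.val) := rfl

theorem toEmb_bij : Function.Bijective toEmb := by
  constructor
  · intro σ τ h
    have h1 : (τ.1)⁻¹ * σ.1 = 1 := by
      apply fix_all
      · exact Gm_hex (Gm.mul_mem (Gm.inv_mem τ.2) σ.2)
      · intro j hj
        have h2 : σ.1 (pA j) = τ.1 (pA j) := by
          have h3 := congrArg (fun e : Fin 5 ↪ ArrayPt => e ⟨j, hj⟩) h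
          exact h3
        rw [Equiv.Perm.mul_apply, h2]
        simp
    apply Subtype.ext
    rw [inv_mul_eq_one] at h1
    exact h1.symm
  · intro y
    obtain ⟨g, hg, hgy⟩ := trans_step 5 le_rfl
      (fun j => if h : j < 5 then y ⟨j, h⟩ else pA 0) (by
        intro i hi j hj hij
        simp only [dif_pos hi, dif_pos hj] at hij
        have := y.injective hij
        exact Fin.mk.inj_iff.mp this)
    refine ⟨⟨g, hg⟩, ?_⟩
    apply DFunLike.ext
    intro j
    rw [toEmb_apply]
    show g (pA j.val) = y j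
    rw [hgy j.val j.isLt, dif_pos j.isLt]

theorem card_Gm : Nat.card Gm = 95040 := by
  rw [Nat.card_congr (Equiv.ofBijective toEmb toEmb_bij), Nat.card_eq_fintype_card,
    Fintype.card_embedding_eq, Fintype.card_fin, card_array]
  rfl

theorem PM_unique {σ : Equiv.Perm ArrayPt} {c c' : ArrayPt → (ZMod 3)ˣ} (h : PM σ c)
    (h' : PM σ c') : c' = c ∨ c' = fun i => -c i := by
  have hP : PM 1 (fun i => c' i * (c i)⁻¹) := by
    intro y hy
    obtain ⟨x, hx, rfl⟩ := PM_surj h y hy
    have : monomialMap 1 (fun i => c' i * (c i)⁻¹) (monomialMap σ c x) = monomialMap σ c' x := by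
      funext i
      show ((c' i * (c i)⁻¹ : (ZMod 3)ˣ) : ZMod 3) *
        ((c ((1 : Equiv.Perm ArrayPt).symm i) : ZMod 3) *
          x (σ.symm ((1 : Equiv.Perm ArrayPt).symm i))) = (c' i : ZMod 3) * x (σ.symm i)
      have e1 : (1 : Equiv.Perm ArrayPt).symm i = i := rfl
      rw [e1, ← mul_assoc, ← Units.val_mul, inv_mul_cancel_right]
    rw [this]
    exact h' x hx
  rcases sign_const _ hP with h1 | h1
  · left
    funext i
    exact mul_inv_eq_one.mp (h1 i)
  · right
    funext i
    have h2 := h1 i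
    rw [mul_inv_eq_iff_eq_mul] at h2
    rw [h2]
    simp

theorem unit_neg_ne : ∀ u : (ZMod 3)ˣ, -u ≠ u := by
  intro u h
  rcases unit_cases u with h1 | h1 <;> rw [h1] at h <;> revert h <;> decide

/-- the monomial automorphisms -/
abbrev Mon : Type :=
  {f : Equiv.Perm ArrayPt × (ArrayPt → (ZMod 3)ˣ) //
    (∀ x ∈ ternaryGolayCode, monomialMap f.1 f.2 x ∈ ternaryGolayCode)}

/-- the permutation part and one sign -/
def monMap (f : Mon) : Gm × (ZMod 3)ˣ := (⟨f.1.1, ⟨f.1.2, f.2⟩⟩, f.1.2 (pA 0))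

theorem monMap_bij : Function.Bijective monMap := by
  constructor
  · rintro ⟨⟨σ, c⟩, hf⟩ ⟨⟨σ', c'⟩, hf'⟩ h
    have h1 : σ = σ' := congrArg (fun z : Gm × (ZMod 3)ˣ => z.1.1) h
    have h2 : c (pA 0) = c' (pA 0) := congrArg (fun z : Gm × (ZMod 3)ˣ => z.2) h
    subst h1
    have h3 : c' = c := by
      rcases PM_unique (σ := σ) (c := c) (c' := c') hf hf' with h4 | h4
      · exact h4
      · exfalso
        rw [h4] at h2
        exact unit_neg_ne _ h2.symm
    subst h3
    rfl
  · rintro ⟨⟨σ, c0, hc0⟩, u⟩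
    by_cases hu : c0 (pA 0) = u
    · exact ⟨⟨(σ, c0), hc0⟩, by
        show ((⟨σ, _⟩ : Gm), c0 (pA 0)) = _
        rw [hu]⟩
    · refine ⟨⟨(σ, fun i => -c0 i), PM_neg hc0⟩, ?_⟩
      show ((⟨σ, _⟩ : Gm), -c0 (pA 0)) = _
      have : -c0 (pA 0) = u := by
        rcases unit_cases (c0 (pA 0)) with h1 | h1 <;> rcases unit_cases u with h2 | h2
        · exact absurd (h1.trans h2.symm) hu
        · rw [h1, h2]
        · rw [h1, h2]; simp
        · exact absurd (h1.trans h2.symm) hu
      rw [this]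

theorem card_units3 : Nat.card (ZMod 3)ˣ = 2 := by
  rw [Nat.card_eq_fintype_card, ZMod.card_units_eq_totient]
  exact Nat.totient_prime Nat.prime_three

theorem main : Nat.card {f : Equiv.Perm ArrayPt × (ArrayPt → (ZMod 3)ˣ) //
      (∀ x ∈ ternaryGolayCode, monomialMap f.1 f.2 x ∈ ternaryGolayCode)} = 190080 ∧
    {σ : Equiv.Perm ArrayPt | ∃ c : ArrayPt → (ZMod 3)ˣ,
      (∀ x ∈ ternaryGolayCode, monomialMap σ c x ∈ ternaryGolayCode)} =
    (setSystemAut {h : Finset ArrayPt | ∃ x ∈ ternaryGolayCode,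
      ternarySupport x = h ∧ h.card = 6} : Set (Equiv.Perm ArrayPt)) := by
  constructor
  · have h := Nat.card_congr (Equiv.ofBijective monMap monMap_bij)
    rw [Nat.card_prod, card_Gm, card_units3] at h
    exact h
  · exact Gm_eq_aut

end Cfsg.Agent.Lib.helper27.TM12
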